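import Cfsg.Agent.ThreeTrans.Rank
import Cfsg.Agent.PReduced.Basic
import Cfsg.Agent.PCore.Basic

/-!
# A 3-transposition group without solvable normal subgroups and with perfect derived group has a monolith
-/

set_option autoImplicit false

namespace CfsgLib.ThreeTrans

open scoped commutatorElement

universe u

variable {G : Type u} [Group G]

theorem exists_orderOf_eq_three_pow {x : G} (h : x ^ 3 = 1) : ∃ k, orderOf x = 3 ^ k :=
  (Nat.dvd_prime Nat.prime_three).1 (orderOf_dvd_of_pow_eq_one h) |>.elim (fun e => ⟨0, by rw [e, pow_zero]⟩)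
    (fun e => ⟨1, by rw [e, pow_one]⟩)

/-- A group in which every element has order at most three is solvable. -/
theorem isSolvable_of_small_orders : ∀ (n : ℕ) (S : Type u) [Group S] [Finite S], Nat.card S = n →
    (∀ s : S, s ^ 2 = 1 ∨ s ^ 3 = 1) → Group.IsSolvable S := by
  intro n
  induction n using Nat.strong_induction_on with
  | _ n ih => ?_
  intro S _ _ hn hord
  haveI := Fact.mk Nat.prime_three
  by_cases hK : ∃ K : Subgroup S, K.Normal ∧ K ≠ ⊥ ∧ K ≠ ⊤
  · obtain ⟨K, hKn, hbot, htop⟩ := hK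
    have hcard := K.card_eq_card_quotient_mul_card_subgroup
    have h1 : 1 < Nat.card K := (Subgroup.one_lt_card_iff_ne_bot K).2 hbot
    have h2 : 1 < Nat.card (S ⧸ K) := by
      by_contra h
      apply htop
      rw [← Subgroup.index_eq_one, Subgroup.index_eq_card]
      have := Nat.card_pos (α := S ⧸ K)
      omega
    have e1 := ih (Nat.card K) (by rw [← hn, hcard]; nlinarith) K rfl fun s => by
      rcases hord s with h | h
      · exact Or.inl (Subtype.ext (by simpa using h))
      · exact Or.inr (Subtype.ext (by simpa using h))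
    have e2 := ih (Nat.card (S ⧸ K)) (by rw [← hn, hcard]; nlinarith) (S ⧸ K) rfl fun s => by
      induction s using QuotientGroup.induction_on with
      | H s => rcases hord s with h | h
               · exact Or.inl (by rw [← QuotientGroup.mk_pow, h]; rfl)
               · exact Or.inr (by rw [← QuotientGroup.mk_pow, h]; rfl)
    exact solvable_of_ker_le_range K.subtype (QuotientGroup.mk' K) (by rw [QuotientGroup.ker_mk', Subgroup.range_subtype])
  push Not at hK
  by_cases hcomm : ∀ x y : S, x * y = y * x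
  · exact Group.isSolvable_of_comm hcomm
  exfalso
  have htop : commutator S = ⊤ := by
    refine hK _ inferInstance fun h => hcomm fun x y => ?_
    have hmem : ⁅x, y⁆ ∈ commutator S := Subgroup.commutator_mem_commutator (Subgroup.mem_top _) (Subgroup.mem_top _)
    rw [h, Subgroup.mem_bot, commutatorElement_eq_one_iff_commute] at hmem
    exact hmem.eq
  obtain ⟨t, ht⟩ : ∃ t : S, orderOf t = 2 := by
    by_contra h
    push Not at h
    have h3 : IsPGroup 3 S := fun s => ⟨1, by
      rw [pow_one]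
      rcases hord s with h' | h'
      · have h1 : s = 1 := by
          by_contra hne
          exact h s (orderOf_eq_prime h' hne)
        rw [h1, one_pow]
      · exact h'⟩
    haveI := h3.isNilpotent
    have hs : Group.IsSolvable S := inferInstance
    have hnt : Nontrivial S := by
      by_contra h'
      rw [not_nontrivial_iff_subsingleton] at h'
      exact hcomm fun x y => Subsingleton.elim _ _
    exact absurd htop (ne_of_lt (Group.IsSolvable.commutator_lt_top_of_nontrivial S))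
  let D : Set S := conjugatesOf t
  have hD : Cfsg.IsThreeTranspositionClass D := by
    refine ⟨⟨fun d hd => ?_, fun d _ e _ => hord _⟩, ⟨t, IsConj.refl t, rfl⟩, ?_⟩
    · obtain ⟨g, rfl⟩ := isConj_iff.1 (hd : IsConj t d)
      rw [← ht]
      exact orderOf_injective (MulAut.conj g).toMonoidHom (MulAut.conj g).injective t
    · have e : Subgroup.closure D = Subgroup.normalClosure {t} := by
        simp [Subgroup.normalClosure, Group.conjugatesOfSet, D]
      rw [e]
      refine hK _ Subgroup.normalClosure_normal fun h => ?_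
      have hmem : t ∈ Subgroup.normalClosure ({t} : Set S) := Subgroup.subset_normalClosure rfl
      rw [h, Subgroup.mem_bot] at hmem
      rw [hmem, orderOf_one] at ht
      omega
  have hM : Mono S := fun K hKn hne => by
    rw [hK K hKn fun h => hne (by rw [h, bot_inf_eq]; exact bot_le)]
    exact le_top
  have hG : ¬ IsPGroup 3 (commutator S) := by
    intro h
    obtain ⟨k, hk⟩ := h ⟨t, htop ▸ Subgroup.mem_top t⟩
    have h1 : orderOf t ∣ 3 ^ k := orderOf_dvd_of_pow_eq_one (congrArg Subtype.val hk)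
    rw [ht] at h1
    exact absurd (Nat.prime_two.dvd_of_dvd_pow h1) (by norm_num)
  have htD : t ∈ D := IsConj.refl t
  obtain ⟨u, hu⟩ := perp_nonempty hD hM hG htD
  obtain ⟨x, hxt, hxu⟩ := exists_common_adj hD htD hu (exists_noncommuting hD hG)
  obtain ⟨φ, hφ, -, -, -⟩ := exists_sym4 hD.1 htD hxt.1 hu.1 hu.2.1.symm hu.2.2 hxt.2 fun e => hxu.2 e.symm
  rcases hord (φ (Equiv.swap 0 1 * Equiv.swap 1 2 * Equiv.swap 2 3)) with h | h <;>
    rw [← map_pow, map_eq_one_iff φ hφ] at h
  · exact absurd h (by decide)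
  · exact absurd h (by decide)

variable [Finite G]

theorem eq_bot_of_pGroup (hsol : ∀ N : Subgroup G, N.Normal → Group.IsSolvable ↥N → N = ⊥) {p : ℕ}
    [Fact p.Prime] {N U : Subgroup G} [N.Normal] (hle : U ≤ N) (hn : N ≤ Subgroup.normalizer (U : Set G))
    (hU : IsPGroup p U) : U = ⊥ := by
  have h1 : U ≤ Cfsg.pCoreOf p N := CfsgLib.PReduced.le_pCoreOf hle hn hU
  haveI := CfsgLib.PCore.pCore_characteristic p N
  haveI : (Cfsg.pCoreOf p N).Normal := ConjAct.normal_of_characteristic_of_normal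
  haveI := (CfsgLib.PReduced.isPGroup_pCoreOf (p := p) N).isNilpotent
  have h2 := hsol (Cfsg.pCoreOf p N) inferInstance inferInstance
  rw [h2] at h1
  exact le_bot_iff.1 h1

variable {D : Set G} (hD : Cfsg.IsThreeTranspositionClass D)
  (hsol : ∀ N : Subgroup G, N.Normal → Group.IsSolvable ↥N → N = ⊥)

include hD in
theorem closure_le_of_central {a : G} (ha : a ∈ D) {L : Subgroup G} [L.Normal] (h : ∀ n ∈ L, Commute n a) :
    L ≤ Subgroup.center G := by
  intro x hx
  rw [← Subgroup.centralizer_univ, ← Subgroup.coe_top, ← hD.2.2, Subgroup.centralizer_closure]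
  intro c hc
  obtain ⟨g, rfl⟩ := class_exists_conj hD ha hc
  have h1 := h _ (Subgroup.Normal.conj_mem ‹L.Normal› x hx g⁻¹)
  rw [inv_inv] at h1
  have h2 := (Commute.conj_iff g).2 h1
  simp only [mul_assoc, mul_inv_cancel_left, mul_inv_cancel, mul_one] at h2
  simpa [mul_assoc] using h2.eq.symm

include hD in
/-- In a normal subgroup admitting no `p`-subgroup containing all commutators with `a`, such commutators
of order two and of order three occur. -/
theorem exists_orders_of_no_pGroup {a : G} (ha : a ∈ D) (L : Subgroup G) [L.Normal]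
    (hP : ∀ (p : ℕ) [Fact p.Prime] (U : Subgroup G), U ≤ L → L ≤ Subgroup.normalizer (U : Set G) →
      IsPGroup p U → (∀ n ∈ L, n * a * n⁻¹ * a ∈ U) → False) :
    (∃ n ∈ L, (n * a * n⁻¹ * a) ^ 2 = 1 ∧ n * a * n⁻¹ * a ≠ 1) ∧
      ∃ n ∈ L, (n * a * n⁻¹ * a) ^ 3 = 1 ∧ n * a * n⁻¹ * a ≠ 1 := by
  haveI := Fact.mk Nat.prime_three
  haveI := Fact.mk Nat.prime_two
  have hai := inv_eq hD.1 ha
  have haa := mul_self hD.1 ha
  have hmemL : ∀ n ∈ L, n * a * n⁻¹ * a ∈ L := fun n hn => by
    have : n * a * n⁻¹ * a = n * (a * n⁻¹ * a⁻¹) := by rw [hai]; group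
    rw [this]
    exact L.mul_mem hn (Subgroup.Normal.conj_mem ‹_› _ (L.inv_mem hn) a)
  have hfin : ∀ (p : ℕ) [Fact p.Prime] (U : Subgroup G), U ≤ L → L ≤ Subgroup.normalizer (U : Set G) →
      IsPGroup p U → (∀ n ∈ L, n * a * n⁻¹ * a ∈ U) → False := fun p _ U h1 h2 h3 h4 => hP p U h1 h2 h3 h4
  have hdich : ∀ n : G, (n * a * n⁻¹ * a) ^ 2 = 1 ∨ (n * a * n⁻¹ * a) ^ 3 = 1 := fun n =>
    hD.1.2 _ (class_conj_mem hD n ha) a ha
  refine ⟨?_, ?_⟩ <;> by_contra h <;> push Not at h
  · have hcube : ∀ n ∈ L, (n * a * n⁻¹ * a) ^ 3 = 1 := fun n hn =>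
      (hdich n).elim (fun h2 => by rw [h n hn h2, one_pow]) id
    set H : Subgroup G := L ⊔ Subgroup.zpowers a
    have haH : a ∈ H := Subgroup.mem_sup_right (Subgroup.mem_zpowers a)
    let a' : H := ⟨a, haH⟩
    have hprod : ∀ g : H, ∃ k, orderOf (g * a' * g⁻¹ * a') = 3 ^ k := by
      intro g
      obtain ⟨n, hn, y, hy, e⟩ := Subgroup.mem_sup_of_normal_left.1 g.2
      obtain ⟨i, rfl⟩ := hy
      have e1 : (g : G) * a * (g : G)⁻¹ = n * a * n⁻¹ := by
        rw [← e]
        simp only [mul_inv_rev, mul_assoc]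
        rw [← mul_assoc (a ^ i) a, ((Commute.refl a).zpow_left i).eq]
        simp [mul_assoc]
      have h3 : (g * a' * g⁻¹ * a') ^ 3 = 1 := Subtype.ext (by
        simp only [SubgroupClass.coe_pow, Subgroup.coe_mul, Subgroup.coe_inv, Subgroup.coe_one, a', e1]
        exact hcube n hn)
      exact exists_orderOf_eq_three_pow h3
    have ha' : orderOf a' = 2 := by rw [← Subgroup.orderOf_coe]; exact hD.1.1 a ha
    refine hfin 3 (Cfsg.pCoreOf 3 H ⊓ L) inf_le_right ?_
      ((CfsgLib.PReduced.isPGroup_pCoreOf H).to_le inf_le_left) fun n hn => ⟨?_, hmemL n hn⟩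
    · intro n hn
      have h1 := CfsgLib.PReduced.le_normalizer_pCoreOf (p := 3) H (Subgroup.mem_sup_left hn)
      rw [Subgroup.mem_normalizer_iff] at h1 ⊢
      exact fun x => and_congr (h1 x) ⟨fun hx => Subgroup.Normal.conj_mem ‹_› x hx n,
        fun hx => by simpa [mul_assoc] using Subgroup.Normal.conj_mem ‹_› _ hx n⁻¹⟩
    · refine ⟨(⟨n, Subgroup.mem_sup_left hn⟩ : H) * a' * (⟨n, Subgroup.mem_sup_left hn⟩ : H)⁻¹ * a',
        CfsgLib.ZStar.products_mem_pCore (by norm_num) ha' hprod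
          (isConj_iff.2 ⟨⟨n, Subgroup.mem_sup_left hn⟩, rfl⟩) (IsConj.refl a'), rfl⟩
  · have hsq : ∀ n ∈ L, (n * a * n⁻¹ * a) ^ 2 = 1 := fun n hn =>
      (hdich n).elim id (fun h3 => by rw [h n hn h3, one_pow])
    set k : Set G := {c | ∃ n ∈ L, c = n * a * n⁻¹}
    have hkD : ∀ c ∈ k, c ∈ D := by rintro _ ⟨n, -, rfl⟩; exact class_conj_mem hD n ha
    have hkc : ∀ c ∈ k, ∀ d ∈ k, Commute c d := by
      rintro _ ⟨m, hm, rfl⟩ _ ⟨n, hn, rfl⟩
      rw [commute_conj_left, show m⁻¹ * (n * a * n⁻¹) * m = m⁻¹ * n * a * (m⁻¹ * n)⁻¹ by group]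
      exact ((sq_eq_one_iff_commute (mul_self hD.1 (class_conj_mem hD _ ha)) haa).1
        (hsq _ (L.mul_mem (L.inv_mem hm) hn))).symm
    have h2 : IsPGroup 2 (Subgroup.closure k ⊓ L : Subgroup G) := fun g => ⟨1, Subtype.ext (by
      rw [pow_one]
      simpa [pow_two] using mul_self_of_mem_closure hkc (fun c hc => mul_self hD.1 (hkD c hc)) g.2.1)⟩
    refine hfin 2 _ inf_le_right ?_ h2 fun n hn => ⟨?_, hmemL n hn⟩
    · intro m hm
      have h1 : m ∈ Subgroup.normalizer (Subgroup.closure k : Set G) := by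
        refine Subgroup.mem_normalizer_fintype fun x hx => ?_
        have hle : (Subgroup.closure k).map (MulAut.conj m).toMonoidHom ≤ Subgroup.closure k := by
          rw [MonoidHom.map_closure, Subgroup.closure_le]
          rintro _ ⟨_, ⟨n, hn, rfl⟩, rfl⟩
          exact Subgroup.subset_closure ⟨m * n, L.mul_mem hm hn, by simp [mul_assoc]⟩
        exact hle ⟨x, hx, rfl⟩
      rw [Subgroup.mem_normalizer_iff] at h1 ⊢
      exact fun x => and_congr (h1 x) ⟨fun hx => Subgroup.Normal.conj_mem ‹_› x hx m,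
        fun hx => by simpa [mul_assoc] using Subgroup.Normal.conj_mem ‹_› _ hx m⁻¹⟩
    · exact Subgroup.mul_mem _ (Subgroup.subset_closure ⟨n, hn, rfl⟩)
        (Subgroup.subset_closure ⟨1, L.one_mem, by simp⟩)

include hD hsol in
theorem exists_commutator_orders {a : G} (ha : a ∈ D) (L : Subgroup G) [L.Normal] (hL : L ≠ ⊥) :
    (∃ n ∈ L, (n * a * n⁻¹ * a) ^ 2 = 1 ∧ n * a * n⁻¹ * a ≠ 1) ∧
      ∃ n ∈ L, (n * a * n⁻¹ * a) ^ 3 = 1 ∧ n * a * n⁻¹ * a ≠ 1 := by
  refine exists_orders_of_no_pGroup hD ha L fun p _ U h1 h2 h3 h4 => ?_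
  have hU := eq_bot_of_pGroup hsol h1 h2 h3
  have hc : ∀ n ∈ L, Commute n a := fun n hn => by
    have h := h4 n hn
    rw [hU, Subgroup.mem_bot, mul_eq_one_iff_eq_inv, inv_eq hD.1 ha, mul_inv_eq_iff_eq_mul] at h
    exact h
  have hle := closure_le_of_central hD ha hc
  refine hL (hsol L inferInstance (Group.isSolvable_of_comm fun x y => Subtype.ext ?_))
  exact (Subgroup.mem_center_iff.1 (hle x.2) y).symm

include hD hsol in
theorem centralizer_minimal_eq_bot {a : G} (ha : a ∈ D) (N : Subgroup G) [N.Normal] (hN : N ≠ ⊥) :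
    Subgroup.centralizer (N : Set G) = ⊥ := by
  by_contra hne
  obtain ⟨⟨n, hn, hn2, hn1⟩, -⟩ := exists_commutator_orders hD hsol ha N hN
  obtain ⟨-, ⟨m, hm, hm3, hm1⟩⟩ := exists_commutator_orders hD hsol ha _ hne
  have hai := inv_eq hD.1 ha
  set u := n * a * n⁻¹ * a with hu
  set v := m * a * m⁻¹ * a with hv
  have huN : u ∈ N := by
    have : u = n * (a * n⁻¹ * a⁻¹) := by rw [hu, hai]; group
    rw [this]
    exact N.mul_mem hn (Subgroup.Normal.conj_mem ‹_› _ (N.inv_mem hn) a)
  have hvC : v ∈ Subgroup.centralizer (N : Set G) := by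
    have : v = m * (a * m⁻¹ * a⁻¹) := by rw [hv, hai]; group
    rw [this]
    exact mul_mem hm (Subgroup.Normal.conj_mem inferInstance _ (inv_mem hm) a)
  have hc : Commute u v⁻¹ := Commute.inv_right (Subgroup.mem_centralizer_iff.1 hvC u huN)
  have he : n * a * n⁻¹ * (m * a * m⁻¹) = u * v⁻¹ := by
    rw [hu, hv]
    simp only [mul_inv_rev, inv_inv, hai]
    rw [show n * a * n⁻¹ * a * (a * (m * (a * m⁻¹))) = n * a * n⁻¹ * (a * a) * (m * (a * m⁻¹)) by group,
      mul_self hD.1 ha]
    group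
  rcases hD.1.2 _ (class_conj_mem hD n ha) _ (class_conj_mem hD m ha) with h | h <;>
    rw [he, hc.mul_pow, inv_pow] at h
  · rw [hn2, one_mul, inv_eq_one] at h
    exact hm1 (eq_one_of_pow_coprime h hm3 (by norm_num))
  · rw [hm3, inv_one, mul_one] at h
    exact hn1 (eq_one_of_pow_coprime hn2 h (by norm_num))

include hD hsol in
theorem minimal_normal_simple (N : Subgroup G) [N.Normal]
    (hmin : ∀ X : Subgroup G, X.Normal → X ≤ N → X ≠ ⊥ → X = N) (X : Subgroup G) (hXN : X ≤ N)
    (hX : X ≠ ⊥) (hXn : N ≤ Subgroup.normalizer (X : Set G)) : X = N := by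
  classical
  obtain ⟨S, ⟨hSX, hS, hSn⟩, hSmin⟩ := Set.Finite.exists_minimal (Set.toFinite
    {S : Subgroup G | S ≤ X ∧ S ≠ ⊥ ∧ N ≤ Subgroup.normalizer (S : Set G)}) ⟨X, le_rfl, hX, hXn⟩
  have hSN : S ≤ N := hSX.trans hXN
  by_cases hmove : ∀ a ∈ D, ∀ s ∈ S, a * s * a⁻¹ ∈ S
  · have hnormal : S.Normal := by
      rw [← Subgroup.normalizer_eq_top_iff, eq_top_iff, ← hD.2.2, Subgroup.closure_le]
      exact fun a ha => Subgroup.mem_normalizer_fintype (hmove a ha)
    exact le_antisymm hXN ((hmin S hnormal hSN hS).ge.trans hSX)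
  exfalso
  push Not at hmove
  obtain ⟨a, ha, s₀, hs₀, hs₀'⟩ := hmove
  set T : Subgroup G := S.map (MulAut.conj a).toMonoidHom
  have hTn : N ≤ Subgroup.normalizer (T : Set G) := by
    intro n hn
    refine Subgroup.mem_normalizer_fintype ?_
    rintro _ ⟨s, hs, rfl⟩
    have h1 : a⁻¹ * n * a ∈ N := by simpa using Subgroup.Normal.conj_mem ‹N.Normal› n hn a⁻¹
    exact ⟨_, (Subgroup.mem_normalizer_iff.1 (hSn h1) s).1 hs, by simp [mul_assoc]⟩
  have hdisj : S ⊓ T = ⊥ := by
    by_contra hne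
    have hle : S ≤ T := (hSmin ⟨inf_le_left.trans hSX, hne, fun n hn => Subgroup.mem_normalizer_iff.2 fun x =>
      and_congr (Subgroup.mem_normalizer_iff.1 (hSn hn) x) (Subgroup.mem_normalizer_iff.1 (hTn hn) x)⟩
      inf_le_left).trans inf_le_right
    have heq : S = T := Subgroup.eq_of_le_of_card_ge hle
      (by rw [Subgroup.card_map_of_injective (MulAut.conj a).injective])
    exact hs₀' (heq ▸ ⟨s₀, hs₀, rfl⟩)
  have hTN : T ≤ N := by
    rintro _ ⟨s, hs, rfl⟩
    exact Subgroup.Normal.conj_mem ‹N.Normal› s (hSN hs) a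
  have hcomm : ∀ s ∈ S, ∀ t ∈ T, Commute s t := fun s hs t ht => by
    have h1 : s * t * s⁻¹ * t⁻¹ ∈ S ⊓ T := ⟨by
        rw [mul_assoc s t, mul_assoc s (t * s⁻¹)]
        exact S.mul_mem hs ((Subgroup.mem_normalizer_iff.1 (hSn (hTN ht)) _).1 (S.inv_mem hs)),
      T.mul_mem ((Subgroup.mem_normalizer_iff.1 (hTn (hSN hs)) t).1 ht) (T.inv_mem ht)⟩
    rw [hdisj, Subgroup.mem_bot, ← commutatorElement_def, commutatorElement_eq_one_iff_commute] at h1
    exact h1
  have hsmall : ∀ s ∈ S, s ^ 2 = 1 ∨ s ^ 3 = 1 := by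
    intro s hs
    have hai := inv_eq hD.1 ha
    have ht : a * s⁻¹ * a⁻¹ ∈ T := ⟨s⁻¹, S.inv_mem hs, rfl⟩
    have key : ∀ k : ℕ, (s * a * s⁻¹ * a) ^ k = 1 → s ^ k = 1 := fun k hk => by
      rw [show s * a * s⁻¹ * a = s * (a * s⁻¹ * a⁻¹) by rw [hai]; group, (hcomm s hs _ ht).mul_pow] at hk
      have h1 : s ^ k ∈ S ⊓ T := ⟨S.pow_mem hs k, by
        rw [eq_inv_of_mul_eq_one_left hk]; exact T.inv_mem (T.pow_mem ht k)⟩
      rwa [hdisj, Subgroup.mem_bot] at h1
    exact (hD.1.2 _ (class_conj_mem hD s ha) a ha).imp (key 2) (key 3)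
  have hsolv : Group.IsSolvable S := isSolvable_of_small_orders _ S rfl fun s => (hsmall s s.2).imp
    (fun h => Subtype.ext (by simpa using h)) (fun h => Subtype.ext (by simpa using h))
  have hab : ⁅S, S⁆ = ⊥ := by
    by_contra hne
    have hle : ⁅S, S⁆ ≤ S := Subgroup.commutator_le_self S
    have h1 : S ≤ ⁅S, S⁆ := hSmin ⟨hle.trans hSX, hne, fun n hn => Subgroup.mem_normalizer_fintype fun x hx => by
      have e : (⁅S, S⁆).map (MulAut.conj n).toMonoidHom = ⁅S, S⁆ := by
        have h2 : S.map (MulAut.conj n).toMonoidHom = S :=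
          Subgroup.eq_of_le_of_card_ge (by
            rintro _ ⟨s, hs, rfl⟩
            exact (Subgroup.mem_normalizer_iff.1 (hSn hn) s).1 hs)
            (by rw [Subgroup.card_map_of_injective (MulAut.conj n).injective])
        rw [Subgroup.map_commutator, h2]
      exact e ▸ ⟨x, hx, rfl⟩⟩ hle
    have : Nontrivial S := (Subgroup.nontrivial_iff_ne_bot S).2 hS
    have h3 := Group.IsSolvable.commutator_lt_top_of_nontrivial S
    exact h3.ne (Subgroup.map_injective S.subtype_injective (by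
      rw [Subgroup.map_subtype_commutator, ← MonoidHom.range_eq_map, Subgroup.range_subtype]
      exact le_antisymm hle h1))
  have hc : ∀ x ∈ S, ∀ y ∈ S, Commute x y := fun x hx y hy => by
    have h1 := Subgroup.commutator_mem_commutator hx hy
    rw [hab, Subgroup.mem_bot, commutatorElement_eq_one_iff_commute] at h1
    exact h1
  haveI := Fact.mk Nat.prime_three
  haveI := Fact.mk Nat.prime_two
  by_cases h2 : ∀ s ∈ S, s ^ 2 = 1
  · exact hS (eq_bot_of_pGroup hsol hSN hSn (p := 2) fun s => ⟨1, Subtype.ext (by simpa using h2 s s.2)⟩)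
  · push Not at h2
    obtain ⟨w, hw, hw2⟩ := h2
    refine hS (eq_bot_of_pGroup hsol hSN hSn (p := 3) fun s => ⟨1, Subtype.ext ?_⟩)
    rcases hsmall s s.2 with h | h
    swap
    · simpa using h
    by_contra hne
    have hs1 : (s : G) ≠ 1 := fun e => hne (by simp [e])
    have hw3 := (hsmall w hw).resolve_left hw2
    rcases hsmall _ (S.mul_mem s.2 hw) with h' | h' <;> rw [(hc s s.2 w hw).mul_pow] at h'
    · rw [h, one_mul] at h'; exact hw2 h'
    · rw [hw3, mul_one] at h'; exact hs1 (eq_one_of_pow_coprime h h' (by norm_num))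

include hD hsol in
/-- Without solvable normal subgroups and with perfect derived group, a normal subgroup meeting the derived
group contains it. -/
theorem mono_of_perfect (hperf : ⁅commutator G, commutator G⁆ = commutator G) : Mono G := by
  classical
  intro K hKn hne
  replace hne : K ⊓ commutator G ≠ ⊥ := fun h => hne (h ▸ bot_le)
  obtain ⟨N, ⟨hN, hNbot, hNK⟩, hNmin⟩ := Set.Finite.exists_minimal (Set.toFinite
    {N : Subgroup G | N.Normal ∧ N ≠ ⊥ ∧ N ≤ K ⊓ commutator G})
    ⟨K ⊓ commutator G, Subgroup.normal_inf_normal _ _, hne, le_rfl⟩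
  refine le_trans ?_ (hNK.trans inf_le_left)
  have hmin : ∀ X : Subgroup G, X.Normal → X ≤ N → X ≠ ⊥ → X = N := fun X h1 h2 h3 =>
    le_antisymm h2 (hNmin ⟨h1, h3, h2.trans hNK⟩ h2)
  obtain ⟨a, ha, -⟩ := hD.2.1
  have hai := inv_eq hD.1 ha
  have hcomm : ∀ c ∈ D, Commute c a → c * a ∈ N := by
    intro c hc hca
    by_contra hcn
    have hcm : ∀ n ∈ N, Commute c (n * a * n⁻¹) := by
      intro n hn
      by_contra h
      have h3 := cube_of_not_commute hD.1 hc (class_conj_mem hD n ha) h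
      apply hcn
      rw [← QuotientGroup.eq_one_iff]
      have e : ((c * (n * a * n⁻¹) : G) : G ⧸ N) = ((c * a : G) : G ⧸ N) := by
        simp only [QuotientGroup.mk_mul, QuotientGroup.mk_inv, (QuotientGroup.eq_one_iff n).2 hn]
        simp
      refine eq_one_of_pow_coprime (m := 2) (n := 3) ?_ ?_ (by norm_num)
      · rw [← QuotientGroup.mk_pow,
          (sq_eq_one_iff_commute (mul_self hD.1 hc) (mul_self hD.1 ha)).2 hca]; rfl
      · rw [← e, ← QuotientGroup.mk_pow, h3]; rfl
    set w : Set G := {x | ∃ n ∈ N, x = n * a * n⁻¹ * a}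
    have hwN : Subgroup.closure w ≤ N := by
      rw [Subgroup.closure_le]
      rintro _ ⟨n, hn, rfl⟩
      have : n * a * n⁻¹ * a = n * (a * n⁻¹ * a⁻¹) := by rw [hai]; group
      rw [this]
      exact N.mul_mem hn (hN.conj_mem _ (N.inv_mem hn) a)
    have hwn : N ≤ Subgroup.normalizer (Subgroup.closure w : Set G) := by
      intro m hm
      refine Subgroup.mem_normalizer_fintype fun x hx => ?_
      have hle : (Subgroup.closure w).map (MulAut.conj m).toMonoidHom ≤ Subgroup.closure w := by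
        rw [MonoidHom.map_closure, Subgroup.closure_le]
        rintro _ ⟨_, ⟨n, hn, rfl⟩, rfl⟩
        have e : m * (n * a * n⁻¹ * a) * m⁻¹ = (m * n * a * (m * n)⁻¹ * a) * (m * a * m⁻¹ * a)⁻¹ := by
          simp only [mul_inv_rev, inv_inv, hai, mul_assoc]
          rw [← mul_assoc a a, mul_self hD.1 ha, one_mul]
          simp
        simp only [MulEquiv.coe_toMonoidHom, MulAut.conj_apply, SetLike.mem_coe]
        rw [e]
        exact Subgroup.mul_mem _ (Subgroup.subset_closure ⟨m * n, N.mul_mem hm hn, rfl⟩)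
          (Subgroup.inv_mem _ (Subgroup.subset_closure ⟨m, hm, rfl⟩))
      exact hle ⟨x, hx, rfl⟩
    obtain ⟨⟨n, hn, -, hn1⟩, -⟩ := exists_commutator_orders hD hsol ha N hNbot
    have hW := minimal_normal_simple hD hsol N hmin _ hwN (fun h => hn1 (by
      have h1 : n * a * n⁻¹ * a ∈ Subgroup.closure w := Subgroup.subset_closure ⟨n, hn, rfl⟩
      rwa [h, Subgroup.mem_bot] at h1)) hwn
    have hcC : c ∈ Subgroup.centralizer (N : Set G) := by
      rw [← hW, Subgroup.centralizer_closure]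
      rintro _ ⟨n, hn, rfl⟩
      exact ((hcm n hn).mul_right hca).eq.symm
    rw [centralizer_minimal_eq_bot hD hsol ha N hNbot, Subgroup.mem_bot] at hcC
    exact ne_one hD.1 hc hcC
  haveI := Fact.mk Nat.prime_three
  by_cases haN : a ∈ N
  · have htop : (⊤ : Subgroup G) ≤ N := by
      rw [← hD.2.2, Subgroup.closure_le]
      intro c hc
      obtain ⟨g, rfl⟩ := class_exists_conj hD ha hc
      exact hN.conj_mem a haN g
    exact le_top.trans htop
  have hord : orderOf (a : G ⧸ N) = 2 := orderOf_eq_prime (by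
    rw [← QuotientGroup.mk_pow, ← hD.1.1 a ha, pow_orderOf_eq_one]; rfl)
    fun h => haN ((QuotientGroup.eq_one_iff a).1 h)
  have hprod : ∀ g : G ⧸ N, ∃ k, orderOf (g * (a : G ⧸ N) * g⁻¹ * (a : G ⧸ N)) = 3 ^ k := by
    intro g
    induction g using QuotientGroup.induction_on with
    | H g =>
      rw [← QuotientGroup.mk_inv, ← QuotientGroup.mk_mul, ← QuotientGroup.mk_mul, ← QuotientGroup.mk_mul]
      have hc := class_conj_mem hD g ha
      by_cases h : Commute (g * a * g⁻¹) a
      · exact ⟨0, by rw [(QuotientGroup.eq_one_iff _).2 (hcomm _ hc h), orderOf_one, pow_zero]⟩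
      · refine exists_orderOf_eq_three_pow ?_
        rw [← QuotientGroup.mk_pow, cube_of_not_commute hD.1 hc ha h]
        rfl
  set Q := (Cfsg.pCore 3 (G ⧸ N)).comap (QuotientGroup.mk' N)
  have hQn : Q.Normal := (Cfsg.pCore_normal 3 (G ⧸ N)).comap _
  have hQ : ∀ x : G, ∃ i : ℤ, x * a ^ i ∈ Q := by
    intro x
    have htop : (⊤ : Subgroup G) ≤ Q ⊔ Subgroup.zpowers a := by
      rw [← hD.2.2, Subgroup.closure_le]
      intro c hc
      have e : c = c * a * a := by rw [mul_assoc, mul_self hD.1 ha, mul_one]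
      rw [e]
      refine mul_mem (Subgroup.mem_sup_left ?_) (Subgroup.mem_sup_right (Subgroup.mem_zpowers a))
      obtain ⟨g, rfl⟩ := class_exists_conj hD ha hc
      change ((g * a * g⁻¹ * a : G) : G ⧸ N) ∈ Cfsg.pCore 3 (G ⧸ N)
      exact CfsgLib.ZStar.products_mem_pCore (by norm_num) hord hprod
        (isConj_iff.2 ⟨(g : G ⧸ N), rfl⟩) (IsConj.refl _)
    obtain ⟨q, hq, y, hy, rfl⟩ := Subgroup.mem_sup_of_normal_left.1 (htop (Subgroup.mem_top x))
    obtain ⟨i, rfl⟩ := hy
    exact ⟨-i, by simpa [mul_assoc] using hq⟩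
  have hle : commutator G ≤ Q := by
    rw [commutator_eq_closure, Subgroup.closure_le]
    rintro _ ⟨x, y, rfl⟩
    obtain ⟨i, hi⟩ := hQ x
    obtain ⟨j, hj⟩ := hQ y
    rw [SetLike.mem_coe]
    rw [← QuotientGroup.eq_one_iff] at hi hj ⊢
    rw [QuotientGroup.mk_mul] at hi hj
    rw [commutatorElement_def]
    simp only [QuotientGroup.mk_mul, QuotientGroup.mk_inv]
    rw [eq_inv_of_mul_eq_one_left hi, eq_inv_of_mul_eq_one_left hj, QuotientGroup.mk_zpow, QuotientGroup.mk_zpow,
      ← zpow_neg, ← zpow_neg, ← zpow_neg, ← zpow_neg, ← zpow_add, ← zpow_add, ← zpow_add]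
    simp
  have hmap : (commutator G).map (QuotientGroup.mk' N) ≤ Cfsg.pCore 3 (G ⧸ N) :=
    Subgroup.map_le_iff_le_comap.2 hle
  set M := (commutator G).map (QuotientGroup.mk' N)
  have hMbot : M = ⊥ := by
    by_contra hne
    have : Nontrivial M := (Subgroup.nontrivial_iff_ne_bot M).2 hne
    haveI := ((pCore_isPGroup (G := G ⧸ N) 3).to_le hmap).isNilpotent
    refine (Group.IsSolvable.commutator_lt_top_of_nontrivial M).ne (Subgroup.map_injective M.subtype_injective ?_)
    rw [Subgroup.map_subtype_commutator, ← MonoidHom.range_eq_map, Subgroup.range_subtype,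
      ← Subgroup.map_commutator, hperf]
  rw [Subgroup.map_eq_bot_iff, QuotientGroup.ker_mk'] at hMbot
  exact hMbot

include hD hsol in
theorem not_isPGroup_commutator {p : ℕ} [Fact p.Prime] : ¬ IsPGroup p (commutator G) := by
  intro h
  haveI := h.isNilpotent
  have h1 := hsol _ inferInstance (inferInstance : Group.IsSolvable (commutator G))
  obtain ⟨a, ha, -⟩ := hD.2.1
  have hcom : ∀ x y : G, x * y = y * x := fun x y => by
    have h2 := Subgroup.commutator_mem_commutator (Subgroup.mem_top x) (Subgroup.mem_top y)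
    rw [← commutator_def, h1, Subgroup.mem_bot, commutatorElement_eq_one_iff_commute] at h2
    exact h2.eq
  have h3 := hsol ⊤ inferInstance (Group.isSolvable_of_comm fun x y => Subtype.ext (hcom x y))
  exact ne_one hD.1 ha (Subgroup.mem_bot.1 (h3 ▸ Subgroup.mem_top a))

end CfsgLib.ThreeTrans
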