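import Cfsg.Agent.ThreeTrans.Cores
import Cfsg.Prelude.Def_FischerSpaces

/-!
# The layer of a 3-transposition group and primitivity of the action on the class
-/

set_option autoImplicit false

namespace CfsgLib.ThreeTrans

open scoped commutatorElement
open Cfsg (IsQuasisimple IsComponent layer generalizedFittingSubgroup fittingSubgroup pCore)

variable {G : Type*} [Group G] {D : Set G}

theorem commutator_mul_central {x y z w : G} (hzx : Commute z x) (hzy : Commute z y) (hwx : Commute w x)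
    (hwy : Commute w y) (hzw : Commute z w) : ⁅x * z, y * w⁆ = ⁅x, y⁆ := by
  simp only [commutatorElement_def, mul_inv_rev]
  calc x * z * (y * w) * (z⁻¹ * x⁻¹) * (w⁻¹ * y⁻¹)
      = x * (z * y) * w * (z⁻¹ * x⁻¹) * (w⁻¹ * y⁻¹) := by group
    _ = x * y * (z * w) * (z⁻¹ * x⁻¹) * (w⁻¹ * y⁻¹) := by rw [hzy.eq]; group
    _ = x * y * (w * x⁻¹) * (w⁻¹ * y⁻¹) := by rw [hzw.eq]; group
    _ = x * y * x⁻¹ * y⁻¹ := by rw [hwx.inv_right.eq]; group

/-- If the commutators of a perfect normal subgroup `L` with `a` centralise `L`, then `a` centralises `L`. -/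
theorem commute_of_central_commutators (hD : Cfsg.IsThreeTranspositionClass D) {a : G} (ha : a ∈ D)
    (L : Subgroup G) [L.Normal] (hperf : ⁅L, L⁆ = L)
    (h : ∀ n ∈ L, ∀ x ∈ L, Commute (n * a * n⁻¹ * a) x) : ∀ n ∈ L, Commute n a := by
  have hai := inv_eq hD.1 ha
  have hle : ⁅L, L⁆ ≤ Subgroup.centralizer ({a} : Set G) := by
    rw [Subgroup.commutator_le]
    intro x hx y hy
    rw [Subgroup.mem_centralizer_singleton_iff]
    have hz : ∀ u ∈ L, u⁻¹ * (a * u * a⁻¹) ∈ L ∧ ∀ v ∈ L, Commute (u⁻¹ * (a * u * a⁻¹)) v := fun u hu => by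
      refine ⟨L.mul_mem (L.inv_mem hu) (Subgroup.Normal.conj_mem ‹_› u hu a), fun v hv => ?_⟩
      have := h u⁻¹ (L.inv_mem hu) v hv
      rw [inv_inv] at this
      rwa [hai, ← mul_assoc, ← mul_assoc]
    have e : a * ⁅x, y⁆ * a⁻¹ = ⁅x, y⁆ := by
      have e1 : a * ⁅x, y⁆ * a⁻¹ = ⁅a * x * a⁻¹, a * y * a⁻¹⁆ := by simp [commutatorElement_def, mul_assoc]
      rw [e1, show a * x * a⁻¹ = x * (x⁻¹ * (a * x * a⁻¹)) by group,
        show a * y * a⁻¹ = y * (y⁻¹ * (a * y * a⁻¹)) by group]
      exact commutator_mul_central ((hz x hx).2 x hx) ((hz x hx).2 y hy) ((hz y hy).2 x hx) ((hz y hy).2 y hy)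
        ((hz x hx).2 _ (hz y hy).1)
    exact (mul_inv_eq_iff_eq_mul.1 e).symm
  intro n hn
  rw [hperf] at hle
  exact Subgroup.mem_centralizer_singleton_iff.1 (hle hn)

variable [Finite G]

/-- For a prime larger than three the core is central. -/
theorem pCore_le_center_of_five (hD : Cfsg.IsThreeTranspositionClass D) (p : ℕ) (hp : p.Prime) (hp3 : 3 < p) :
    Cfsg.pCore p G ≤ Subgroup.center G := by
  haveI := Fact.mk hp
  obtain ⟨a, ha, -⟩ := hD.2.1
  refine closure_le_of_central hD ha fun n hn => ?_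
  have hmem : n * a * n⁻¹ * a ∈ Cfsg.pCore p G := by
    rw [show n * a * n⁻¹ * a = n * (a * n⁻¹ * a⁻¹) by rw [inv_eq hD.1 ha]; group]
    exact mul_mem hn ((Cfsg.pCore_normal p G).conj_mem _ (inv_mem hn) a)
  obtain ⟨k, hk⟩ := pCore_isPGroup (G := G) p ⟨_, hmem⟩
  have hk' := congrArg Subtype.val hk
  simp only [SubgroupClass.coe_pow, OneMemClass.coe_one] at hk'
  have h1 : n * a * n⁻¹ * a = 1 := by
    rcases hD.1.2 _ (class_conj_mem hD n ha) a ha with h | h
    · exact eq_one_of_pow_coprime hk' h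
        (Nat.Coprime.pow_left _ ((Nat.coprime_primes hp Nat.prime_two).2 (by omega)))
    · exact eq_one_of_pow_coprime hk' h
        (Nat.Coprime.pow_left _ ((Nat.coprime_primes hp Nat.prime_three).2 (by omega)))
  rw [mul_eq_one_iff_eq_inv, inv_eq hD.1 ha] at h1
  exact mul_inv_eq_iff_eq_mul.1 h1

theorem fitting_le_center (hD : Cfsg.IsThreeTranspositionClass D) (h2 : Cfsg.pCore 2 G ≤ Subgroup.center G)
    (h3 : Cfsg.pCore 3 G ≤ Subgroup.center G) : fittingSubgroup G ≤ Subgroup.center G := by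
  rw [CfsgLib.Components.fittingSubgroup_eq_iSup]
  refine iSup_le fun q => ?_
  have hq := Nat.prime_of_mem_primeFactors q.2
  rcases Nat.lt_or_ge 3 (q : ℕ) with h | h
  · exact pCore_le_center_of_five hD q hq h
  · have : (q : ℕ) = 2 ∨ (q : ℕ) = 3 := by have := hq.two_le; omega
    rcases this with e | e <;> rw [e] <;> assumption

/-- Commutators of order two and three in a noncentral perfect normal subgroup centralising the Fitting subgroup. -/
theorem perfect_orders (hD : Cfsg.IsThreeTranspositionClass D) {a : G} (ha : a ∈ D) (L : Subgroup G) [L.Normal]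
    (hperf : ⁅L, L⁆ = L) (hLF : L ≤ Subgroup.centralizer (fittingSubgroup G : Set G))
    (hLZ : ¬ L ≤ Subgroup.center G) :
    (∃ n ∈ L, (n * a * n⁻¹ * a) ^ 2 = 1 ∧ n * a * n⁻¹ * a ≠ 1) ∧
      ∃ n ∈ L, (n * a * n⁻¹ * a) ^ 3 = 1 ∧ n * a * n⁻¹ * a ≠ 1 := by
  refine exists_orders_of_no_pGroup hD ha L fun p _ U h1 h2 h3 h4 => ?_
  haveI := CfsgLib.PCore.pCore_characteristic p L
  haveI : (Cfsg.pCoreOf p L).Normal := ConjAct.normal_of_characteristic_of_normal
  have hUF : U ≤ fittingSubgroup G := (CfsgLib.PReduced.le_pCoreOf h1 h2 h3).trans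
    (CfsgLib.Components.le_fittingSubgroup inferInstance (CfsgLib.PReduced.isPGroup_pCoreOf L).isNilpotent)
  exact hLZ (closure_le_of_central hD ha (commute_of_central_commutators hD ha L hperf fun n hn x hx =>
    Subgroup.mem_centralizer_iff.1 (hLF hx) _ (hUF (h4 n hn))))

theorem layer_orders (hD : Cfsg.IsThreeTranspositionClass D) {a : G} (ha : a ∈ D) (hne : layer G ≠ ⊥) :
    (∃ n ∈ layer G, (n * a * n⁻¹ * a) ^ 2 = 1 ∧ n * a * n⁻¹ * a ≠ 1) ∧
      ∃ n ∈ layer G, (n * a * n⁻¹ * a) ^ 3 = 1 ∧ n * a * n⁻¹ * a ≠ 1 := by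
  haveI := CfsgLib.Components.layer_normal (G := G)
  refine perfect_orders hD ha _ CfsgLib.Components.commutator_layer
    CfsgLib.Components.layer_le_centralizer_fitting fun h => hne ?_
  rw [← CfsgLib.Components.commutator_layer, Subgroup.commutator_eq_bot_iff_le_centralizer]
  exact h.trans (Subgroup.center_le_centralizer _)

theorem exists_order_two_of_noncentral (hD : Cfsg.IsThreeTranspositionClass D) {a : G} (ha : a ∈ D)
    (h : ¬ Cfsg.pCore 2 G ≤ Subgroup.center G) :
    ∃ n, n * a * n⁻¹ * a ∈ Cfsg.pCore 2 G ∧ (n * a * n⁻¹ * a) ^ 2 = 1 ∧ n * a * n⁻¹ * a ≠ 1 := by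
  haveI := Fact.mk Nat.prime_two
  obtain ⟨n, hn, hne⟩ : ∃ n ∈ Cfsg.pCore 2 G, ¬ Commute n a := by
    by_contra hall
    push Not at hall
    exact h (closure_le_of_central hD ha hall)
  have hmem : n * a * n⁻¹ * a ∈ Cfsg.pCore 2 G := by
    rw [show n * a * n⁻¹ * a = n * (a * n⁻¹ * a⁻¹) by rw [inv_eq hD.1 ha]; group]
    exact mul_mem hn ((Cfsg.pCore_normal 2 G).conj_mem _ (inv_mem hn) a)
  have hne1 : n * a * n⁻¹ * a ≠ 1 := fun h1 => hne (by
    rw [mul_eq_one_iff_eq_inv, inv_eq hD.1 ha] at h1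
    exact mul_inv_eq_iff_eq_mul.1 h1)
  refine ⟨n, hmem, (hD.1.2 _ (class_conj_mem hD n ha) a ha).resolve_right fun h3 => hne1 ?_, hne1⟩
  obtain ⟨k, hk⟩ := pCore_isPGroup (G := G) 2 ⟨_, hmem⟩
  exact eq_one_of_pow_coprime (congrArg Subtype.val hk) h3 (Nat.Coprime.pow_left _ (by norm_num))

theorem exists_order_three_of_noncentral (hD : Cfsg.IsThreeTranspositionClass D) {a : G} (ha : a ∈ D)
    (h : ¬ Cfsg.pCore 3 G ≤ Subgroup.center G) :
    ∃ n, n * a * n⁻¹ * a ∈ Cfsg.pCore 3 G ∧ (n * a * n⁻¹ * a) ^ 3 = 1 ∧ n * a * n⁻¹ * a ≠ 1 := by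
  haveI := Fact.mk Nat.prime_three
  obtain ⟨n, hn, hne⟩ : ∃ n ∈ Cfsg.pCore 3 G, ¬ Commute n a := by
    by_contra hall
    push Not at hall
    exact h (closure_le_of_central hD ha hall)
  have hmem : n * a * n⁻¹ * a ∈ Cfsg.pCore 3 G := by
    rw [show n * a * n⁻¹ * a = n * (a * n⁻¹ * a⁻¹) by rw [inv_eq hD.1 ha]; group]
    exact mul_mem hn ((Cfsg.pCore_normal 3 G).conj_mem _ (inv_mem hn) a)
  have hne1 : n * a * n⁻¹ * a ≠ 1 := fun h1 => hne (by
    rw [mul_eq_one_iff_eq_inv, inv_eq hD.1 ha] at h1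
    exact mul_inv_eq_iff_eq_mul.1 h1)
  refine ⟨n, hmem, (hD.1.2 _ (class_conj_mem hD n ha) a ha).resolve_left fun h2 => hne1 ?_, hne1⟩
  obtain ⟨k, hk⟩ := pCore_isPGroup (G := G) 3 ⟨_, hmem⟩
  exact eq_one_of_pow_coprime (congrArg Subtype.val hk) h2 (Nat.Coprime.pow_left _ (by norm_num))

theorem cores_two_three (hD : Cfsg.IsThreeTranspositionClass D) :
    Cfsg.pCore 2 G ≤ Subgroup.center G ∨ Cfsg.pCore 3 G ≤ Subgroup.center G := by
  by_contra h
  push Not at h
  haveI := Fact.mk Nat.prime_two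
  haveI := Fact.mk Nat.prime_three
  obtain ⟨a, ha, -⟩ := hD.2.1
  obtain ⟨n, hn, hn2, hn1⟩ := exists_order_two_of_noncentral hD ha h.1
  obtain ⟨m, hm, hm3, hm1⟩ := exists_order_three_of_noncentral hD ha h.2
  have hdisj : Disjoint (Cfsg.pCore 2 G) (Cfsg.pCore 3 G) :=
    IsPGroup.disjoint_of_ne 2 3 (by norm_num) _ _ (pCore_isPGroup _) (pCore_isPGroup _)
  exact orders_false hD ha (Subgroup.commute_of_normal_of_disjoint _ _ (Cfsg.pCore_normal 2 G)
    (Cfsg.pCore_normal 3 G) hdisj _ _ hn hm) hn2 hn1 hm3 hm1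

theorem layer_eq_bot_of_noncentral (hD : Cfsg.IsThreeTranspositionClass D)
    (h : ¬ Cfsg.pCore 2 G ≤ Subgroup.center G ∨ ¬ Cfsg.pCore 3 G ≤ Subgroup.center G) : layer G = ⊥ := by
  by_contra hne
  haveI := Fact.mk Nat.prime_two
  haveI := Fact.mk Nat.prime_three
  obtain ⟨a, ha, -⟩ := hD.2.1
  obtain ⟨⟨n, hn, hn2, hn1⟩, ⟨m, hm, hm3, hm1⟩⟩ := layer_orders hD ha hne
  have hmem : ∀ k ∈ layer G, k * a * k⁻¹ * a ∈ layer G := fun k hk => by
    rw [show k * a * k⁻¹ * a = k * (a * k⁻¹ * a⁻¹) by rw [inv_eq hD.1 ha]; group]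
    exact mul_mem hk ((CfsgLib.Components.layer_normal (G := G)).conj_mem _ (inv_mem hk) a)
  have hcomm : ∀ (p : ℕ) [Fact p.Prime], ∀ u ∈ Cfsg.pCore p G, ∀ v ∈ layer G, Commute u v := fun p _ u hu v hv =>
    Subgroup.mem_centralizer_iff.1 (CfsgLib.Components.layer_le_centralizer_fitting hv) u
      (CfsgLib.Components.pCore_le_fittingSubgroup p hu)
  rcases h with h | h
  · obtain ⟨n', hn', hn2', hn1'⟩ := exists_order_two_of_noncentral hD ha h
    exact orders_false hD ha (hcomm 2 _ hn' _ (hmem m hm)) hn2' hn1' hm3 hm1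
  · obtain ⟨m', hm', hm3', hm1'⟩ := exists_order_three_of_noncentral hD ha h
    exact orders_false hD ha (hcomm 3 _ hm' _ (hmem n hn)).symm hn2 hn1 hm3' hm1'

theorem layer_ne_bot (hD : Cfsg.IsThreeTranspositionClass D) (hD2 : ∃ a ∈ D, ∃ b ∈ D, a ≠ b)
    (h2 : Cfsg.pCore 2 G ≤ Subgroup.center G) (h3 : Cfsg.pCore 3 G ≤ Subgroup.center G) : layer G ≠ ⊥ := by
  intro h
  have hF : generalizedFittingSubgroup G ≤ Subgroup.center G := by
    rw [Cfsg.generalizedFittingSubgroup, h, bot_sup_eq]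
    exact fitting_le_center hD h2 h3
  have htop : ∀ g : G, g ∈ Subgroup.center G := fun g => hF
    (CfsgLib.Components.centralizer_generalizedFittingSubgroup_le (Subgroup.mem_centralizer_iff.2 fun x hx =>
      (Subgroup.mem_center_iff.1 (hF hx) g).symm))
  obtain ⟨a, ha, b, hb, hab⟩ := hD2
  obtain ⟨e, he, hae⟩ := exists_not_commute hD ha hb hab
  exact hae (Subgroup.mem_center_iff.1 (htop e) a)

/-- With central cores the layer is a single quasisimple normal subgroup. -/
theorem exists_layer_component (hD : Cfsg.IsThreeTranspositionClass D) (hD2 : ∃ a ∈ D, ∃ b ∈ D, a ≠ b)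
    (h2 : Cfsg.pCore 2 G ≤ Subgroup.center G) (h3 : Cfsg.pCore 3 G ≤ Subgroup.center G) :
    ∃ L : Subgroup G, L.Normal ∧ IsQuasisimple L ∧
      generalizedFittingSubgroup G = L ⊔ Subgroup.center G := by
  obtain ⟨K, hK⟩ : ∃ K : Subgroup G, IsComponent K := by
    by_contra h
    push Not at h
    exact layer_ne_bot hD hD2 h2 h3 (CfsgLib.Components.layer_eq_bot_of_no_component h)
  have hnormal : ∀ K : Subgroup G, IsComponent K → K.Normal := by
    intro K hK
    have hfix : ∀ a ∈ D, ∀ s ∈ K, a * s * a⁻¹ ∈ K := by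
      intro a ha
      set T : Subgroup G := K.map (MulAut.conj a).toMonoidHom
      suffices hTK : T = K from fun s hs => hTK ▸ ⟨s, hs, rfl⟩
      by_contra hne
      have hcomm : ∀ s ∈ K, ∀ t ∈ T, Commute s t := fun s hs t ht => by
        have h1 := Subgroup.commutator_mem_commutator hs ht
        rw [CfsgLib.Components.components_commute hK (CfsgLib.Components.isComponent_conj hK a) (Ne.symm hne),
          Subgroup.mem_bot, commutatorElement_eq_one_iff_commute] at h1
        exact h1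
      refine CfsgLib.Components.quasisimple_not_solvable hK.2 ?_
      have hq : Group.IsSolvable (↥K ⧸ Subgroup.center ↥K) := by
        refine isSolvable_of_small_orders _ _ rfl fun q => ?_
        induction q using QuotientGroup.induction_on with
        | H s =>
          have hai := inv_eq hD.1 ha
          have ht : a * (s : G)⁻¹ * a⁻¹ ∈ T := ⟨(s : G)⁻¹, K.inv_mem s.2, rfl⟩
          have key : ∀ k : ℕ, ((s : G) * a * (s : G)⁻¹ * a) ^ k = 1 → (s : ↥K ⧸ Subgroup.center ↥K) ^ k = 1 := by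
            intro k hk
            rw [show (s : G) * a * (s : G)⁻¹ * a = (s : G) * (a * (s : G)⁻¹ * a⁻¹) by rw [hai]; group,
              (hcomm _ s.2 _ ht).mul_pow] at hk
            have h1 : (s : G) ^ k ∈ T := by
              rw [eq_inv_of_mul_eq_one_left hk]; exact T.inv_mem (T.pow_mem ht k)
            rw [← QuotientGroup.mk_pow, QuotientGroup.eq_one_iff, Subgroup.mem_center_iff]
            exact fun x => Subtype.ext (hcomm x x.2 _ h1).eq
          exact (hD.1.2 _ (class_conj_mem hD s ha) a ha).imp (key 2) (key 3)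
      haveI : Group.IsSolvable (Subgroup.center ↥K) :=
        Group.isSolvable_of_comm fun x y => Subtype.ext (Subgroup.mem_center_iff.1 y.2 x)
      exact solvable_of_ker_le_range (Subgroup.center ↥K).subtype (QuotientGroup.mk' (Subgroup.center ↥K))
        (by rw [QuotientGroup.ker_mk', Subgroup.range_subtype])
    rw [← Subgroup.normalizer_eq_top_iff, eq_top_iff, ← hD.2.2, Subgroup.closure_le]
    exact fun a ha => Subgroup.mem_normalizer_fintype (hfix a ha)
  have huniq : ∀ K' : Subgroup G, IsComponent K' → K' = K := by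
    intro K' hK'
    by_contra hne
    haveI := hnormal K hK
    haveI := hnormal K' hK'
    obtain ⟨a, ha, -⟩ := hD.2.1
    have hLZ : ∀ K : Subgroup G, IsComponent K → ¬ K ≤ Subgroup.center G := fun K hK h =>
      CfsgLib.Components.quasisimple_not_solvable hK.2
        (Group.isSolvable_of_comm fun x y => Subtype.ext (Subgroup.mem_center_iff.1 (h y.2) x))
    have hLF : ∀ K : Subgroup G, IsComponent K → K ≤ Subgroup.centralizer (fittingSubgroup G : Set G) := fun K hK =>
      (CfsgLib.Components.component_le_layer hK).trans CfsgLib.Components.layer_le_centralizer_fitting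
    obtain ⟨⟨n, hn, hn2, hn1⟩, -⟩ :=
      perfect_orders hD ha K (CfsgLib.Components.quasisimple_commutator hK.2) (hLF K hK) (hLZ K hK)
    obtain ⟨-, ⟨m, hm, hm3, hm1⟩⟩ :=
      perfect_orders hD ha K' (CfsgLib.Components.quasisimple_commutator hK'.2) (hLF K' hK') (hLZ K' hK')
    have hmem : ∀ (X : Subgroup G) [X.Normal], ∀ k ∈ X, k * a * k⁻¹ * a ∈ X := fun X _ k hk => by
      rw [show k * a * k⁻¹ * a = k * (a * k⁻¹ * a⁻¹) by rw [inv_eq hD.1 ha]; group]
      exact mul_mem hk (Subgroup.Normal.conj_mem inferInstance _ (inv_mem hk) a)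
    have h1 := Subgroup.commutator_mem_commutator (hmem K n hn) (hmem K' m hm)
    rw [CfsgLib.Components.components_commute hK hK' (Ne.symm hne), Subgroup.mem_bot,
      commutatorElement_eq_one_iff_commute] at h1
    exact orders_false hD ha h1 hn2 hn1 hm3 hm1
  refine ⟨K, hnormal K hK, hK.2, ?_⟩
  have hlayer : layer G = K :=
    le_antisymm (sSup_le fun K' hK' => (huniq K' hK').le) (CfsgLib.Components.component_le_layer hK)
  rw [Cfsg.generalizedFittingSubgroup, hlayer]
  refine le_antisymm (sup_le_sup_left (fitting_le_center hD h2 h3) _) (sup_le_sup_left ?_ _)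
  refine CfsgLib.Components.le_fittingSubgroup inferInstance ?_
  letI : CommGroup (Subgroup.center G) :=
    { (inferInstance : Group (Subgroup.center G)) with
      mul_comm := fun x y => Subtype.ext (Subgroup.mem_center_iff.1 y.2 x) }
  exact CommGroup.isNilpotent

/-- The centraliser of the layer is central. -/
theorem centralizer_le_center (hD : Cfsg.IsThreeTranspositionClass D)
    (h2 : Cfsg.pCore 2 G ≤ Subgroup.center G) (h3 : Cfsg.pCore 3 G ≤ Subgroup.center G) (L : Subgroup G)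
    [L.Normal] (hF : generalizedFittingSubgroup G = L ⊔ Subgroup.center G) :
    Subgroup.centralizer (L : Set G) ≤ Subgroup.center G := by
  set C := Subgroup.centralizer (L : Set G)
  have hLC : L ⊓ C ≤ Subgroup.center G := by
    refine le_trans ?_ (fitting_le_center hD h2 h3)
    refine CfsgLib.Components.le_fittingSubgroup (Subgroup.normal_inf_normal L C) ?_
    letI : CommGroup ↥(L ⊓ C) :=
      { (inferInstance : Group ↥(L ⊓ C)) with
        mul_comm := fun x y => Subtype.ext (Subgroup.mem_centralizer_iff.1 y.2.2 x x.2.1) }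
    exact CommGroup.isNilpotent
  intro x hx
  have h1 : x ∈ Subgroup.centralizer (generalizedFittingSubgroup G : Set G) := by
    rw [hF, Subgroup.mem_centralizer_iff]
    intro g hg
    obtain ⟨l, hl, z, hz, rfl⟩ := Subgroup.mem_sup_of_normal_left.1 hg
    exact (Commute.mul_left (show Commute l x from Subgroup.mem_centralizer_iff.1 hx l hl)
      (show Commute z x from (Subgroup.mem_center_iff.1 hz x).symm)).eq
  have h4 : x ∈ generalizedFittingSubgroup G :=
    CfsgLib.Components.centralizer_generalizedFittingSubgroup_le h1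
  rw [hF] at h4
  obtain ⟨l, hl, z, hz, rfl⟩ := Subgroup.mem_sup_of_normal_left.1 h4
  refine mul_mem (hLC ⟨hl, ?_⟩) hz
  have hzC : z ∈ C := Subgroup.center_le_centralizer _ hz
  simpa using mul_mem hx (inv_mem hzC)

/-- Two commuting members are congruent modulo the layer. -/
theorem mul_mem_of_commute (hD : Cfsg.IsThreeTranspositionClass D) (hD2 : ∃ a ∈ D, ∃ b ∈ D, a ≠ b)
    (L : Subgroup G) [L.Normal] (hL : IsQuasisimple L)
    (hC : Subgroup.centralizer (L : Set G) ≤ Subgroup.center G) {a c : G} (ha : a ∈ D) (hc : c ∈ D)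
    (hca : Commute c a) : c * a ∈ L := by
  by_contra hcn
  have hai := inv_eq hD.1 ha
  have hncentral : ∀ x ∈ D, x ∉ Subgroup.center G := by
    intro x hx hxc
    obtain ⟨u, hu, v, hv, huv⟩ := hD2
    obtain ⟨g, rfl⟩ := class_exists_conj hD hx hu
    obtain ⟨k, rfl⟩ := class_exists_conj hD hx hv
    apply huv
    rw [Subgroup.mem_center_iff.1 hxc g, Subgroup.mem_center_iff.1 hxc k, mul_inv_cancel_right, mul_inv_cancel_right]
  have hcm : ∀ n ∈ L, Commute c (n * a * n⁻¹) := by
    intro n hn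
    by_contra h
    have h3 := cube_of_not_commute hD.1 hc (class_conj_mem hD n ha) h
    apply hcn
    rw [← QuotientGroup.eq_one_iff]
    have e : ((c * (n * a * n⁻¹) : G) : G ⧸ L) = ((c * a : G) : G ⧸ L) := by
      simp only [QuotientGroup.mk_mul, QuotientGroup.mk_inv, (QuotientGroup.eq_one_iff n).2 hn]
      simp
    refine eq_one_of_pow_coprime (m := 2) (n := 3) ?_ ?_ (by norm_num)
    · rw [← QuotientGroup.mk_pow,
        (sq_eq_one_iff_commute (mul_self hD.1 hc) (mul_self hD.1 ha)).2 hca]; rfl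
    · rw [← e, ← QuotientGroup.mk_pow, h3]; rfl
  set w : Set G := {x | ∃ n ∈ L, x = n * a * n⁻¹ * a}
  have hwL : Subgroup.closure w ≤ L := by
    rw [Subgroup.closure_le]
    rintro _ ⟨n, hn, rfl⟩
    rw [show n * a * n⁻¹ * a = n * (a * n⁻¹ * a⁻¹) by rw [hai]; group]
    exact L.mul_mem hn (Subgroup.Normal.conj_mem ‹_› _ (L.inv_mem hn) a)
  have hwn : L ≤ Subgroup.normalizer (Subgroup.closure w : Set G) := by
    intro m hm
    refine Subgroup.mem_normalizer_fintype fun x hx => ?_
    have hle : (Subgroup.closure w).map (MulAut.conj m).toMonoidHom ≤ Subgroup.closure w := by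
      rw [MonoidHom.map_closure, Subgroup.closure_le]
      rintro _ ⟨_, ⟨n, hn, rfl⟩, rfl⟩
      have e : m * (n * a * n⁻¹ * a) * m⁻¹ = (m * n * a * (m * n)⁻¹ * a) * (m * a * m⁻¹ * a)⁻¹ := by
        simp only [mul_inv_rev, inv_inv, hai, mul_assoc]
        rw [← mul_assoc a a, mul_self hD.1 ha, one_mul]
        simp
      simp only [MulEquiv.coe_toMonoidHom, MulAut.conj_apply, SetLike.mem_coe]
      rw [e]
      exact Subgroup.mul_mem _ (Subgroup.subset_closure ⟨m * n, L.mul_mem hm hn, rfl⟩)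
        (Subgroup.inv_mem _ (Subgroup.subset_closure ⟨m, hm, rfl⟩))
    exact hle ⟨x, hx, rfl⟩
  have hwnormal : ((Subgroup.closure w).subgroupOf L).Normal := Subgroup.normal_subgroupOf_of_le_normalizer hwn
  rcases CfsgLib.Components.quasisimple_normal hL hwnormal with h | h
  · have h1 : ∀ n ∈ L, ∀ x ∈ L, Commute (n * a * n⁻¹ * a) x := fun n hn x hx => by
      have hmem : n * a * n⁻¹ * a ∈ Subgroup.closure w := Subgroup.subset_closure ⟨n, hn, rfl⟩
      exact (congrArg Subtype.val (Subgroup.mem_center_iff.1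
        (h (show (⟨_, hwL hmem⟩ : L) ∈ (Subgroup.closure w).subgroupOf L from hmem)) ⟨x, hx⟩)).symm
    exact hncentral a ha (hC (Subgroup.mem_centralizer_iff.2 fun n hn =>
      commute_of_central_commutators hD ha L (CfsgLib.Components.quasisimple_commutator hL) h1 n hn))
  · refine hncentral c hc (hC ((Subgroup.centralizer_le (Subgroup.subgroupOf_eq_top.1 h)) ?_))
    rw [Subgroup.centralizer_closure]
    rintro _ ⟨n, hn, rfl⟩
    exact ((hcm n hn).mul_right hca).eq.symm

/-! ### Primitivity -/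

omit [Finite G] in
/-- A subset closed under the non-commuting steps is everything. -/
theorem adj_closed_univ (hD : Cfsg.IsThreeTranspositionClass D) {B : Set G} {a : G} (ha : a ∈ D)
    (haB : a ∈ B) (hstep : ∀ c ∈ D, c ∈ B → Adj D c ⊆ B) {x : G} (hx : x ∈ D) : x ∈ B := by
  have hd : ∀ d ∈ D, ∀ u ∈ D, u ∈ B → d * u * d⁻¹ ∈ B := by
    intro d hd u hu huB
    by_cases hdu : Commute d u
    · rwa [hdu.eq, mul_inv_cancel_right]
    refine hstep u hu huB ⟨class_conj_mem hD d hu, fun e => hdu ?_⟩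
    rw [inv_eq hD.1 hd, braid hD.1 hd hu hdu] at e
    have := (Commute.conj_iff u).2 e
    rw [inv_eq hD.1 hu, mul_self hD.1 hu, one_mul,
      show u * (u * d * u) * u = (u * u) * d * (u * u) by group, mul_self hD.1 hu, one_mul, mul_one] at this
    exact this.symm
  have hinvB : ∀ g : G, g * a * g⁻¹ ∈ B := by
    intro g
    have hg : g ∈ Subgroup.closure D := hD.2.2 ▸ Subgroup.mem_top g
    induction hg using Subgroup.closure_induction_left with
    | one => simpa using haB
    | mul_left d hd' g _ ih =>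
      rw [show d * g * a * (d * g)⁻¹ = d * (g * a * g⁻¹) * d⁻¹ by group]
      exact hd d hd' _ (class_conj_mem hD g ha) ih
    | inv_mul_cancel d hd' g _ ih =>
      rw [inv_eq hD.1 hd', show d * g * a * (d * g)⁻¹ = d * (g * a * g⁻¹) * d⁻¹ by group]
      exact hd d hd' _ (class_conj_mem hD g ha) ih
  obtain ⟨g, rfl⟩ := class_exists_conj hD ha hx
  exact hinvB g

theorem isPrimitive (hD : Cfsg.IsThreeTranspositionClass D) (hM : Mono G)
    (hG : ¬ IsPGroup 3 (commutator G)) : Cfsg.IsPrimitiveUnderConj D := by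
  obtain ⟨a₀, ha₀, b₀, hb₀, hab₀⟩ := exists_noncommuting hD hG
  refine ⟨fun a ha b hb => class_exists_conj hD ha hb,
    ⟨a₀, ha₀, b₀, hb₀, fun e => hab₀ (e ▸ Commute.refl a₀)⟩, fun B hB hblock => or_iff_not_imp_left.2 fun hss => ?_⟩
  obtain ⟨a, haB, b, hbB, hab⟩ := Set.not_subsingleton_iff.1 hss
  have heqB : ∀ g u, u ∈ B → g * u * g⁻¹ ∈ B → (fun x => g * x * g⁻¹) '' B = B := fun g u hu hgu =>
    (hblock g).resolve_right fun h => Set.disjoint_left.1 h ⟨u, hu, rfl⟩ hgu
  have hclos : ∀ u ∈ B, ∀ g : G, Commute g u → ∀ v ∈ B, g * v * g⁻¹ ∈ B := fun u hu g hg v hv => by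
    rw [← heqB g u hu (by rwa [hg.eq, mul_inv_cancel_right])]
    exact ⟨v, hv, rfl⟩
  have hadjB : ∀ u ∈ B, ∀ v ∈ Adj D u, v ∈ B → Adj D u ⊆ B := fun u hu v hv hvB w hw => by
    obtain ⟨g, hg, rfl⟩ := adj_transitive hD hM hG (hB hu) hv hw
    exact hclos u hu g hg v hvB
  by_cases hex : ∃ v ∈ Adj D a, v ∈ B
  · obtain ⟨v, hv, hvB⟩ := hex
    refine le_antisymm hB fun x hx => adj_closed_univ hD (hB haB) haB (fun c hc hcB => ?_) hx
    obtain ⟨g, rfl⟩ := class_exists_conj hD (hB haB) hc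
    refine hadjB _ hcB (g * v * g⁻¹) (by rw [adj_conj hD]; exact ⟨v, hv, rfl⟩) ?_
    rw [← heqB g a haB hcB]
    exact ⟨v, hvB, rfl⟩
  exfalso
  push Not at hex
  have hnone : ∀ u ∈ B, ∀ v ∈ B, Commute u v := by
    intro u hu v hv
    by_contra huv
    obtain ⟨g, hg⟩ := class_exists_conj hD (hB hu) (hB haB)
    refine hex (g * v * g⁻¹) ⟨class_conj_mem hD g (hB hv), fun e => huv ?_⟩ ?_
    · rw [← hg] at e; exact commute_conj_iff.1 e
    · rw [← heqB g u hu (hg ▸ haB)]; exact ⟨v, hv, rfl⟩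
  have hperp : ∀ u ∈ B, ∀ v ∈ B, v ≠ u → Perp D u ⊆ B := fun u hu v hv hvu w hw => by
    obtain ⟨g, hg, rfl⟩ := perp_transitive hD hM hG (hB hu) ⟨hB hv, hvu, hnone u hu v hv⟩ hw
    have hle : Subgroup.closure (Perp D u) ≤ Subgroup.centralizer ({u} : Set G) := by
      rw [Subgroup.closure_le]
      intro z hz
      rw [SetLike.mem_coe, Subgroup.mem_centralizer_singleton_iff]
      exact hz.2.2.symm.eq
    exact hclos u hu g (Subgroup.mem_centralizer_singleton_iff.1 (hle hg)) v hv
  refine hab (eq_of_adj_eq hD hM (exists_noncommuting hD hG) (hB haB) (hB hbB) ?_)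
  refine adj_eq_of_subset hD (hB haB) (hB hbB) fun z hz => ⟨hz.1, fun hbz => ?_⟩
  rcases eq_or_ne z b with rfl | hzb
  · exact hz.2 (hnone a haB z hbB)
  · exact hz.2 (hnone a haB z (hperp b hbB a haB hab ⟨hz.1, hzb, hbz⟩))

omit [Finite G] in
/-- A primitive class is a conjugacy class. -/
theorem class_of_primitive (hD : Cfsg.IsThreeTranspositionGroup D) (hprim : Cfsg.IsPrimitiveUnderConj D) :
    Cfsg.IsThreeTranspositionClass D := by
  obtain ⟨d, hd, -, -, -⟩ := hprim.2.1
  refine ⟨hD.1, ⟨d, hd, Set.ext fun x => ⟨fun hx => ?_, fun hx => ?_⟩⟩, hD.2.2⟩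
  · obtain ⟨g, rfl⟩ := hprim.1 d hd x hx
    exact isConj_iff.2 ⟨g, rfl⟩
  · obtain ⟨g, rfl⟩ := isConj_iff.1 (hx : IsConj d x)
    exact hD.2.1 g d hd

omit [Finite G] in
/-- Classes of an invariant equivalence are blocks. -/
theorem primitive_relation (hD : Cfsg.IsThreeTranspositionClass D) (hprim : Cfsg.IsPrimitiveUnderConj D)
    (f : G → G → Prop) (hrefl : ∀ u, f u u) (hsymm : ∀ u v, f u v → f v u)
    (htrans : ∀ u v w, f u v → f v w → f u w) (hinv : ∀ g u v, f u v → f (g * u * g⁻¹) (g * v * g⁻¹))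
    {a b : G} (ha : a ∈ D) (hb : b ∈ D) (hab : a ≠ b) (h : f a b) : ∀ x ∈ D, f a x := by
  have hblock : ∀ g : G, (fun x => g * x * g⁻¹) '' {v | v ∈ D ∧ f a v} = {v | v ∈ D ∧ f a v} ∨
      Disjoint ((fun x => g * x * g⁻¹) '' {v | v ∈ D ∧ f a v}) {v | v ∈ D ∧ f a v} := by
    intro g
    by_cases hg : f a (g * a * g⁻¹)
    · refine Or.inl (Set.ext fun x => ?_)
      rw [mem_conj_image]
      refine ⟨fun hx => ⟨?_, ?_⟩, fun hx => ⟨?_, ?_⟩⟩
      · simpa [mul_assoc] using class_conj_mem hD g hx.1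
      · have := hinv g _ _ hx.2
        exact htrans _ _ _ hg (by simpa [mul_assoc] using this)
      · simpa using class_conj_mem hD g⁻¹ hx.1
      · have := hinv g⁻¹ _ _ (htrans _ _ _ (hsymm _ _ hg) hx.2)
        simpa [mul_assoc] using this
    · refine Or.inr (Set.disjoint_left.2 fun x hx hxB => hg ?_)
      rw [mem_conj_image] at hx
      have := hinv g _ _ hx.2
      exact htrans _ _ _ hxB.2 (hsymm _ _ (by simpa [mul_assoc] using this))
  rcases hprim.2.2 _ (fun v hv => hv.1) hblock with hB | hB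
  · exact absurd (hB (x := a) ⟨ha, hrefl a⟩ (y := b) ⟨hb, h⟩) hab
  · intro x hx
    exact ((Set.ext_iff.1 hB x).2 hx).2

theorem commutingGraph_connected (hD : Cfsg.IsThreeTranspositionClass D)
    (hprim : Cfsg.IsPrimitiveUnderConj D) (hw : ∃ a ∈ D, ∃ b ∈ D, a ≠ b ∧ Commute a b) :
    (Cfsg.commutingGraph D).Connected := by
  let f : G → G → Prop := Relation.EqvGen fun u v => u ∈ D ∧ v ∈ D ∧ Commute u v
  have hinv : ∀ g u v, f u v → f (g * u * g⁻¹) (g * v * g⁻¹) := by
    intro g u v h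
    induction h with
    | rel a b h => exact .rel _ _ ⟨class_conj_mem hD g h.1, class_conj_mem hD g h.2.1, commute_conj_iff.2 h.2.2⟩
    | refl a => exact .refl _
    | symm a b _ ih => exact .symm _ _ ih
    | trans a b c _ _ ih1 ih2 => exact .trans _ _ _ ih1 ih2
  obtain ⟨a, ha, b, hb, hab, hc⟩ := hw
  have hall := primitive_relation hD hprim f .refl .symm .trans hinv ha hb hab (.rel _ _ ⟨ha, hb, hc⟩)
  haveI : Nonempty D := ⟨⟨a, ha⟩⟩
  have key : ∀ u v, f u v → ∀ (hu : u ∈ D), ∀ (hv : v ∈ D), (Cfsg.commutingGraph D).Reachable ⟨u, hu⟩ ⟨v, hv⟩ := by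
    intro u v h
    have : u = v ∨ (u ∈ D ∧ v ∈ D ∧ ∀ (hu : u ∈ D) (hv : v ∈ D),
        (Cfsg.commutingGraph D).Reachable ⟨u, hu⟩ ⟨v, hv⟩) := by
      induction h with
      | rel x y h =>
        refine Or.inr ⟨h.1, h.2.1, fun hx hy => ?_⟩
        rcases eq_or_ne x y with rfl | hne
        · exact SimpleGraph.Reachable.refl _
        · exact SimpleGraph.Adj.reachable (SimpleGraph.fromRel_adj _ _ _ |>.2
            ⟨fun e => hne (congrArg Subtype.val e), Or.inl h.2.2⟩)
      | refl x => exact Or.inl rfl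
      | symm x y _ ih =>
        rcases ih with e | ⟨h1, h2, h3⟩
        · exact Or.inl e.symm
        · exact Or.inr ⟨h2, h1, fun hy hx => (h3 hx hy).symm⟩
      | trans x y z _ _ ih1 ih2 =>
        rcases ih1 with rfl | ⟨h1, h2, h3⟩
        · exact ih2
        · rcases ih2 with rfl | ⟨k1, k2, k3⟩
          · exact Or.inr ⟨h1, h2, h3⟩
          · exact Or.inr ⟨h1, k2, fun hx hz => (h3 hx k1).trans (k3 k1 hz)⟩
    intro hu hv
    rcases this with rfl | ⟨-, -, h3⟩
    · exact SimpleGraph.Reachable.refl _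
    · exact h3 hu hv
  exact ⟨fun u v => key _ _ ((Relation.EqvGen.symm _ _ (hall u u.2)).trans _ _ _ (hall v v.2)) u.2 v.2⟩

/-! ### A layer of index at most two -/

theorem commutator_eq_of_index (L : Subgroup G) [L.Normal] (hL : IsQuasisimple L) (hidx : L.index ≤ 2) :
    commutator G = L := by
  refine le_antisymm ?_ ?_
  · rw [commutator_def, Subgroup.commutator_le]
    intro x _ y _
    rcases Nat.lt_or_ge L.index 2 with h | h
    · have h0 : L.index ≠ 0 := Subgroup.FiniteIndex.index_ne_zero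
      rw [Subgroup.index_eq_one.1 (by omega : L.index = 1)]
      exact Subgroup.mem_top _
    · have h2 : L.index = 2 := le_antisymm hidx h
      rw [commutatorElement_def]
      simp only [Subgroup.mul_mem_iff_of_index_two h2, Subgroup.inv_mem_iff]
      tauto
  · rw [← CfsgLib.Components.quasisimple_commutator hL, commutator_def]
    exact Subgroup.commutator_mono le_top le_top

theorem mono_of_index_two (L : Subgroup G) [L.Normal] (hL : IsQuasisimple L) (hidx : L.index ≤ 2)
    (hC : Subgroup.centralizer (L : Set G) ≤ Subgroup.center G) :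
    Mono G ∧ ∀ (p : ℕ) [Fact p.Prime], ¬ IsPGroup p (commutator G) := by
  have hL' := commutator_eq_of_index L hL hidx
  refine ⟨fun K hK hne => ?_, fun p _ hp => ?_⟩
  · rw [hL'] at hne ⊢
    have hKn : ((K ⊓ L).subgroupOf L).Normal := by
      haveI := hK
      exact Subgroup.normal_subgroupOf_of_le_normalizer
        (by rw [Subgroup.normalizer_eq_top_iff.2 (Subgroup.normal_inf_normal K L)]; exact le_top)
    rcases CfsgLib.Components.quasisimple_normal hL hKn with h | h
    · refine absurd (fun x hx => hC (Subgroup.mem_centralizer_iff.2 fun y hy => ?_)) hne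
      exact congrArg Subtype.val (Subgroup.mem_center_iff.1
        (h (show (⟨x, hx.2⟩ : L) ∈ (K ⊓ L).subgroupOf L from hx)) ⟨y, hy⟩)
    · exact (Subgroup.subgroupOf_eq_top.1 h).trans inf_le_left
  · rw [hL'] at hp
    exact CfsgLib.Components.quasisimple_not_nilpotent hL hp.isNilpotent

theorem index_le_two_of_congr (hD : Cfsg.IsThreeTranspositionClass D) (L : Subgroup G) [L.Normal] {a : G}
    (ha : a ∈ D) (h : ∀ c ∈ D, c * a ∈ L) : L.index ≤ 2 := by
  have hsurj : Function.Surjective fun x : Subgroup.zpowers a => ((x : G) : G ⧸ L) := by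
    intro q
    induction q using QuotientGroup.induction_on with
    | H g =>
      have htop : (⊤ : Subgroup G) ≤ L ⊔ Subgroup.zpowers a := by
        rw [← hD.2.2, Subgroup.closure_le]
        intro c hc
        have e : c = c * a * a := by rw [mul_assoc, mul_self hD.1 ha, mul_one]
        rw [e]
        exact mul_mem (Subgroup.mem_sup_left (h c hc)) (Subgroup.mem_sup_right (Subgroup.mem_zpowers a))
      obtain ⟨l, hl, y, hy, rfl⟩ := Subgroup.mem_sup_of_normal_left.1 (htop (Subgroup.mem_top g))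
      exact ⟨⟨y, hy⟩, by simp [(QuotientGroup.eq_one_iff l).2 hl]⟩
  have := Nat.card_le_card_of_surjective _ hsurj
  rwa [Nat.card_zpowers, hD.1.1 a ha, ← Subgroup.index_eq_card] at this

/-- Primitive groups with two commuting members have central cores and a layer of index at most two. -/
theorem primitive_structure (hD : Cfsg.IsThreeTranspositionClass D)
    (hprim : Cfsg.IsPrimitiveUnderConj D) (hw : ∃ a ∈ D, ∃ b ∈ D, a ≠ b ∧ Commute a b) :
    Cfsg.pCore 2 G ≤ Subgroup.center G ∧ Cfsg.pCore 3 G ≤ Subgroup.center G ∧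
      ∃ L : Subgroup G, L.Normal ∧ IsQuasisimple L ∧ L.index ≤ 2 ∧
        generalizedFittingSubgroup G = L ⊔ Subgroup.center G := by
  have hD2 := hprim.2.1
  obtain ⟨a₀, ha₀, b₀, hb₀, hab₀, hc₀⟩ := hw
  have hperp : ∀ u ∈ D, (Perp D u).Nonempty := fun u hu => by
    obtain ⟨g, rfl⟩ := class_exists_conj hD ha₀ hu
    exact ⟨g * b₀ * g⁻¹, class_conj_mem hD g hb₀, fun e => hab₀.symm (mul_left_cancel (mul_right_cancel e)),
      commute_conj_iff.2 hc₀⟩
  have h2 : Cfsg.pCore 2 G ≤ Subgroup.center G := by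
    refine pCore_two_le_center hD fun u hu v hv huv => ?_
    by_contra hne
    have hall := primitive_relation hD hprim (SameCommuting D) SameCommuting.refl
      (fun _ _ h => h.symm) (fun _ _ _ h h' => h.trans h') (fun g _ _ h => h.conj (class_toGroup hD) g)
      hu hv hne huv
    obtain ⟨e, he, hue⟩ := exists_not_commute hD hu hv hne
    exact hue ((hall e he).commute he)
  have h3 : Cfsg.pCore 3 G ≤ Subgroup.center G := by
    refine pCore_three_le_center hD fun u hu v hv huv => ?_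
    by_contra hne
    have hall := primitive_relation hD hprim (fun x y => Perp D x = Perp D y) (fun _ => rfl)
      (fun _ _ h => h.symm) (fun _ _ _ h h' => h.trans h') (fun g _ _ h => perp_conj_eq hD g h) hu hv hne huv
    obtain ⟨w, hw'⟩ := hperp u hu
    exact ((Set.ext_iff.1 (hall w hw'.1) w).1 hw').2.1 rfl
  obtain ⟨L, hLn, hL, hF⟩ := exists_layer_component hD hD2 h2 h3
  haveI := hLn
  have hC := centralizer_le_center hD h2 h3 L hF
  refine ⟨h2, h3, L, hLn, hL, index_le_two_of_congr hD L ha₀ ?_, hF⟩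
  have hall := primitive_relation hD hprim (fun x y : G => (x : G ⧸ L) = (y : G ⧸ L)) (fun _ => rfl)
    (fun _ _ h => h.symm) (fun _ _ _ h h' => h.trans h')
    (fun g _ _ h => by simp only [QuotientGroup.mk_mul]; rw [h]) hb₀ ha₀ (Ne.symm hab₀) (by
      have h := mul_mem_of_commute hD hD2 L hL hC ha₀ hb₀ hc₀.symm
      rw [← QuotientGroup.eq_one_iff, QuotientGroup.mk_mul, mul_eq_one_iff_eq_inv, ← QuotientGroup.mk_inv,
        inv_eq hD.1 ha₀] at h
      exact h)
  intro c hc
  rw [← QuotientGroup.eq_one_iff, QuotientGroup.mk_mul, mul_eq_one_iff_eq_inv, ← QuotientGroup.mk_inv,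
    inv_eq hD.1 ha₀]
  exact (hall c hc).symm.trans (hall a₀ ha₀)

end CfsgLib.ThreeTrans
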