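import Cfsg.Agent.ThreeTrans.LineModels

set_option autoImplicit false

namespace CfsgLib.ThreeTrans

open Cfsg

variable {X : Type*} {L : Set (Set X)}

theorem model_affine : ∀ p : Fin 2 → ZMod 3, ∀ k ∈ affinePlaneThree, ∃ k' ∈ affinePlaneThree,
    (fun q => if q = p then q else -p - q) '' k = k' := by
  intro p k hk
  obtain ⟨a, b, hab, rfl⟩ := (affine_mem_iff k).1 hk
  refine ⟨_, (affine_mem_iff _).2 ⟨-p - a, -p - b, fun h => hab (sub_right_injective h), rfl⟩, ?_⟩
  have hT : ∀ q : Fin 2 → ZMod 3, (if q = p then q else -p - q) = -p - q := by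
    intro q
    split_ifs with h
    · subst h
      funext i
      exact (show ∀ c : ZMod 3, c = -c - c by decide) (q i)
    · rfl
  simp only [hT, Set.image_insert_eq, Set.image_singleton]
  rw [show -p - (-a - b) = -(-p - a) - (-p - b) from funext fun i =>
    (show ∀ u v w : ZMod 3, -u - (-v - w) = -(-u - v) - (-u - w) by decide) (p i) (a i) (b i)]

theorem dual_third : ∀ p q : DualAffinePoint, ∀ i : Fin 4, p ≠ q → i ∉ p.val → i ∉ q.val →
    ∀ s : DualAffinePoint, i ∉ s.val → s ≠ p → s ≠ q →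
      pointSwap s = pointSwap p * pointSwap q * (pointSwap p)⁻¹ := by
  decide +kernel

theorem dual_noline : ∀ p q : DualAffinePoint, (∀ i : Fin 4, i ∈ p.val ∨ i ∈ q.val) →
    pointSwap p * pointSwap q * (pointSwap p)⁻¹ = pointSwap q := by
  decide +kernel

theorem dual_auto : ∀ p : DualAffinePoint, ∀ i : Fin 4, ∃ j : Fin 4, ∀ q s : DualAffinePoint,
    pointSwap s = pointSwap p * pointSwap q * (pointSwap p)⁻¹ → (i ∉ q.val ↔ j ∉ s.val) := by
  decide +kernel

theorem dual_surj : ∀ p s : DualAffinePoint, ∃ q : DualAffinePoint,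
    pointSwap s = pointSwap p * pointSwap q * (pointSwap p)⁻¹ := by
  decide +kernel

variable (hpl : LineSystem.IsPartialLinear L) (h3 : ∀ l ∈ L, l.ncard = 3)

theorem lineMap_fix {x y : X} (h : ∀ l ∈ L, x ∈ l → y ∈ l → x = y) :
    LineSystem.lineMap L x y = y := by
  unfold LineSystem.lineMap
  rw [dif_neg]
  rintro ⟨z, -, -, hxy, hl⟩
  exact hxy (h _ hl (by simp) (by simp))

include h3 in
theorem line_triple {l : Set X} (hl : l ∈ L) {x y : X} (hne : x ≠ y) (hx : x ∈ l) (hy : y ∈ l) :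
    ∃ z, z ≠ x ∧ z ≠ y ∧ z ∈ l ∧ l = {x, y, z} := by
  obtain ⟨a, b, c, hab, hac, hbc, rfl⟩ := Set.ncard_eq_three.1 (h3 l hl)
  simp only [Set.mem_insert_iff, Set.mem_singleton_iff] at hx hy
  rcases hx with rfl | rfl | rfl <;> rcases hy with rfl | rfl | rfl
  all_goals try exact absurd rfl hne
  · exact ⟨c, hac.symm, hbc.symm, by simp, rfl⟩
  · exact ⟨b, hab.symm, hbc, by simp, by rw [Set.pair_comm]⟩
  · exact ⟨c, hbc.symm, hac.symm, by simp, by rw [Set.insert_comm]⟩
  · exact ⟨a, hab, hac, by simp, by rw [Set.insert_comm, Set.pair_comm]⟩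
  · exact ⟨b, hbc, hab.symm, by simp, by
      ext; simp only [Set.mem_insert_iff, Set.mem_singleton_iff]; tauto⟩
  · exact ⟨a, hac, hab, by simp, by
      ext; simp only [Set.mem_insert_iff, Set.mem_singleton_iff]; tauto⟩

include hpl h3 in
theorem lineMap_eq {l : Set X} (hl : l ∈ L) {x y z : X} (hxy : x ≠ y) (hx : x ∈ l) (hy : y ∈ l)
    (hz : z ∈ l) (hzx : z ≠ x) (hzy : z ≠ y) : LineSystem.lineMap L x y = z := by
  obtain ⟨w, hwx, hwy, hw, heq⟩ := line_triple h3 hl hxy hx hy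
  have hzw : z = w := by
    rw [heq] at hz
    simpa [hzx, hzy] using hz
  subst hzw
  unfold LineSystem.lineMap
  have hex : ∃ t : X, t ≠ x ∧ t ≠ y ∧ x ≠ y ∧ ({x, y, t} : Set X) ∈ L :=
    ⟨z, hzx, hzy, hxy, heq ▸ hl⟩
  rw [dif_pos hex]
  obtain ⟨htx, hty, -, htl⟩ := hex.choose_spec
  have ht : hex.choose ∈ l := by
    rw [hpl l hl _ htl x y hxy hx hy (by simp) (by simp)]; simp
  rw [heq] at ht
  simpa [htx, hty] using ht

include hpl h3 in
theorem lineMap_self_eq {l : Set X} (hl : l ∈ L) {x y : X} (hxy : x ≠ y) (hx : x ∈ l)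
    (hy : y ∈ l) : LineSystem.lineMap L x y ∈ l ∧ LineSystem.lineMap L x y ≠ x ∧
      LineSystem.lineMap L x y ≠ y ∧ l = {x, y, LineSystem.lineMap L x y} := by
  obtain ⟨z, h1, h2, h4, h5⟩ := line_triple h3 hl hxy hx hy
  rw [lineMap_eq hpl h3 hl hxy hx hy h4 h1 h2]
  exact ⟨h4, h1, h2, h5⟩

include hpl h3 in
theorem lineMap_invol (x : X) : Function.Involutive (LineSystem.lineMap L x) := by
  intro y
  by_cases h : ∀ l ∈ L, x ∈ l → y ∈ l → x = y
  · rw [lineMap_fix h, lineMap_fix h]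
  · push_neg at h
    obtain ⟨l, hl, hx, hy, hxy⟩ := h
    obtain ⟨hm, hne, hne', -⟩ := lineMap_self_eq hpl h3 hl hxy hx hy
    exact lineMap_eq hpl h3 hl (Ne.symm hne) hx hm hy (Ne.symm hxy) hne'.symm

/-- Inside a subspace identified with a model, the third-point map of the model carries lines
to lines, so the third-point map of the big system does too. -/
theorem lineMap_image_of_model (hpl : LineSystem.IsPartialLinear L) (h3 : ∀ l ∈ L, l.ncard = 3)
    {S : Set X} (hS : LineSystem.IsSubspace L S) {P : Type*} (M : Set (Set P)) (e : S ≃ P)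
    (he : LineSystem.IsIso (LineSystem.restrict L S) M e) {x : X} (hx : x ∈ S)
    (T : P → P) (hfix : ∀ q, (∀ k ∈ M, e ⟨x, hx⟩ ∈ k → q ∈ k → e ⟨x, hx⟩ = q) → T q = q)
    (hline : ∀ k ∈ M, e ⟨x, hx⟩ ∈ k → ∀ q ∈ k, q ≠ e ⟨x, hx⟩ → ∀ s ∈ k, s ≠ e ⟨x, hx⟩ → s ≠ q →
      T q = s)
    (hauto : ∀ k ∈ M, ∃ k' ∈ M, T '' k = k') {l : Set X} (hl : l ∈ L) (hlS : l ⊆ S) :
    LineSystem.lineMap L x '' l ∈ L := by
  have hT : ∀ y : S, (e.symm (T (e y)) : X) = LineSystem.lineMap L x y := by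
    intro y
    by_cases h : ∀ m ∈ L, x ∈ m → (y : X) ∈ m → x = y
    · rw [lineMap_fix h, hfix (e y) ?_, Equiv.symm_apply_apply]
      intro k hk hxk hyk
      obtain ⟨m, hm, hmS, hkm⟩ := (he (e.symm '' k)).2 (by rwa [Equiv.image_symm_image])
      have hxm : (⟨x, hx⟩ : S) ∈ e.symm '' k := ⟨_, hxk, by simp⟩
      have hym : y ∈ e.symm '' k := ⟨_, hyk, by simp⟩
      rw [hkm] at hxm hym
      exact congrArg e (Subtype.ext (h m hm hxm hym))
    · push_neg at h
      obtain ⟨m, hm, hxm, hym, hxy⟩ := h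
      obtain ⟨hzm, hzx, hzy, -⟩ := lineMap_self_eq hpl h3 hm hxy hxm hym
      have hmS : m ⊆ S := hS m hm x hx y y.2 hxy hxm hym
      have hk := (he {w : S | (w : X) ∈ m}).1 ⟨m, hm, hmS, rfl⟩
      have := hline _ hk ⟨⟨x, hx⟩, hxm, rfl⟩ (e y) ⟨y, hym, rfl⟩
        (fun h => hxy (congrArg Subtype.val (e.injective h)).symm)
        (e ⟨_, hmS hzm⟩) ⟨_, hzm, rfl⟩
        (fun h => hzx (congrArg Subtype.val (e.injective h)))
        (fun h => hzy (congrArg Subtype.val (e.injective h)))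
      rw [this, Equiv.symm_apply_apply]
  obtain ⟨k', hk', hk'eq⟩ := hauto _ ((he {w : S | (w : X) ∈ l}).1 ⟨l, hl, hlS, rfl⟩)
  obtain ⟨m, hm, hmS, hkm⟩ := (he (e.symm '' k')).2 (by rwa [Equiv.image_symm_image])
  convert hm using 1
  ext w
  constructor
  · rintro ⟨y, hy, rfl⟩
    have h1 : e.symm (T (e ⟨y, hlS hy⟩)) ∈ e.symm '' k' :=
      ⟨_, hk'eq ▸ ⟨_, ⟨⟨y, hlS hy⟩, hy, rfl⟩, rfl⟩, rfl⟩
    rw [hkm] at h1
    exact (hT ⟨y, hlS hy⟩) ▸ h1
  · intro hw
    have h1 : (⟨w, hmS hw⟩ : S) ∈ e.symm '' k' := by rw [hkm]; exact hw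
    obtain ⟨r, hr, hre⟩ := h1
    rw [← hk'eq] at hr
    obtain ⟨_, ⟨y, hy, rfl⟩, rfl⟩ := hr
    exact ⟨y, hy, by rw [← hT y, hre]⟩

theorem lineMap_image (hL : IsFischerSpace L) (x : X) {m : Set X} (hm : m ∈ L) :
    LineSystem.lineMap L x '' m ∈ L := by
  obtain ⟨hpl, h3, hplane⟩ := hL
  by_cases hxm : x ∈ m
  · convert hm
    refine Set.Subset.antisymm ?_ ?_
    · rintro _ ⟨y, hy, rfl⟩
      by_cases hxy : x = y
      · subst hxy
        rw [lineMap_fix (fun _ _ _ _ => rfl)]; exact hy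
      · exact (lineMap_self_eq hpl h3 hm hxy hxm hy).1
    · intro y hy
      refine ⟨LineSystem.lineMap L x y, ?_, lineMap_invol hpl h3 x y⟩
      by_cases hxy : x = y
      · subst hxy
        rw [lineMap_fix (fun _ _ _ _ => rfl)]; exact hy
      · exact (lineMap_self_eq hpl h3 hm hxy hxm hy).1
  by_cases h : ∀ y ∈ m, ∀ l ∈ L, x ∈ l → y ∈ l → x = y
  · convert hm
    have hfix : ∀ y ∈ m, LineSystem.lineMap L x y = y := fun y hy => lineMap_fix (h y hy)
    exact (Set.image_congr hfix).trans (Set.image_id _)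
  push_neg at h
  obtain ⟨y, hym, l, hl, hxl, hyl, hxy⟩ := h
  have hlm : l ≠ m := fun e => hxm (e ▸ hxl)
  set S := LineSystem.span L (l ∪ m)
  have hS : LineSystem.IsSubspace L S := span_isSubspace _
  have hxS : x ∈ S := span_mem_of_mem (Or.inl hxl)
  have hmS : m ⊆ S := fun z hz => span_mem_of_mem (Or.inr hz)
  rcases hplane l hl m hm hlm ⟨y, hyl, hym⟩ with ⟨e, he⟩ | ⟨e, he⟩
  · set p := e ⟨x, hxS⟩
    have ht : ∀ q, ∃ s : DualAffinePoint,
        pointSwap s = pointSwap p * pointSwap q * (pointSwap p)⁻¹ := fun q => pointSwap_third q p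
    choose T hT using ht
    refine lineMap_image_of_model hpl h3 hS dualAffinePlaneTwo e he hxS T ?_ ?_ ?_ hm hmS
    · intro q hq
      apply pointSwap_injective
      rw [hT q]
      by_cases hpq : p = q
      · rw [hpq, mul_inv_cancel_right]
      · exact dual_noline p q (fun i => by
          by_contra hc
          push_neg at hc
          exact hpq (hq _ ⟨i, rfl⟩ hc.1 hc.2))
    · rintro k ⟨i, rfl⟩ hpk q hqk hqp s hsk hsp hsq
      apply pointSwap_injective
      rw [hT q, dual_third p q i (Ne.symm hqp) hpk hqk s hsk hsp hsq]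
    · rintro k ⟨i, rfl⟩
      obtain ⟨j, hj⟩ := dual_auto p i
      refine ⟨_, ⟨j, rfl⟩, ?_⟩
      ext s
      constructor
      · rintro ⟨q, hq, rfl⟩
        exact (hj q _ (hT q)).1 hq
      · intro hs
        obtain ⟨q, hq⟩ := dual_surj p s
        exact ⟨q, (hj q s hq).2 hs, pointSwap_injective _ _ ((hT q).trans hq.symm)⟩
  · set p := e ⟨x, hxS⟩
    refine lineMap_image_of_model hpl h3 hS affinePlaneThree e he hxS
      (fun q => if q = p then q else -p - q) ?_ ?_ (model_affine p) hm hmS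
    · intro q hq
      by_cases hqp : q = p
      · simp [hqp]
      · exact absurd (hq {p, q, -p - q} ((affine_mem_iff _).2 ⟨p, q, Ne.symm hqp, rfl⟩)
          (Set.mem_insert p _) (by simp)).symm hqp
    · intro k hk hpk q hqk hqp s hsk hsp hsq
      obtain ⟨a, b, hab, rfl⟩ := (affine_mem_iff k).1 hk
      change p ∈ _ at hpk
      change q ≠ p at hqp
      change s ≠ p at hsp
      show (if q = p then q else -p - q) = s
      rw [if_neg hqp]
      simp only [Set.mem_insert_iff, Set.mem_singleton_iff] at hpk hqk hsk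
      have c1 : ∀ u w : Fin 2 → ZMod 3, -u - (-u - w) = w := fun u w => by abel
      have c2 : ∀ u w : Fin 2 → ZMod 3, -(-u - w) - w = u := fun u w => by abel
      have c3 : ∀ u w : Fin 2 → ZMod 3, -u - w = -w - u := fun u w => by abel
      rcases hpk with h1 | h1 | h1 <;> rcases hqk with h2 | h2 | h2
      all_goals (first
        | exact absurd (h2.trans h1.symm) hqp
        | rcases hsk with h4 | h4 | h4 <;> rw [h1, h2, h4] <;>
          first
            | exact absurd (h4.trans h1.symm) hsp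
            | exact absurd (h4.trans h2.symm) hsq
            | exact c1 _ _
            | exact c2 _ _
            | rfl
            | exact (c3 _ _).trans (c1 _ _)
            | exact (c3 _ _).trans (c2 _ _)
            | exact c3 _ _)

theorem involutions_three_transpositions (hL : IsFischerSpace L)
    (hnd : LineSystem.IsNondegenerate L) :
    (∀ x : X, ∃ σ : Equiv.Perm X, ⇑σ = LineSystem.lineMap L x ∧ orderOf σ = 2 ∧
      LineSystem.IsIso L L σ) ∧
    IsThreeTranspositionSet {σ : Equiv.Perm X | ∃ x : X, ⇑σ = LineSystem.lineMap L x} := by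
  have hpl := hL.1
  have h3 := hL.2.1
  have t : ∀ x, ∃ σ : Equiv.Perm X, ⇑σ = LineSystem.lineMap L x ∧ orderOf σ = 2 ∧
      LineSystem.IsIso L L σ := by
    intro x
    refine ⟨(lineMap_invol hpl h3 x).toPerm, rfl, ?_, fun l => ⟨lineMap_image hL x, fun h => ?_⟩⟩
    · refine orderOf_eq_prime ?_ ?_
      · ext y; rw [pow_two]; exact lineMap_invol hpl h3 x y
      · intro h
        obtain ⟨l, hl, hxl⟩ := hnd x
        obtain ⟨y, hy, hne⟩ := Set.exists_ne_of_one_lt_ncard (a := x)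
          (by rw [h3 l hl]; omega : 1 < l.ncard)
        exact (lineMap_self_eq hpl h3 hl hne.symm hxl hy).2.2.1
          (congrArg (fun σ : Equiv.Perm X => σ y) h)
    · have := lineMap_image hL x h
      rwa [Function.Involutive.coe_toPerm, ← Set.image_comp,
        (lineMap_invol hpl h3 x).comp_self, Set.image_id] at this
  choose σ hσ hσo hσi using t
  have hconj : ∀ x y, σ x * σ y * (σ x)⁻¹ = σ (LineSystem.lineMap L x y) := by
    intro x y
    rw [mul_inv_eq_iff_eq_mul]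
    ext w
    rw [Equiv.Perm.mul_apply, Equiv.Perm.mul_apply, hσ, hσ, hσ]
    by_cases h : ∀ l ∈ L, y ∈ l → w ∈ l → y = w
    · rw [lineMap_fix h]
      symm
      refine lineMap_fix ?_
      intro l hl h1 h2
      have hl' := lineMap_image hL x hl
      have := h _ hl' ⟨_, h1, lineMap_invol hpl h3 x y⟩ ⟨_, h2, lineMap_invol hpl h3 x w⟩
      exact congrArg _ this
    · push_neg at h
      obtain ⟨l, hl, hyl, hwl, hyw⟩ := h
      obtain ⟨hm, hzy, hzw, -⟩ := lineMap_self_eq hpl h3 hl hyw hyl hwl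
      have inj := (lineMap_invol hpl h3 x).injective
      exact (lineMap_eq hpl h3 (lineMap_image hL x hl) (inj.ne hyw) ⟨_, hyl, rfl⟩ ⟨_, hwl, rfl⟩
        ⟨_, hm, rfl⟩ (inj.ne hzy) (inj.ne hzw)).symm
  refine ⟨fun x => ⟨σ x, hσ x, hσo x, hσi x⟩, ?_, ?_⟩
  · rintro τ ⟨x, hx⟩
    have : τ = σ x := Equiv.ext (fun w => by rw [hσ, hx])
    rw [this]; exact hσo x
  · rintro a ⟨x, hx⟩ b ⟨y, hy⟩
    have hax : a = σ x := Equiv.ext (fun w => by rw [hσ, hx])
    have hby : b = σ y := Equiv.ext (fun w => by rw [hσ, hy])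
    subst hax hby
    have sq : ∀ z, σ z * σ z = 1 := fun z => by
      have := pow_orderOf_eq_one (σ z)
      rwa [hσo z, pow_two] at this
    have hinv : ∀ z, (σ z)⁻¹ = σ z := fun z => inv_eq_of_mul_eq_one_right (sq z)
    by_cases h : ∀ l ∈ L, x ∈ l → y ∈ l → x = y
    · left
      have hc := hconj x y
      rw [lineMap_fix h, hinv] at hc
      rw [pow_two, ← mul_assoc, hc, sq]
    · right
      push_neg at h
      obtain ⟨l, hl, hxl, hyl, hxy⟩ := h
      obtain ⟨hm, hzx, hzy, -⟩ := lineMap_self_eq hpl h3 hl hxy hxl hyl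
      have h2 : LineSystem.lineMap L y x = LineSystem.lineMap L x y :=
        lineMap_eq hpl h3 hl hxy.symm hyl hxl hm hzy hzx
      have e1 := hconj x y
      have e2 := hconj y x
      rw [h2, ← e1, hinv, hinv] at e2
      calc (σ x * σ y) ^ 3 = (σ x * σ y * σ x) * (σ y * σ x * σ y) := by
            simp [pow_succ, mul_assoc]
        _ = (σ x * σ y * σ x) * (σ x * σ y * σ x) := by rw [e2]
        _ = σ x * σ y * (σ x * σ x) * σ y * σ x := by simp only [mul_assoc]
        _ = 1 := by rw [sq, mul_one, mul_assoc (σ x), sq, mul_one, sq]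

end CfsgLib.ThreeTrans
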