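import Cfsg.Agent.ThreeTrans.SixSets
import Cfsg.Agent.USixCover.Hyperovals
import Cfsg.Agent.S0283

/-!
Groups of type M(22) are simple and their transposition centralisers are perfect.
-/

set_option autoImplicit false

namespace CfsgLib.ThreeTrans

open Subgroup (closure center)
open scoped commutatorElement

variable {G : Type*} [Group G] [Finite G] {D : Set G}

/-- An element commuting with `a`, its perpendicular set and a member not commuting with `a` is central. -/
theorem mem_center_of_adj (hC : Cfsg.IsThreeTranspositionClass D) (hprim : Cfsg.IsPrimitiveUnderConj D)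
    (hM : Mono G) (hG : ¬ IsPGroup 3 (commutator G)) {a y w : G} (ha : a ∈ D) (hy : y ∈ Adj D a)
    (hwa : Commute w a) (hwy : Commute w y) (h : ∀ x ∈ Perp D a, Commute x w) : w ∈ center G := by
  haveI := Fact.mk Nat.prime_three
  set X := Subgroup.centralizer ({w} : Set G) with hX
  have hXm : ∀ x, x ∈ X ↔ Commute x w := fun x =>
    ⟨fun h => Subgroup.mem_centralizer_singleton_iff.1 h, fun h => Subgroup.mem_centralizer_singleton_iff.2 h.eq⟩
  set O : Set G := {x | ∃ g ∈ X, g * a * g⁻¹ = x}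
  obtain ⟨e, he, hey⟩ : ∃ e ∈ Perp D a, ¬ Commute e y := by
    by_contra hno
    push Not at hno
    obtain ⟨b, hb⟩ := perp_nonempty hC hM hG ha
    refine not_perp_eq hC hM ha hy.1 hy.2 hb (perp_eq_of_subset hC ha hy.1 fun x hx => ?_)
    exact ⟨hx.1, fun e => hy.2 (e ▸ hx.2.2), (hno x hx).symm⟩
  have hgy : (a * y) ∈ X := X.mul_mem ((hXm a).2 hwa.symm) ((hXm y).2 hwy.symm)
  have hey' : y * e ∈ X := X.mul_mem ((hXm y).2 hwy.symm) ((hXm e).2 (h e he))
  have h1 : a * y * a * (a * y)⁻¹ = y := conj_pair hC.1 ha hy.1 hy.2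
  have h2 : y * e * y * (y * e)⁻¹ = e := conj_pair hC.1 hy.1 he.1 fun c => hey c.symm
  have hle : closure (Perp D a) ≤ X := by
    rw [Subgroup.closure_le]; exact fun x hx => (hXm x).2 (h x hx)
  have hPa : ∀ x ∈ Perp D a, x ∈ O := fun x hx => by
    obtain ⟨g, hg, rfl⟩ := perp_transitive hC hM hG ha he hx
    refine ⟨g * (y * e) * (a * y), X.mul_mem (X.mul_mem (hle hg) hey') hgy, ?_⟩
    calc g * (y * e) * (a * y) * a * (g * (y * e) * (a * y))⁻¹
        = g * ((y * e) * (a * y * a * (a * y)⁻¹) * (y * e)⁻¹) * g⁻¹ := by group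
      _ = g * e * g⁻¹ := by rw [h1, h2]
  have hO : ∀ u v, u ∈ O → v ∈ D → Commute u v → v ∈ O := by
    rintro _ v ⟨g, hg, rfl⟩ hv huv
    rcases eq_or_ne v (g * a * g⁻¹) with rfl | hne
    · exact ⟨g, hg, rfl⟩
    have hvP : v ∈ Perp D (g * a * g⁻¹) := ⟨hv, hne, huv⟩
    rw [perp_conj hC] at hvP
    obtain ⟨x, hx, rfl⟩ := hvP
    obtain ⟨k, hk, rfl⟩ := hPa x hx
    exact ⟨g * k, X.mul_mem hg hk, by group⟩
  let f : G → G → Prop := Relation.EqvGen fun u v => u ∈ D ∧ v ∈ D ∧ Commute u v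
  have hinv : ∀ g u v, f u v → f (g * u * g⁻¹) (g * v * g⁻¹) := by
    intro g u v h
    induction h with
    | rel p q h => exact .rel _ _ ⟨class_conj_mem hC g h.1, class_conj_mem hC g h.2.1, commute_conj_iff.2 h.2.2⟩
    | refl p => exact .refl _
    | symm p q _ ih => exact .symm _ _ ih
    | trans p q r _ _ ih1 ih2 => exact .trans _ _ _ ih1 ih2
  have hf : ∀ u v, f u v → (u ∈ O ↔ v ∈ O) := fun u v h => by
    induction h with
    | rel p q h => exact ⟨fun hp => hO p q hp h.2.1 h.2.2, fun hq => hO q p hq h.1 h.2.2.symm⟩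
    | refl p => exact Iff.rfl
    | symm p q _ ih => exact ih.symm
    | trans p q r _ _ ih1 ih2 => exact ih1.trans ih2
  have hall := primitive_relation hC hprim f .refl .symm .trans hinv ha he.1 he.2.1.symm
    (.rel _ _ ⟨ha, he.1, he.2.2⟩)
  have htop : closure D = ⊤ := hC.2.2
  rw [← Subgroup.centralizer_univ, ← Subgroup.coe_top, ← htop, Subgroup.centralizer_closure]
  intro x hx
  obtain ⟨g, hg, rfl⟩ := (hf a x (hall x hx)).1 ⟨1, X.one_mem, by simp⟩
  have h : Commute (g * a * g⁻¹) w :=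
    ((((hXm g).1 hg).mul_left hwa.symm)).mul_left ((hXm g).1 hg).inv_left
  exact h.eq

/-- Two hyperovals through a triangle, in the group. -/
theorem exists_ovals_perp (hD : Cfsg.IsThreeTranspositionGroup D) (hN : NoDom D) {a b₀ : G} (ha : a ∈ D)
    (hb₀ : b₀ ∈ Perp D a) {F : Type} [Field F] [Fintype F] (hF : Fintype.card F = 4) (hm : HasUModel D a F) :
    (∃ p q, p ∈ Perp D a ∧ q ∈ Perp D a ∧ ¬ Commute p q) ∧
    ∃ p q r x y z x' y' z', p ∈ Perp D a ∧ q ∈ Perp D a ∧ r ∈ Perp D a ∧ x ∈ Perp D a ∧ y ∈ Perp D a ∧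
      z ∈ Perp D a ∧ x' ∈ Perp D a ∧ y' ∈ Perp D a ∧ z' ∈ Perp D a ∧
      [p, q, r, x, y, z].Nodup ∧ [p, q, r, x', y', z'].Nodup ∧
      (∀ u ∈ [p, q, r, x, y, z, x', y', z'], ∀ w ∈ [p, q, r, x, y, z, x', y', z'], Commute u w) ∧
      (∀ s ∈ Perp D a, Commute s (p * (q * (r * (x * (y * z)))))) ∧
      (∀ s ∈ Perp D a, Commute s (p * (q * (r * (x' * (y' * z')))))) ∧
      x ≠ x' ∧ x ≠ y' ∧ x ≠ z' := by
  obtain ⟨C⟩ := CfsgLib.UGeom.nonempty_conj (F := F) (q := 2) (by rw [hF]; norm_num)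
  obtain ⟨φ⟩ := hm
  let H := closure (Perp D a)
  let π : H →* H ⧸ center H := QuotientGroup.mk' _
  let up : ∀ x, x ∈ Perp D a → H := fun x hx => ⟨x, Subgroup.subset_closure hx⟩
  let im : ∀ x, x ∈ Perp D a → H ⧸ center H := fun x hx => π (up x hx)
  have hsurj : ∀ p ∈ img (Perp D a), ∃ x, ∃ hx, im x hx = p := by
    rintro _ ⟨x, hx, rfl⟩
    exact ⟨x, hx, rfl⟩
  have hcm : ∀ x hx y hy, Commute (im x hx) (im y hy) ↔ Commute x y := fun x hx y hy =>
    ⟨fun h => img_commute hD.1 (x := up x hx) (y := up y hy) hx hy h,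
      fun h => (show Commute (up x hx) (up y hy) from Subtype.ext h.eq).map π⟩
  obtain ⟨⟨p0, q0, mp0, mq0, hpq0⟩, p, q, r, x, y, z, x', y', z', mp, mq, mr, mx, my, mz, mx', my', mz',
    hn, hn', hc, e1, e2, d1, d2, d3⟩ :=
    CfsgLib.USixCover.exists_ovals C φ (img_group hD hN ha)
      (⟨up b₀ hb₀, hb₀, rfl⟩ : im b₀ hb₀ ∈ img (Perp D a))
  obtain ⟨p0, hp0, rfl⟩ := hsurj p0 mp0
  obtain ⟨q0, hq0, rfl⟩ := hsurj q0 mq0
  refine ⟨⟨p0, q0, hp0, hq0, fun h => hpq0 ((hcm _ hp0 _ hq0).2 h)⟩, ?_⟩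
  obtain ⟨p, hp, rfl⟩ := hsurj p mp
  obtain ⟨q, hq, rfl⟩ := hsurj q mq
  obtain ⟨r, hr, rfl⟩ := hsurj r mr
  obtain ⟨x, hx, rfl⟩ := hsurj x mx
  obtain ⟨y, hy, rfl⟩ := hsurj y my
  obtain ⟨z, hz, rfl⟩ := hsurj z mz
  obtain ⟨x', hx', rfl⟩ := hsurj x' mx'
  obtain ⟨y', hy', rfl⟩ := hsurj y' my'
  obtain ⟨z', hz', rfl⟩ := hsurj z' mz'
  have hnd : ∀ {k b c d e f : G} (ha : k ∈ Perp D a) (hb : b ∈ Perp D a) (hc : c ∈ Perp D a)
      (hd : d ∈ Perp D a) (he : e ∈ Perp D a) (hf : f ∈ Perp D a),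
      [im k ha, im b hb, im c hc, im d hd, im e he, im f hf].Nodup → [k, b, c, d, e, f].Nodup := by
    intro k b c d e f ha hb hc hd he hf h
    let g : H → H ⧸ center H := π
    have h2 : ([up k ha, up b hb, up c hc, up d hd, up e he, up f hf].map g).Nodup := h
    exact (List.Nodup.of_map g h2).map (f := fun x : H => (x : G)) Subtype.val_injective
  have hcen : ∀ {k b c d e f : G} (ha : k ∈ Perp D a) (hb : b ∈ Perp D a) (hc : c ∈ Perp D a)
      (hd : d ∈ Perp D a) (he : e ∈ Perp D a) (hf : f ∈ Perp D a),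
      im k ha * (im b hb * (im c hc * (im d hd * (im e he * im f hf)))) = 1 →
      ∀ s ∈ Perp D a, Commute s (k * (b * (c * (d * (e * f))))) := by
    intro k b c d e f ha hb hc hd he hf h s hs
    exact mem_center_closure_iff.1 ((QuotientGroup.eq_one_iff _).1
      (show π (up k ha * (up b hb * (up c hc * (up d hd * (up e he * up f hf))))) = 1 by
        simp only [map_mul]; exact h)) s hs
  simp only [List.mem_cons, List.not_mem_nil, or_false, forall_eq_or_imp, forall_eq, hcm] at hc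
  refine ⟨p, q, r, x, y, z, x', y', z', hp, hq, hr, hx, hy, hz, hx', hy', hz', hnd hp hq hr hx hy hz hn,
    hnd hp hq hr hx' hy' hz' hn', ?_, hcen hp hq hr hx hy hz e1, hcen hp hq hr hx' hy' hz' e2,
    fun e => d1 (by subst e; rfl), fun e => d2 (by subst e; rfl), fun e => d3 (by subst e; rfl)⟩
  simpa only [List.mem_cons, List.not_mem_nil, or_false, forall_eq_or_imp, forall_eq] using hc

/-- The facts about groups of type M(22). -/
theorem twentyTwo_structure (hD : Cfsg.IsThreeTranspositionGroup D) (hprim : Cfsg.IsPrimitiveUnderConj D)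
    (ht : Cfsg.IsOfTypeM22 G D) :
    IsSimpleGroup G ∧ ∀ d ∈ D, d ∈ closure (Perp D d) ∧ Cfsg.IsQuasisimple ↥(closure (Perp D d)) ∧
      center ↥(closure (Perp D d)) = (Subgroup.zpowers d).subgroupOf (closure (Perp D d)) := by
  classical
  haveI := Fact.mk Nat.prime_three
  have hC := class_of_primitive hD hprim
  obtain ⟨hZ, d₀, hd₀, -, -, -, ⟨F, _, _, hF, ⟨φ⟩⟩, -⟩ := ht
  have hpair : ∃ a ∈ D, ∃ b ∈ D, a ≠ b ∧ Commute a b := by
    by_contra hno
    have he : {y : G | y ∈ D ∧ y ≠ d₀ ∧ Commute d₀ y} = ∅ := Set.eq_empty_iff_forall_notMem.2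
      fun y hy => hno ⟨d₀, hd₀, y, hy.1, hy.2.1.symm, hy.2.2⟩
    have h1 : closure {y : G | y ∈ D ∧ y ≠ d₀ ∧ Commute d₀ y} = ⊥ := by rw [he, Subgroup.closure_empty]
    have h2 : Nat.card (↥(closure {y : G | y ∈ D ∧ y ≠ d₀ ∧ Commute d₀ y}) ⧸
        center ↥(closure {y : G | y ∈ D ∧ y ≠ d₀ ∧ Commute d₀ y})) ∣ 1 := by
      rw [show (1 : ℕ) = Nat.card ↥(closure {y : G | y ∈ D ∧ y ≠ d₀ ∧ Commute d₀ y}) by
        rw [h1, Subgroup.card_bot]]
      exact Subgroup.card_quotient_dvd_card _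
    rw [Nat.card_congr φ.toEquiv, card_PSU_six hF] at h2
    norm_num at h2
  obtain ⟨hc2, hc3, L, hLn, hL, hidx, hFit⟩ := primitive_structure hC hprim hpair
  haveI := hLn
  obtain ⟨hM, hG⟩ := mono_of_index_two L hL hidx (centralizer_le_center hC hc2 hc3 L hFit)
  have hG' : ∀ p, p = 3 → ¬ IsPGroup p (commutator G) := fun p hp => by subst hp; exact hG 3
  have hN := noDom_of_mono hC hM (hG 3)
  have hm : ∀ a ∈ D, HasUModel D a F := fun a ha => by
    obtain ⟨g, hg⟩ := class_exists_conj hC ha hd₀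
    exact uModel_conj hC hg ⟨φ⟩
  have hne : ∀ a ∈ D, (Perp D a).Nonempty := fun a ha => perp_nonempty hC hM (hG 3) ha
  -- every non-commuting pair has a common partner
  have hcommon : ∀ a ∈ D, ∀ y ∈ Adj D a, (Perp D a ∩ Perp D y).Nonempty := by
    intro a ha y hy
    obtain ⟨b, hb⟩ := hne a ha
    obtain ⟨⟨p, q, hp, hq, hpq⟩, -⟩ := exists_ovals_perp hD hN ha hb hF (hm a ha)
    have h1 : 0 < (Perp D p ∩ Perp D q).ncard :=
      (Set.ncard_pos (Set.toFinite _)).2 ⟨a, ⟨ha, hp.2.1.symm, hp.2.2.symm⟩, ha, hq.2.1.symm, hq.2.2.symm⟩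
    rw [← ncard_perp_inter_eq hC hM (hG 3) ha hy hp.1 ⟨hq.1, hpq⟩] at h1
    exact (Set.ncard_pos (Set.toFinite _)).1 h1
  -- the centre of the local subgroup
  have hcentre : ∀ d ∈ D, ∀ z ∈ closure (Perp D d), (∀ s ∈ Perp D d, Commute s z) → z = 1 ∨ z = d := by
    intro d hd z hzH hz
    have hzd : Commute z d := commute_of_mem_closure_perp hzH
    have hdd := mul_self hD.1 hd
    by_cases hfix : ∃ y ∈ Adj D d, Commute z y
    · obtain ⟨y, hy, hzy⟩ := hfix
      left
      rw [← Subgroup.mem_bot, ← hZ]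
      exact mem_center_of_adj hC hprim hM (hG 3) hd hy hzd hzy hz
    push Not at hfix
    have hswap : ∀ y ∈ Adj D d, z * y * z⁻¹ = d * y * d := by
      intro y hy
      obtain ⟨b, hbd, hby⟩ := hcommon d hd y hy
      obtain ⟨C⟩ := CfsgLib.UGeom.nonempty_conj (F := F) (q := 2) (by rw [hF]; norm_num)
      obtain ⟨ψ⟩ := hm b hbd.1
      have hzb : Commute z b := (hz b hbd).symm
      have hdb : d ∈ Perp D b := ⟨hd, hbd.2.1.symm, hbd.2.2.symm⟩
      have hyb : y ∈ Perp D b := ⟨hy.1, hby.2.1.symm, hby.2.2.symm⟩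
      have hy'b : z * y * z⁻¹ ∈ Perp D b := perp_conj_self hD.2.1 hzb hyb
      have hdy' : ¬ Commute d (z * y * z⁻¹) := fun h => hy.2 (by
        have h' := commute_conj_iff (g := z) (a := d) (b := y)
        rw [hzd.eq, mul_inv_cancel_right] at h'
        exact h'.1 h)
      let H := closure (Perp D b)
      let up : ∀ x, x ∈ Perp D b → H := fun x hx => ⟨x, Subgroup.subset_closure hx⟩
      let π : H →* H ⧸ center H := QuotientGroup.mk' _
      have hcases := CfsgLib.USixCover.exists_twin C ψ (img_group hD hN hbd.1)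
        (⟨up d hdb, hdb, rfl⟩ : π (up d hdb) ∈ img (Perp D b))
        (⟨up y hyb, hyb, rfl⟩ : π (up y hyb) ∈ img (Perp D b))
        (⟨up _ hy'b, hy'b, rfl⟩ : π (up _ hy'b) ∈ img (Perp D b))
        (fun h => hy.2 (img_commute hD.1 (x := up d hdb) (y := up y hyb) hdb hyb h))
        (fun h => hdy' (img_commute hD.1 (x := up d hdb) (y := up _ hy'b) hdb hy'b h)) ?_
      · rcases hcases with h | h
        · refine absurd ?_ (hfix y hy)
          have e : z * y * z⁻¹ = y :=
            congrArg Subtype.val (img_inj hD.1 hN hbd.1 (x := up _ hy'b) (y := up y hyb) hy'b hyb h)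
          exact mul_inv_eq_iff_eq_mul.1 e
        · have hconj : d * y * d⁻¹ ∈ Perp D b := perp_conj_self hD.2.1 hdb.2.2.symm hyb
          rw [inv_eq hD.1 hd] at hconj
          exact congrArg Subtype.val
            (img_inj hD.1 hN hbd.1 (x := up _ hy'b) (y := up d hdb * up y hyb * up d hdb) hy'b hconj
              (by simpa [π] using h))
      · rintro _ ⟨x, hx, rfl⟩ hxd hxy
        have h1 := img_commute hD.1 (x := x) (y := up d hdb) hx hdb hxd
        have h2 := img_commute hD.1 (x := x) (y := up y hyb) hx hyb hxy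
        have hxP : (x : G) ∈ Perp D d := ⟨hx.1, fun e => hy.2 (by rw [← e]; exact h2), h1.symm⟩
        exact (show Commute x (up _ hy'b) from Subtype.ext
          (((hz _ hxP).mul_right h2).mul_right (hz _ hxP).inv_right).eq).map π
    right
    have hw : d * z ∈ center G := by
      obtain ⟨y, hy⟩ := adj_nonempty hC (hG 3) hd
      refine mem_center_of_adj hC hprim hM (hG 3) hd hy ((Commute.refl d).mul_left hzd) ?_
        fun s hs => hs.2.2.symm.mul_right (hz s hs)
      refine mul_inv_eq_iff_eq_mul.1 ?_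
      rw [mul_inv_rev, inv_eq hD.1 hd, show d * z * y * (z⁻¹ * d) = d * (z * y * z⁻¹) * d by group,
        hswap y hy, show d * (d * y * d) * d = (d * d) * y * (d * d) by group, hdd, one_mul, mul_one]
    rw [hZ, Subgroup.mem_bot] at hw
    rw [show z = d * d * z by rw [hdd, one_mul], mul_assoc, hw, mul_one]
  -- a member lies in its local subgroup, and a relation of odd length
  have hrel : ∀ d ∈ D, d ∈ closure (Perp D d) ∧ ∃ l : List G, (∀ x ∈ l, x ∈ Perp D d) ∧
      l.length = 11 ∧ l.prod = 1 := by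
    intro d hd
    obtain ⟨b, hb⟩ := hne d hd
    obtain ⟨-, p, q, r, x, y, z, x', y', z', hp, hq, hr, hx, hy, hz, hx', hy', hz', hn, hn', hc, k1, k2,
      d1, d2, d3⟩ := exists_ovals_perp hD hN hd hb hF (hm d hd)
    simp only [List.nodup_cons, List.mem_cons, List.not_mem_nil, or_false, not_or, List.nodup_nil,
      and_true] at hn hn'
    simp only [List.mem_cons, List.not_mem_nil, or_false, forall_eq_or_imp, forall_eq] at hc
    obtain ⟨⟨-, cpq, cpr, cpx, cpy, cpz, cpx', cpy', cpz'⟩,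
      ⟨-, -, cqr, cqx, cqy, cqz, cqx', cqy', cqz'⟩, ⟨-, -, -, crx, cry, crz, crx', cry', crz'⟩,
      ⟨-, -, -, -, cxy, cxz, -, -, -⟩, ⟨-, -, -, -, -, cyz, -, -, -⟩, -,
      ⟨-, -, -, -, -, -, -, cxy', cxz'⟩, ⟨-, -, -, -, -, -, -, -, cyz'⟩, -⟩ := hc
    obtain ⟨⟨npq, npr, npx, npy, npz⟩, ⟨nqr, nqx, nqy, nqz⟩, ⟨nrx, nry, nrz⟩, ⟨nxy, nxz⟩, nyz, -⟩ := hn
    obtain ⟨⟨-, -, npx', npy', npz'⟩, ⟨-, nqx', nqy', nqz'⟩, ⟨nrx', nry', nrz'⟩, ⟨nxy', nxz'⟩, nyz', -⟩ := hn'
    obtain ⟨P, Q, R, hP, hQ, hR, -, -, hsix, -⟩ :=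
      exists_six hD hprim hZ hC hM hG' hF hm hp hq hd npq cpq
    have hfive : p * (q * (P * (Q * R))) = d := by
      have h1 := eq_inv_of_mul_eq_one_right hsix
      rwa [inv_eq hD.1 hd] at h1
    have hdH : d ∈ closure (Perp D d) := by
      have h := Subgroup.mul_mem _ (Subgroup.subset_closure hp) (Subgroup.mul_mem _ (Subgroup.subset_closure hq)
        (Subgroup.mul_mem _ (Subgroup.subset_closure hP) (Subgroup.mul_mem _ (Subgroup.subset_closure hQ)
          (Subgroup.subset_closure hR))))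
      rwa [hfive] at h
    refine ⟨hdH, ?_⟩
    have hmemH : ∀ {u v w : G}, u ∈ Perp D d → v ∈ Perp D d → w ∈ Perp D d →
        p * (q * (r * (u * (v * w)))) ∈ closure (Perp D d) := fun hu hv hw =>
      Subgroup.mul_mem _ (Subgroup.subset_closure hp) (Subgroup.mul_mem _ (Subgroup.subset_closure hq)
        (Subgroup.mul_mem _ (Subgroup.subset_closure hr) (Subgroup.mul_mem _ (Subgroup.subset_closure hu)
          (Subgroup.mul_mem _ (Subgroup.subset_closure hv) (Subgroup.subset_closure hw)))))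
    obtain ⟨u, v, w, hu, hv, hw, hsix'⟩ : ∃ u v w, u ∈ Perp D d ∧ v ∈ Perp D d ∧ w ∈ Perp D d ∧
        p * (q * (r * (u * (v * w)))) = d := by
      rcases hcentre d hd _ (hmemH hx hy hz) k1 with h | h
      swap; · exact ⟨x, y, z, hx, hy, hz, h⟩
      rcases hcentre d hd _ (hmemH hx' hy' hz') k2 with h' | h'
      swap; · exact ⟨x', y', z', hx', hy', hz', h'⟩
      exfalso
      obtain ⟨A, B, C', -, -, -, -, -, -, huniq⟩ := exists_six hD hprim hZ hC hM hG' hF hm
        (⟨hq.1, Ne.symm npq, cpq⟩ : q ∈ Perp D p) (⟨hr.1, Ne.symm npr, cpr⟩ : r ∈ Perp D p) hp.1 nqr cqr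
      have u1 := huniq x ⟨hx.1, Ne.symm npx, cpx⟩ y ⟨hy.1, Ne.symm npy, cpy⟩ z ⟨hz.1, Ne.symm npz, cpz⟩
        (by simp [nqr, nqx, nqy, nqz, nrx, nry, nrz, nxy, nxz, nyz])
        (by simp [cqr, cqx, cqy, cqz, crx, cry, crz, cxy, cxz, cyz, cqr.symm, cqx.symm, cqy.symm,
          cqz.symm, crx.symm, cry.symm, crz.symm, cxy.symm, cxz.symm, cyz.symm]) h
      have u2 := huniq x' ⟨hx'.1, Ne.symm npx', cpx'⟩ y' ⟨hy'.1, Ne.symm npy', cpy'⟩
        z' ⟨hz'.1, Ne.symm npz', cpz'⟩
        (by simp [nqr, nqx', nqy', nqz', nrx', nry', nrz', nxy', nxz', nyz'])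
        (by simp [cqr, cqx', cqy', cqz', crx', cry', crz', cxy', cxz', cyz', cqr.symm, cqx'.symm, cqy'.symm,
          cqz'.symm, crx'.symm, cry'.symm, crz'.symm, cxy'.symm, cxz'.symm, cyz'.symm]) h'
      have := (u1.trans u2.symm).mem_iff.1 (List.mem_cons_self (a := x) (l := [y, z]))
      simp [d1, d2, d3] at this
    refine ⟨[p, q, r, u, v, w, p, q, P, Q, R], ?_, rfl, ?_⟩
    · simp [hp, hq, hr, hu, hv, hw, hP, hQ, hR]
    · simp only [List.prod_cons, List.prod_nil, mul_one]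
      rw [hfive, show p * (q * (r * (u * (v * (w * d))))) = p * (q * (r * (u * (v * w)))) * d by group, hsix',
        mul_self hD.1 hd]
  have hperfect : ∀ d ∈ D, commutator ↥(closure (Perp D d)) = ⊤ := by
    intro d hd
    obtain ⟨-, l, hl, hlen, hprod⟩ := hrel d hd
    let H := closure (Perp D d)
    let π : H →* H ⧸ commutator H := QuotientGroup.mk' _
    let up : ∀ x, x ∈ Perp D d → H := fun x hx => ⟨x, Subgroup.subset_closure hx⟩
    obtain ⟨b, hb⟩ := hne d hd
    have hsame : ∀ x hx, π (up x hx) = π (up b hb) := by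
      intro x hx
      obtain ⟨g, hg, hgx⟩ := perp_transitive hC hM (hG 3) hd hb hx
      refine Eq.symm (QuotientGroup.eq.2 ?_)
      rw [show up x hx = ⟨g, hg⟩ * up b hb * (⟨g, hg⟩ : H)⁻¹ from Subtype.ext (by simp [up, hgx]),
        show (up b hb)⁻¹ * (⟨g, hg⟩ * up b hb * (⟨g, hg⟩ : H)⁻¹) =
          ⁅(up b hb)⁻¹, (⟨g, hg⟩ : H)⁆ by rw [commutatorElement_def]; group, commutator_def]
      exact Subgroup.commutator_mem_commutator (Subgroup.mem_top _) (Subgroup.mem_top _)
    let l' : List H := l.attach.map fun x => up x.1 (hl x.1 x.2)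
    have hl' : l'.prod = 1 := Subtype.ext (by
      show ((closure (Perp D d)).subtype l'.prod) = 1
      rw [map_list_prod, ← hprod]
      congr 1
      simp only [l', List.map_map]
      exact List.attach_map_subtype_val l)
    have hpow : π (up b hb) ^ 11 = 1 := by
      have h1 : (l'.map π).prod = π (up b hb) ^ (l'.map π).length := by
        refine List.prod_eq_pow_card _ _ fun e he => ?_
        simp only [l', List.map_map, List.mem_map] at he
        obtain ⟨x, -, rfl⟩ := he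
        exact hsame x.1 (hl x.1 x.2)
      rw [← map_list_prod, hl', map_one] at h1
      simp only [l', List.length_map, List.length_attach, hlen] at h1
      exact h1.symm
    have hb1 : π (up b hb) = 1 := by
      have h2 : π (up b hb) ^ 2 = 1 := by
        rw [← map_pow, pow_two, show up b hb * up b hb = 1 from Subtype.ext (mul_self hD.1 hb.1), map_one]
      rw [show (11 : ℕ) = 2 * 5 + 1 from rfl, pow_succ, pow_mul, h2, one_pow, one_mul] at hpow
      exact hpow
    rw [eq_top_iff, ← (perp_group hD d).2.2, Subgroup.closure_le]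
    intro x hx
    exact (QuotientGroup.eq_one_iff x).1 ((hsame x hx).trans hb1)
  refine ⟨?_, fun d hd => ⟨(hrel d hd).1, ?_, ?_⟩⟩
  · have hperf : commutator G = ⊤ := by
      rw [eq_top_iff, ← hC.2.2, Subgroup.closure_le]
      intro x hx
      have hmap : (commutator ↥(closure (Perp D x))).map (closure (Perp D x)).subtype ≤ commutator G := by
        rw [commutator_def, Subgroup.map_commutator]
        exact Subgroup.commutator_mono le_top le_top
      exact hmap ⟨⟨x, (hrel x hx).1⟩, by rw [hperfect x hx]; trivial, rfl⟩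
    haveI : Nontrivial G := ⟨⟨d₀, 1, ne_one hD.1 hd₀⟩⟩
    refine ⟨fun N hN' => ?_⟩
    by_cases h : N ⊓ commutator G ≤ center G
    · left
      rw [hperf, inf_top_eq, hZ] at h
      exact le_bot_iff.1 h
    · right
      exact eq_top_iff.2 (hperf ▸ hM N hN' h)
  · refine ⟨⟨hperfect d hd⟩, ?_⟩
    haveI : IsSimpleGroup (Cfsg.PSU 6 F 2) :=
      Cfsg.Agent.S0283.result (by norm_num [hF]) 6 (by norm_num) (by norm_num)
    obtain ⟨ψ⟩ := hm d hd
    exact ψ.isSimpleGroup
  · ext z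
    rw [mem_center_closure_iff, Subgroup.mem_subgroupOf]
    constructor
    · intro h
      rcases hcentre d hd z z.2 h with e | e <;> rw [e]
      · exact Subgroup.one_mem _
      · exact Subgroup.mem_zpowers d
    · intro h s hs
      obtain ⟨i, hi⟩ := Subgroup.mem_zpowers_iff.1 h
      rw [← hi]
      exact hs.2.2.symm.zpow_right i

end CfsgLib.ThreeTrans
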