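import Cfsg.Agent.ThreeTrans.UniqueClass

/-!
Transposition centralisers in type M(22); lifting commuting transpositions to a double cover.
-/

set_option autoImplicit false

namespace CfsgLib.ThreeTrans

open Subgroup (closure center)

variable {G : Type*} [Group G] [Finite G] {D : Set G}

/-- Given an involution with centraliser a double cover of `PSU₆(2)`: centralisers of members, and fixed members. -/
theorem twentyTwo_centralizer (hD : Cfsg.IsThreeTranspositionGroup D) (hprim : Cfsg.IsPrimitiveUnderConj D)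
    (ht : Cfsg.IsOfTypeM22 G D) {t : G} (htord : orderOf t = 2)
    [hn : ((Subgroup.zpowers t).subgroupOf (Subgroup.centralizer ({t} : Set G))).Normal]
    {K : Type} [Field K] [Fintype K] (hK : Fintype.card K = 4)
    (e : ↥(Subgroup.centralizer ({t} : Set G)) ⧸ (Subgroup.zpowers t).subgroupOf (Subgroup.centralizer ({t} : Set G))
      ≃* Cfsg.PSU 6 K 2) :
    (∀ d ∈ D, ∀ g : G, Commute g d → g ∈ closure (Perp D d)) ∧ ∀ g : G, g * g = 1 → ∃ d ∈ D, Commute g d := by
  classical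
  haveI := Fact.mk Nat.prime_three
  obtain ⟨hsimple, hlocal⟩ := twentyTwo_structure hD hprim ht
  haveI := hsimple
  have hC := class_of_primitive hD hprim
  obtain ⟨hZ, d₀, hd₀, c₀, hc₀, hdc₀, ⟨F, _, _, hF, ⟨φ⟩⟩, -⟩ := ht
  obtain ⟨p₀, hp₀, q₀, hq₀, hpq₀, hcpq₀⟩ : ∃ a ∈ D, ∃ b ∈ D, a ≠ b ∧ Commute a b := by
    by_contra hno
    have he : closure (Perp D d₀) = ⊥ := by
      rw [Subgroup.closure_eq_bot_iff]
      exact fun y hy => (hno ⟨d₀, hd₀, y, hy.1, hy.2.1.symm, hy.2.2⟩).elim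
    exact ne_one hD.1 hd₀ (Subgroup.mem_bot.1 (he ▸ (hlocal d₀ hd₀).1))
  obtain ⟨hc2, hc3, L, hLn, hL, hidx, hFit⟩ := primitive_structure hC hprim ⟨p₀, hp₀, q₀, hq₀, hpq₀, hcpq₀⟩
  haveI := hLn
  obtain ⟨hM, hG⟩ := mono_of_index_two L hL hidx (centralizer_le_center hC hc2 hc3 L hFit)
  have hN := noDom_of_mono hC hM (hG 3)
  have hm : ∀ a ∈ D, HasUModel D a F := fun a ha => by
    obtain ⟨g, hg⟩ := class_exists_conj hC ha hd₀
    exact uModel_conj hC hg ⟨φ⟩
  obtain ⟨CF⟩ := CfsgLib.UGeom.nonempty_conj (F := F) (q := 2) (by rw [hF]; norm_num)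
  obtain ⟨CK⟩ := CfsgLib.UGeom.nonempty_conj (F := K) (q := 2) (by rw [hK]; norm_num)
  haveI : IsSimpleGroup (Cfsg.PSU 6 K 2) :=
    Cfsg.Agent.S0283.result (by norm_num [hK]) 6 (by norm_num) (by norm_num)
  haveI : IsSimpleGroup (Cfsg.PSU 6 F 2) :=
    Cfsg.Agent.S0283.result (by norm_num [hF]) 6 (by norm_num) (by norm_num)
  have hnc : ∃ x y : G, ¬ Commute x y := ⟨d₀, c₀, hdc₀⟩
  have hne : ∀ a ∈ D, (Perp D a).Nonempty := fun a ha => perp_nonempty hC hM (hG 3) ha
  -- the counts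
  have hperp : ∀ d ∈ D, (Perp D d).ncard = 693 := by
    intro d hd
    obtain ⟨ψ⟩ := hm d hd
    obtain ⟨b, hb⟩ := hne d hd
    let H := closure (Perp D d)
    have hb' : (⟨b, Subgroup.subset_closure hb⟩ : H) ∈ {x : H | (x : G) ∈ Perp D d} := hb
    have h1 : (img (Perp D d)).ncard = 693 :=
      CfsgLib.USixCover.ncard_class CF ψ (img_group hD hN hd) (Set.Nonempty.image _ ⟨_, hb'⟩)
    have hinj : Set.InjOn (QuotientGroup.mk : H → H ⧸ center H) {x : H | (x : G) ∈ Perp D d} :=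
      fun x hx y hy h => img_inj hD.1 hN hd hx hy h
    rw [show img (Perp D d) = (QuotientGroup.mk : H → H ⧸ center H) '' {x : H | (x : G) ∈ Perp D d} from rfl,
      hinj.ncard_image] at h1
    rw [← h1, ← Set.ncard_image_of_injective _ (Subtype.val_injective (p := fun x => x ∈ H))]
    congr 1
    ext x
    exact ⟨fun hx => ⟨⟨x, Subgroup.subset_closure hx⟩, hx, rfl⟩, by rintro ⟨y, hy, rfl⟩; exact hy⟩
  have hsplit : ∀ g : G, D.ncard = {x | x ∈ D ∧ Commute g x}.ncard + {x | x ∈ D ∧ ¬ Commute g x}.ncard := by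
    intro g
    rw [← Set.ncard_union_eq (Set.disjoint_left.2 fun x h1 h2 => h2.2 h1.2) (Set.toFinite _) (Set.toFinite _)]
    congr 1
    ext x
    exact ⟨fun hx => (em (Commute g x)).imp (fun h => ⟨hx, h⟩) (fun h => ⟨hx, h⟩), fun h => h.elim And.left And.left⟩
  have hfix : ∀ g : G, g * g = 1 → {x | x ∈ D ∧ Commute g x}.ncard % 4 = 2 := by
    intro g hg
    have h1 := hsplit g
    have h2 := four_dvd_moved hnc hD.2.1 hg
    have h3 := hsplit d₀
    have h4 := four_dvd_moved hnc hD.2.1 (mul_self hD.1 hd₀)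
    have h5 : {x | x ∈ D ∧ Commute d₀ x} = insert d₀ (Perp D d₀) := by
      ext x
      exact ⟨fun h => (eq_or_ne x d₀).imp id fun hne' => ⟨h.1, hne', h.2⟩,
        fun h => h.elim (fun e' => by rw [e']; exact ⟨hd₀, Commute.refl _⟩) fun h' => ⟨h'.1, h'.2.2⟩⟩
    have h6 : {x | x ∈ D ∧ Commute d₀ x}.ncard = 694 := by
      rw [h5, Set.ncard_insert_of_notMem (fun h => h.2.1 rfl) (Set.toFinite _), hperp d₀ hd₀]
    omega
  -- the involution `t` is a transposition
  have htt : t * t = 1 := by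
    have := pow_orderOf_eq_one t
    rwa [htord, pow_two] at this
  set W := Subgroup.centralizer ({t} : Set G) with hW
  let π : ↥W →* Cfsg.PSU 6 K 2 := e.toMonoidHom.comp (QuotientGroup.mk' ((Subgroup.zpowers t).subgroupOf W))
  have hπ : Function.Surjective π := e.surjective.comp (QuotientGroup.mk'_surjective _)
  have hker : ∀ x : ↥W, π x = 1 → (x : G) = 1 ∨ (x : G) = t := by
    intro x hx
    have h : e (QuotientGroup.mk' ((Subgroup.zpowers t).subgroupOf W) x) = 1 := hx
    rw [EmbeddingLike.map_eq_one_iff] at h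
    obtain ⟨i, hi⟩ := Subgroup.mem_zpowers_iff.1 (Subgroup.mem_subgroupOf.1 ((QuotientGroup.eq_one_iff x).1 h))
    rw [← hi]
    rcases Int.even_or_odd' i with ⟨k, rfl | rfl⟩
    · exact Or.inl (by rw [zpow_mul, zpow_two, htt, one_zpow])
    · exact Or.inr (by rw [zpow_add, zpow_mul, zpow_two, htt, one_zpow, one_mul, zpow_one])
  have htD : t ∈ D := by
    by_contra htD
    let S₁ : Set ↥W := {x | (x : G) ∈ D}
    have hS₁ : Cfsg.IsThreeTranspositionSet S₁ := ⟨fun x hx => by rw [← Subgroup.orderOf_coe]; exact hD.1.1 _ hx,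
      fun x hx y hy => (hD.1.2 _ hx _ hy).imp (fun h => Subtype.ext (by simpa using h))
        (fun h => Subtype.ext (by simpa using h))⟩
    have hinv : ∀ g : ↥W, ∀ x ∈ S₁, g * x * g⁻¹ ∈ S₁ := fun g x hx => by
      show ((g * x * g⁻¹ : ↥W) : G) ∈ D
      simpa using hD.2.1 g _ hx
    have hne₁ : ∀ x ∈ S₁, π x ≠ 1 := fun x hx h => by
      rcases hker x h with e' | e'
      · exact ne_one hD.1 hx e'
      · exact htD (e' ▸ hx)
    have hS₀ : S₁.Nonempty := by
      have h1 := hfix t htt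
      obtain ⟨x, hx⟩ : {x | x ∈ D ∧ Commute t x}.Nonempty := by
        rw [← Set.ncard_pos (Set.toFinite _)]; omega
      exact ⟨⟨x, Subgroup.mem_centralizer_singleton_iff.2 hx.2.symm.eq⟩, hx.1⟩
    have hgrp := image_group π hπ hS₁ hinv hne₁ hS₀
    have hinj : Set.InjOn π S₁ := by
      intro x hx y hy hxy
      by_contra hne'
      have hxy1 : π (x * y) = 1 := by
        rw [map_mul, ← hxy, ← map_mul, show x * x = 1 from Subtype.ext (mul_self hD.1 hx), map_one]
      have hprod : (x : G) * y = t := by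
        refine (hker _ hxy1).resolve_left fun h => hne' (Subtype.ext ?_)
        rw [Subgroup.coe_mul, mul_eq_one_iff_eq_inv, inv_eq hD.1 hy] at h
        exact h
      have hcxy : Commute (x : G) y := by
        have h2 : ((x : G) * y) * ((x : G) * y) = 1 := by rw [hprod, htt]
        exact (sq_eq_one_iff_commute (mul_self hD.1 hx) (mul_self hD.1 hy)).1 (by rw [pow_two, h2])
      have hfixed : π x ∈ center (Cfsg.PSU 6 K 2) := by
        rw [Subgroup.mem_center_iff]
        intro q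
        obtain ⟨k, rfl⟩ := hπ q
        refine mul_inv_eq_iff_eq_mul.1 ?_
        rw [← map_inv, ← map_mul, ← map_mul]
        have hk : (k : G) * x * (k : G)⁻¹ * ((k : G) * y * (k : G)⁻¹) = (x : G) * y := by
          rw [hprod, show (k : G) * x * (k : G)⁻¹ * ((k : G) * y * (k : G)⁻¹) = k * ((x : G) * y) * (k : G)⁻¹ by group,
            hprod, Subgroup.mem_centralizer_singleton_iff.1 k.2, mul_inv_cancel_right]
        rcases pair_unique hD.1 hN (hD.2.1 k _ hx) (hD.2.1 k _ hy) hx hy ((Commute.conj_iff _).2 hcxy) hcxy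
          (fun h => hne' (Subtype.ext (mul_left_cancel (mul_right_cancel h)))) (fun h => hne' (Subtype.ext h)) hk
          with h | h
        · exact congrArg π (Subtype.ext (by simpa using h.1))
        · rw [hxy]
          exact congrArg π (Subtype.ext (by simpa using h.1))
      rw [center_PSU_eq_bot hK, Subgroup.mem_bot] at hfixed
      exact hne₁ x hx hfixed
    have h693 : S₁.ncard = 693 := by
      rw [← Set.InjOn.ncard_image hinj]
      exact CfsgLib.USixCover.ncard_class CK (MulEquiv.refl _) hgrp (hS₀.image _)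
    have hfixcard : {x | x ∈ D ∧ Commute t x}.ncard = 693 := by
      rw [← h693, ← Set.ncard_image_of_injective S₁ (Subtype.val_injective (p := fun x => x ∈ W))]
      congr 1
      ext x
      constructor
      · exact fun hx => ⟨⟨x, Subgroup.mem_centralizer_singleton_iff.2 hx.2.symm.eq⟩, hx.1, rfl⟩
      · rintro ⟨y, hy, rfl⟩
        exact ⟨hy, (show Commute (y : G) t from Subgroup.mem_centralizer_singleton_iff.1 y.2).symm⟩
    have := hfix t htt
    omega
  -- the centraliser of a member is its local subgroup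
  have hWH : W ≤ closure (Perp D t) := by
    have htH := (hlocal t htD).1
    have hHW : closure (Perp D t) ≤ W := fun x hx =>
      Subgroup.mem_centralizer_singleton_iff.2 (commute_of_mem_closure_perp hx).eq
    obtain ⟨b, hb⟩ := hne t htD
    let S₂ : Set ↥W := {x | (x : G) ∈ Perp D t}
    have hS₂ : Cfsg.IsThreeTranspositionSet S₂ := ⟨fun x hx => by rw [← Subgroup.orderOf_coe]; exact hD.1.1 _ hx.1,
      fun x hx y hy => (hD.1.2 _ hx.1 _ hy.1).imp (fun h => Subtype.ext (by simpa using h))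
        (fun h => Subtype.ext (by simpa using h))⟩
    have hgrp := image_group π hπ hS₂ (fun g x hx => by
        show ((g * x * g⁻¹ : ↥W) : G) ∈ Perp D t
        simpa using perp_conj_self hD.2.1
          (show Commute (g : G) t from Subgroup.mem_centralizer_singleton_iff.1 g.2) hx)
      (fun x hx h => (hker x h).elim (ne_one hD.1 hx.1) hx.2.1)
      ⟨⟨b, hHW (Subgroup.subset_closure hb)⟩, hb⟩
    intro w hw
    have hmem : π ⟨w, hw⟩ ∈ ((closure (Perp D t)).subgroupOf W).map π := by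
      have hle : closure (π '' S₂) ≤ ((closure (Perp D t)).subgroupOf W).map π := by
        rw [Subgroup.closure_le]
        rintro _ ⟨x, hx, rfl⟩
        exact ⟨x, Subgroup.subset_closure hx, rfl⟩
      exact hle (hgrp.2.2 ▸ Subgroup.mem_top _)
    obtain ⟨x, hx, hxw⟩ := hmem
    have hxH : (x : G) ∈ closure (Perp D t) := hx
    have h1 : π (x⁻¹ * ⟨w, hw⟩) = 1 := by rw [map_mul, map_inv, hxw, inv_mul_cancel]
    have h2 : (x : G)⁻¹ * w ∈ closure (Perp D t) := by
      rcases hker _ h1 with h | h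
      · rw [show (x : G)⁻¹ * w = 1 from h]; exact Subgroup.one_mem _
      · rw [show (x : G)⁻¹ * w = t from h]; exact htH
    simpa using Subgroup.mul_mem _ hxH h2
  have hcent : ∀ d ∈ D, ∀ g : G, Commute g d → g ∈ closure (Perp D d) := by
    intro d hd g hgd
    obtain ⟨k, rfl⟩ := class_exists_conj hC htD hd
    have h1 : k⁻¹ * g * k ∈ W := Subgroup.mem_centralizer_singleton_iff.2 (by
      calc k⁻¹ * g * k * t = k⁻¹ * (g * (k * t * k⁻¹)) * k := by group
        _ = k⁻¹ * (k * t * k⁻¹ * g) * k := by rw [hgd.eq]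
        _ = t * (k⁻¹ * g * k) := by group)
    have h2 : k * (k⁻¹ * g * k) * k⁻¹ ∈ (closure (Perp D t)).map (MulAut.conj k).toMonoidHom :=
      ⟨_, hWH h1, rfl⟩
    rw [MonoidHom.map_closure] at h2
    have h3 : (MulAut.conj k).toMonoidHom '' Perp D t = Perp D (k * t * k⁻¹) := by
      rw [perp_conj hC]; rfl
    rw [h3] at h2
    simpa [mul_assoc] using h2
  refine ⟨hcent, fun g hg => ?_⟩
  have h1 := hfix g hg
  obtain ⟨d, hd, hgd⟩ : {x | x ∈ D ∧ Commute g x}.Nonempty := by
    rw [← Set.ncard_pos (Set.toFinite _)]; omega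
  exact ⟨d, hd, hgd⟩

end CfsgLib.ThreeTrans

namespace CfsgLib.ThreeTrans

open Subgroup (closure center)
open scoped commutatorElement

variable {G : Type*} [Group G] [Finite G] {D : Set G}

/-- In type M(22) some six commuting members of a perpendicular set have product its base. -/
theorem exists_six_eq_base (hD : Cfsg.IsThreeTranspositionGroup D) (hprim : Cfsg.IsPrimitiveUnderConj D)
    (ht : Cfsg.IsOfTypeM22 G D) : ∃ d ∈ D, ∃ p q r u v w, p ∈ Perp D d ∧ q ∈ Perp D d ∧ r ∈ Perp D d ∧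
      u ∈ Perp D d ∧ v ∈ Perp D d ∧ w ∈ Perp D d ∧
      (∀ a ∈ [p, q, r, u, v, w], ∀ b ∈ [p, q, r, u, v, w], Commute a b) ∧ p * (q * (r * (u * (v * w)))) = d := by
  classical
  haveI := Fact.mk Nat.prime_three
  obtain ⟨hsimple, hlocal⟩ := twentyTwo_structure hD hprim ht
  have hC := class_of_primitive hD hprim
  obtain ⟨hZ, d, hd, -, -, -, ⟨F, _, _, hF, ⟨φ⟩⟩, -⟩ := ht
  obtain ⟨b₀, hb₀⟩ : (Perp D d).Nonempty := by
    by_contra hno
    rw [Set.not_nonempty_iff_eq_empty] at hno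
    exact ne_one hD.1 hd (Subgroup.mem_bot.1 (Subgroup.closure_empty (G := G) ▸ hno ▸ (hlocal d hd).1))
  obtain ⟨hc2, hc3, L, hLn, hL, hidx, hFit⟩ :=
    primitive_structure hC hprim ⟨d, hd, b₀, hb₀.1, hb₀.2.1.symm, hb₀.2.2⟩
  haveI := hLn
  obtain ⟨hM, hG⟩ := mono_of_index_two L hL hidx (centralizer_le_center hC hc2 hc3 L hFit)
  have hG' : ∀ p, p = 3 → ¬ IsPGroup p (commutator G) := fun p hp => by subst hp; exact hG 3
  have hN := noDom_of_mono hC hM (hG 3)
  have hm : ∀ a ∈ D, HasUModel D a F := fun a ha => by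
    obtain ⟨g, hg⟩ := class_exists_conj hC ha hd
    exact uModel_conj hC hg ⟨φ⟩
  obtain ⟨-, p, q, r, x, y, z, x', y', z', hp, hq, hr, hx, hy, hz, hx', hy', hz', hn, hn', hc, k1, k2,
    d1, d2, d3⟩ := exists_ovals_perp hD hN hd hb₀ hF (hm d hd)
  have hcentre : ∀ w ∈ closure (Perp D d), (∀ s ∈ Perp D d, Commute s w) → w = 1 ∨ w = d := by
    intro w hw h
    have h' : (⟨w, hw⟩ : closure (Perp D d)) ∈ center (closure (Perp D d)) := mem_center_closure_iff.2 h
    rw [(hlocal d hd).2.2, Subgroup.mem_subgroupOf] at h'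
    obtain ⟨i, hi⟩ := Subgroup.mem_zpowers_iff.1 h'
    rw [show w = d ^ i from hi.symm]
    rcases Int.even_or_odd' i with ⟨k, rfl | rfl⟩
    · exact Or.inl (by rw [zpow_mul, zpow_two, mul_self hD.1 hd, one_zpow])
    · exact Or.inr (by rw [zpow_add, zpow_mul, zpow_two, mul_self hD.1 hd, one_zpow, one_mul, zpow_one])
  have hmemH : ∀ {u v w : G}, u ∈ Perp D d → v ∈ Perp D d → w ∈ Perp D d →
      p * (q * (r * (u * (v * w)))) ∈ closure (Perp D d) := fun hu hv hw =>
    Subgroup.mul_mem _ (Subgroup.subset_closure hp) (Subgroup.mul_mem _ (Subgroup.subset_closure hq)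
      (Subgroup.mul_mem _ (Subgroup.subset_closure hr) (Subgroup.mul_mem _ (Subgroup.subset_closure hu)
        (Subgroup.mul_mem _ (Subgroup.subset_closure hv) (Subgroup.subset_closure hw)))))
  rcases hcentre _ (hmemH hx hy hz) k1 with h | h
  swap
  · refine ⟨d, hd, p, q, r, x, y, z, hp, hq, hr, hx, hy, hz, fun a ha b hb => hc a ?_ b ?_, h⟩
    · simp only [List.mem_cons, List.not_mem_nil, or_false] at ha ⊢; rcases ha with e | e | e | e | e | e <;> simp [e]
    · simp only [List.mem_cons, List.not_mem_nil, or_false] at hb ⊢; rcases hb with e | e | e | e | e | e <;> simp [e]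
  rcases hcentre _ (hmemH hx' hy' hz') k2 with h' | h'
  swap
  · refine ⟨d, hd, p, q, r, x', y', z', hp, hq, hr, hx', hy', hz', fun a ha b hb => hc a ?_ b ?_, h'⟩
    · simp only [List.mem_cons, List.not_mem_nil, or_false] at ha ⊢; rcases ha with e | e | e | e | e | e <;> simp [e]
    · simp only [List.mem_cons, List.not_mem_nil, or_false] at hb ⊢; rcases hb with e | e | e | e | e | e <;> simp [e]
  exfalso
  simp only [List.nodup_cons, List.mem_cons, List.not_mem_nil, or_false, not_or, List.nodup_nil,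
    and_true] at hn hn'
  obtain ⟨⟨npq, npr, npx, npy, npz⟩, ⟨nqr, nqx, nqy, nqz⟩, ⟨nrx, nry, nrz⟩, ⟨nxy, nxz⟩, nyz, -⟩ := hn
  obtain ⟨⟨-, -, npx', npy', npz'⟩, ⟨-, nqx', nqy', nqz'⟩, ⟨nrx', nry', nrz'⟩, ⟨nxy', nxz'⟩, nyz', -⟩ := hn'
  have cc : ∀ a b : G, a ∈ [p, q, r, x, y, z, x', y', z'] → b ∈ [p, q, r, x, y, z, x', y', z'] → Commute a b :=
    fun a b ha hb => hc a ha b hb
  obtain ⟨A, B, C', -, -, -, -, -, -, huniq⟩ := exists_six hD hprim hZ hC hM hG' hF hm
    (⟨hq.1, Ne.symm npq, cc p q (by simp) (by simp)⟩ : q ∈ Perp D p)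
    (⟨hr.1, Ne.symm npr, cc p r (by simp) (by simp)⟩ : r ∈ Perp D p) hp.1 nqr (cc q r (by simp) (by simp))
  have u1 := huniq x ⟨hx.1, Ne.symm npx, cc p x (by simp) (by simp)⟩ y ⟨hy.1, Ne.symm npy, cc p y (by simp) (by simp)⟩
    z ⟨hz.1, Ne.symm npz, cc p z (by simp) (by simp)⟩
    (by simp [nqr, nqx, nqy, nqz, nrx, nry, nrz, nxy, nxz, nyz])
    (fun a ha b hb => cc a b (by simp only [List.mem_cons, List.not_mem_nil, or_false] at ha ⊢; rcases ha with e | e | e | e | e <;> simp [e]) (by simp only [List.mem_cons, List.not_mem_nil, or_false] at hb ⊢; rcases hb with e | e | e | e | e <;> simp [e])) h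
  have u2 := huniq x' ⟨hx'.1, Ne.symm npx', cc p x' (by simp) (by simp)⟩
    y' ⟨hy'.1, Ne.symm npy', cc p y' (by simp) (by simp)⟩ z' ⟨hz'.1, Ne.symm npz', cc p z' (by simp) (by simp)⟩
    (by simp [nqr, nqx', nqy', nqz', nrx', nry', nrz', nxy', nxz', nyz'])
    (fun a ha b hb => cc a b (by simp only [List.mem_cons, List.not_mem_nil, or_false] at ha ⊢; rcases ha with e | e | e | e | e <;> simp [e]) (by simp only [List.mem_cons, List.not_mem_nil, or_false] at hb ⊢; rcases hb with e | e | e | e | e <;> simp [e])) h'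
  have := (u1.trans u2.symm).mem_iff.1 (List.mem_cons_self (a := x) (l := [y, z]))
  simp [d1, d2, d3] at this

/-- Commuting members have commuting involutory lifts to a central double cover. -/
theorem lift_members {W : Type*} [Group W] (hD : Cfsg.IsThreeTranspositionGroup D)
    (hprim : Cfsg.IsPrimitiveUnderConj D) (ht : Cfsg.IsOfTypeM22 G D) (π : W →* G)
    (hπ : Function.Surjective π) (hker : ∀ k, π k = 1 → (∀ w, Commute k w) ∧ k * k = 1) :
    (∀ a : W, π a ∈ D → a * a = 1) ∧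
      ∀ a b : W, π a ∈ D → π b ∈ D → Commute (π a) (π b) → Commute a b := by
  obtain ⟨-, hlocal⟩ := twentyTwo_structure hD hprim ht
  have hcomm : ∀ a b : W, π a ∈ D → π b ∈ D → Commute (π a) (π b) → Commute a b := by
    intro a b ha hb hab
    rcases eq_or_ne (π b) (π a) with he | he
    · have h1 := (hker (b * a⁻¹) (by rw [map_mul, map_inv, he, mul_inv_cancel])).1 a
      rw [show b = b * a⁻¹ * a by group]
      exact Commute.mul_right h1.symm (Commute.refl a)
    have hperf := (hlocal _ ha).2.1.1.commutator_eq_top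
    have hle : closure (Perp D (π a)) ≤ (Subgroup.centralizer ({a} : Set W)).map π := by
      intro g hg
      have hg' : g ∈ ⁅closure (Perp D (π a)), closure (Perp D (π a))⁆ := by
        have h2 : (⟨g, hg⟩ : closure (Perp D (π a))) ∈ commutator ↥(closure (Perp D (π a))) := by
          rw [hperf]; exact Subgroup.mem_top _
        have h3 := Subgroup.mem_map_of_mem (closure (Perp D (π a))).subtype h2
        rw [commutator_def, Subgroup.map_commutator, ← MonoidHom.range_eq_map, Subgroup.range_subtype] at h3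
        exact h3
      refine (Subgroup.commutator_le.2 fun x hx y hy => ?_) hg'
      obtain ⟨x, rfl⟩ := hπ x
      obtain ⟨y, rfl⟩ := hπ y
      refine ⟨⁅x, y⁆, Subgroup.mem_centralizer_singleton_iff.2 ?_, by rw [map_commutatorElement]⟩
      have key : ∀ u : W, Commute (π u) (π a) → ∃ k, (∀ w, Commute k w) ∧ a * u * a⁻¹ = k * u := fun u hu =>
        ⟨a * u * a⁻¹ * u⁻¹, (hker _ (by
          rw [map_mul, map_mul, map_mul, map_inv, map_inv, hu.symm.eq]; group)).1, by group⟩
      obtain ⟨k, hk, hka⟩ := key x (commute_of_mem_closure_perp hx)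
      obtain ⟨l, hl, hla⟩ := key y (commute_of_mem_closure_perp hy)
      have hfix : a * ⁅x, y⁆ * a⁻¹ = ⁅x, y⁆ := by
        rw [show a * ⁅x, y⁆ * a⁻¹ = ⁅a * x * a⁻¹, a * y * a⁻¹⁆ by
          rw [commutatorElement_def, commutatorElement_def]; group, hka, hla,
          CfsgLib.USixCover.commutator_central hk hl]
      exact (mul_inv_eq_iff_eq_mul.1 hfix).symm
    obtain ⟨c, hc, hcb⟩ := hle (Subgroup.subset_closure ⟨hb, he, hab⟩)
    have hk := (hker (b * c⁻¹) (by rw [map_mul, map_inv, hcb, mul_inv_cancel])).1 a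
    rw [show b = b * c⁻¹ * c by group]
    exact Commute.mul_right hk.symm (show Commute c a from Subgroup.mem_centralizer_singleton_iff.1 hc).symm
  refine ⟨?_, hcomm⟩
  obtain ⟨d, hd, p, q, r, u, v, w, hp, hq, hr, hu, hv, hw, hc, hprod⟩ := exists_six_eq_base hD hprim ht
  obtain ⟨d', rfl⟩ := hπ d
  have hsq : ∀ a : W, π a ∈ D → a * a = d' * d' := by
    intro a ha
    obtain ⟨g, hg⟩ := class_exists_conj (class_of_primitive hD hprim) hd ha
    obtain ⟨g, rfl⟩ := hπ g
    obtain ⟨k, hk, hka⟩ : ∃ k, (π k = 1) ∧ a = k * (g * d' * g⁻¹) :=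
      ⟨a * (g * d' * g⁻¹)⁻¹, by rw [map_mul, map_inv, map_mul, map_mul, map_inv, hg, mul_inv_cancel], by group⟩
    have hz : ∀ y : W, Commute (d' * d') y := (hker _ (by rw [map_mul, mul_self hD.1 hd])).1
    rw [hka, Commute.mul_mul_mul_comm ((hker k hk).1 _).symm, (hker k hk).2, one_mul,
      show g * d' * g⁻¹ * (g * d' * g⁻¹) = g * (d' * d') * g⁻¹ by group, ← (hz g).eq, mul_inv_cancel_right]
  obtain ⟨p, rfl⟩ := hπ p; obtain ⟨q, rfl⟩ := hπ q; obtain ⟨r, rfl⟩ := hπ r
  obtain ⟨u, rfl⟩ := hπ u; obtain ⟨v, rfl⟩ := hπ v; obtain ⟨w, rfl⟩ := hπ w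
  simp only [List.mem_cons, List.not_mem_nil, or_false, forall_eq_or_imp, forall_eq] at hc
  obtain ⟨⟨-, cpq, cpr, cpu, cpv, cpw⟩, ⟨-, -, cqr, cqu, cqv, cqw⟩, ⟨-, -, -, cru, crv, crw⟩,
    ⟨-, -, -, -, cuv, cuw⟩, ⟨-, -, -, -, -, cvw⟩, -⟩ := hc
  have Lpq := hcomm p q hp.1 hq.1 cpq
  have Lpr := hcomm p r hp.1 hr.1 cpr
  have Lpu := hcomm p u hp.1 hu.1 cpu
  have Lpv := hcomm p v hp.1 hv.1 cpv
  have Lpw := hcomm p w hp.1 hw.1 cpw
  have Lqr := hcomm q r hq.1 hr.1 cqr
  have Lqu := hcomm q u hq.1 hu.1 cqu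
  have Lqv := hcomm q v hq.1 hv.1 cqv
  have Lqw := hcomm q w hq.1 hw.1 cqw
  have Lru := hcomm r u hr.1 hu.1 cru
  have Lrv := hcomm r v hr.1 hv.1 crv
  have Lrw := hcomm r w hr.1 hw.1 crw
  have Luv := hcomm u v hu.1 hv.1 cuv
  have Luw := hcomm u w hu.1 hw.1 cuw
  have Lvw := hcomm v w hv.1 hw.1 cvw
  set X := p * (q * (r * (u * (v * w)))) with hX
  set c := d' * d' with hcdef
  have hz : ∀ y : W, Commute c y := (hker _ (by rw [map_mul, mul_self hD.1 hd])).1
  have hc2 : c * c = 1 := (hker _ (by rw [map_mul, mul_self hD.1 hd])).2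
  have hXX : X * X = 1 := by
    rw [hX, Commute.mul_mul_mul_comm (Lpq.mul_right (Lpr.mul_right (Lpu.mul_right (Lpv.mul_right Lpw)))).symm,
      Commute.mul_mul_mul_comm (Lqr.mul_right (Lqu.mul_right (Lqv.mul_right Lqw))).symm,
      Commute.mul_mul_mul_comm (Lru.mul_right (Lrv.mul_right Lrw)).symm,
      Commute.mul_mul_mul_comm (Luv.mul_right Luw).symm, Commute.mul_mul_mul_comm Lvw.symm,
      hsq p hp.1, hsq q hq.1, hsq r hr.1, hsq u hu.1, hsq v hv.1, hsq w hw.1,
      show c * (c * (c * (c * (c * c)))) = (c * c) * (c * c) * (c * c) by group, hc2, one_mul, one_mul]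
  have hXd : X * X = c := hsq X (by rw [hX]; simp only [map_mul]; rw [hprod]; exact hd)
  intro a ha
  rw [hsq a ha, ← hXd, hXX]

/-- In type M(22) with members' centralisers local, an involution is a product of commuting members. -/
theorem exists_commuting_factors (hD : Cfsg.IsThreeTranspositionGroup D) (hprim : Cfsg.IsPrimitiveUnderConj D)
    (ht : Cfsg.IsOfTypeM22 G D) (hcent : ∀ d ∈ D, ∀ g : G, Commute g d → g ∈ closure (Perp D d))
    (hfix : ∀ g : G, g * g = 1 → ∃ d ∈ D, Commute g d) {x : G} (hx : x * x = 1) :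
    ∃ l : List G, (∀ a ∈ l, a ∈ D) ∧ (∀ a ∈ l, ∀ b ∈ l, Commute a b) ∧ l.prod = x := by
  haveI := Fact.mk Nat.prime_three
  obtain ⟨hsimple, hlocal⟩ := twentyTwo_structure hD hprim ht
  have hC := class_of_primitive hD hprim
  obtain ⟨d, hd, hxd⟩ := hfix x hx
  obtain ⟨hZ, d₀, hd₀, -, -, -, ⟨F, _, _, hF, ⟨φ⟩⟩, -⟩ := ht
  obtain ⟨b₀, hb₀⟩ : (Perp D d).Nonempty := by
    by_contra hno
    rw [Set.not_nonempty_iff_eq_empty] at hno
    exact ne_one hD.1 hd (Subgroup.mem_bot.1 (Subgroup.closure_empty (G := G) ▸ hno ▸ (hlocal d hd).1))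
  obtain ⟨hc2, hc3, L, hLn, hL, hidx, hFit⟩ :=
    primitive_structure hC hprim ⟨d, hd, b₀, hb₀.1, hb₀.2.1.symm, hb₀.2.2⟩
  haveI := hLn
  obtain ⟨hM, hG⟩ := mono_of_index_two L hL hidx (centralizer_le_center hC hc2 hc3 L hFit)
  have hN := noDom_of_mono hC hM (hG 3)
  obtain ⟨g, hg⟩ := class_exists_conj hC hd hd₀
  obtain ⟨ψ⟩ := uModel_conj hC hg (F := F) ⟨φ⟩
  obtain ⟨C⟩ := CfsgLib.UGeom.nonempty_conj (F := F) (q := 2) (by rw [hF]; norm_num)
  let H := closure (Perp D d)
  let π : H →* H ⧸ center H := QuotientGroup.mk' _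
  have hE := img_group hD hN hd
  have hlist : ∀ y : Cfsg.PSU 6 F 2, y * y = 1 → ∃ l : List G, (∀ a ∈ l, a ∈ Perp D d) ∧
      (∀ a ∈ l, ∀ b ∈ l, Commute a b) ∧ ∃ h : l.prod ∈ H, ψ (π ⟨l.prod, h⟩) = y := by
    intro y hy
    have hE' : Cfsg.IsThreeTranspositionGroup (ψ '' img (Perp D d)) := by
      refine ⟨⟨?_, ?_⟩, ?_, ?_⟩
      · rintro _ ⟨x, hx, rfl⟩
        rw [MulEquiv.orderOf_eq]; exact hE.1.1 x hx
      · rintro _ ⟨x, hx, rfl⟩ _ ⟨y, hy, rfl⟩
        exact (hE.1.2 x hx y hy).imp (fun h => by rw [← map_mul, ← map_pow, h, map_one])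
          (fun h => by rw [← map_mul, ← map_pow, h, map_one])
      · rintro g _ ⟨x, hx, rfl⟩
        obtain ⟨g, rfl⟩ := ψ.surjective g
        exact ⟨g * x * g⁻¹, hE.2.1 g x hx, by simp⟩
      · have h := congrArg (Subgroup.map ψ.toMonoidHom) hE.2.2
        rw [MonoidHom.map_closure, Subgroup.map_top_of_surjective _ ψ.surjective] at h
        exact h
    have hp₀ : ψ (π ⟨b₀, Subgroup.subset_closure hb₀⟩) ∈ ψ '' img (Perp D d) := ⟨_, ⟨_, hb₀, rfl⟩, rfl⟩
    obtain ⟨g, rfl⟩ := QuotientGroup.mk'_surjective (Subgroup.center (Cfsg.SU 6 F 2)) y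
    rw [← map_mul, QuotientGroup.mk'_apply, QuotientGroup.eq_one_iff] at hy
    have h3 : (g * g) ^ 3 = 1 := by
      have := pow_card_eq_one' (x := (⟨g * g, hy⟩ : Subgroup.center (Cfsg.SU 6 F 2)))
      rw [CfsgLib.UGeom.card_center_SU C (by norm_num)] at this
      simpa using congrArg Subtype.val this
    have hz : ∀ y : Cfsg.SU 6 F 2, Commute (g * g) y := fun y => (Subgroup.mem_center_iff.1 hy y).symm
    have hg2 : (g * (g * g)) * (g * (g * g)) = 1 := by
      rw [Commute.mul_mul_mul_comm (hz g), ← pow_two (g * g), ← pow_succ']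
      exact h3
    have hbar : QuotientGroup.mk' (Subgroup.center (Cfsg.SU 6 F 2)) (g * (g * g)) =
        QuotientGroup.mk' (Subgroup.center (Cfsg.SU 6 F 2)) g := by
      rw [map_mul, show QuotientGroup.mk' (Subgroup.center (Cfsg.SU 6 F 2)) (g * g) = 1 from
        (QuotientGroup.eq_one_iff _).2 hy, mul_one]
    obtain ⟨L, hL, hmem, hpair⟩ := CfsgLib.USixCover.exists_list C _ hg2
    rw [← hbar, hL]
    clear hL hbar
    have hmem' : ∀ v ∈ L, v.1 ≠ 0 := fun v hv => (hmem v hv).1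
    clear hmem
    suffices h : ∃ l : List G, (∀ a ∈ l, a ∈ Perp D d) ∧ (∀ a ∈ l, ∀ b ∈ l, Commute a b) ∧
        (∃ h : l.prod ∈ H, ψ (π ⟨l.prod, h⟩) =
          QuotientGroup.mk' (Subgroup.center (Cfsg.SU 6 F 2)) (L.map fun v => CfsgLib.USixCover.T C v.1 v.2).prod) ∧
        ∀ a ∈ l, ∃ v ∈ L, ∃ ha : a ∈ H, ψ (π ⟨a, ha⟩) = CfsgLib.USixCover.bar (CfsgLib.USixCover.T C v.1 v.2) by
      obtain ⟨l, h1, h2, h3, -⟩ := h
      exact ⟨l, h1, h2, h3⟩
    induction L with
    | nil => exact ⟨[], by simp, by simp, ⟨H.one_mem, by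
        rw [show (⟨([] : List G).prod, H.one_mem⟩ : H) = 1 from rfl]; simp⟩, by simp⟩
    | cons v L ih =>
      obtain ⟨hv, hrest⟩ := List.pairwise_cons.1 hpair
      obtain ⟨l, hl, hlc, ⟨hlH, hlp⟩, hlv⟩ := ih hrest fun u hu => hmem' u (List.mem_cons_of_mem _ hu)
      obtain ⟨_, ⟨a, ha, rfl⟩, hae⟩ :=
        CfsgLib.USixCover.mem_of_isTv C hE' hp₀ ⟨v.1, v.2, hmem' v List.mem_cons_self, rfl⟩
      have hca : ∀ b ∈ l, Commute (a : G) b := by
        intro b hb
        obtain ⟨u, hu, hbH, hbe⟩ := hlv b hb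
        refine img_commute hD.1 (x := a) (y := ⟨b, hbH⟩) ha (hl b hb) ?_
        refine ψ.injective ?_
        rw [map_mul, map_mul, hae, show ψ (QuotientGroup.mk (⟨b, hbH⟩ : H)) = _ from hbe]
        exact (CfsgLib.USixCover.commute_T C v.2 u.2 (hv u hu)).eq
      refine ⟨(a : G) :: l, ?_, ?_, ⟨H.mul_mem a.2 hlH, ?_⟩, ?_⟩
      · intro b hb
        rcases List.mem_cons.1 hb with rfl | hb
        · exact ha
        · exact hl b hb
      · intro x hx y hy
        rcases List.mem_cons.1 hx with rfl | hx <;> rcases List.mem_cons.1 hy with rfl | hy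
        · exact Commute.refl _
        · exact hca y hy
        · exact (hca x hx).symm
        · exact hlc x hx y hy
      · have e1 : (⟨((a : G) :: l).prod, H.mul_mem a.2 hlH⟩ : H) = a * ⟨l.prod, hlH⟩ :=
          Subtype.ext (by simp)
        rw [e1, map_mul, map_mul, hlp, List.map_cons, List.prod_cons, map_mul]
        exact congrArg (· * _) hae
      · intro b hb
        rcases List.mem_cons.1 hb with rfl | hb
        · exact ⟨v, List.mem_cons_self, a.2, hae⟩
        · obtain ⟨u, hu, h⟩ := hlv b hb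
          exact ⟨u, List.mem_cons_of_mem _ hu, h⟩
  have hxH := hcent d hd x hxd
  obtain ⟨l, hl, hlc, hlH, hle⟩ := hlist (ψ (π ⟨x, hxH⟩))
    (by rw [← map_mul, ← map_mul, show (⟨x, hxH⟩ : H) * ⟨x, hxH⟩ = 1 from Subtype.ext hx, map_one, map_one])
  have hz : l.prod⁻¹ * x = 1 ∨ l.prod⁻¹ * x = d := by
    have h1 : (⟨l.prod, hlH⟩ : H)⁻¹ * ⟨x, hxH⟩ ∈ center H := QuotientGroup.eq.1 (ψ.injective hle)
    rw [(hlocal d hd).2.2, Subgroup.mem_subgroupOf] at h1
    obtain ⟨i, hi⟩ := Subgroup.mem_zpowers_iff.1 h1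
    rw [show l.prod⁻¹ * x = d ^ i from hi.symm]
    rcases Int.even_or_odd' i with ⟨k, rfl | rfl⟩
    · exact Or.inl (by rw [zpow_mul, zpow_two, mul_self hD.1 hd, one_zpow])
    · exact Or.inr (by rw [zpow_add, zpow_mul, zpow_two, mul_self hD.1 hd, one_zpow, one_mul, zpow_one])
  rcases hz with h | h
  · exact ⟨l, fun a ha => (hl a ha).1, hlc, inv_mul_eq_one.1 h⟩
  · refine ⟨l ++ [d], fun a ha => ?_, fun a ha b hb => ?_, ?_⟩
    · rcases List.mem_append.1 ha with ha | ha
      · exact (hl a ha).1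
      · exact List.mem_singleton.1 ha ▸ hd
    · simp only [List.mem_append, List.mem_singleton] at ha hb
      rcases ha with ha | rfl <;> rcases hb with hb | rfl
      · exact hlc a ha b hb
      · exact (hl a ha).2.2.symm
      · exact (hl b hb).2.2
      · exact Commute.refl _
    · rw [List.prod_append, List.prod_singleton, ← h, mul_inv_cancel_left]

/-- Involutions lift to a central double cover of a group of type M(22). -/
theorem twentyTwo_lift {W : Type*} [Group W] (hD : Cfsg.IsThreeTranspositionGroup D)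
    (hprim : Cfsg.IsPrimitiveUnderConj D) (ht : Cfsg.IsOfTypeM22 G D) (π : W →* G)
    (hπ : Function.Surjective π) (hker : ∀ k, π k = 1 → (∀ w, Commute k w) ∧ k * k = 1)
    (hcent : ∀ d ∈ D, ∀ g : G, Commute g d → g ∈ closure (Perp D d))
    (hfix : ∀ g : G, g * g = 1 → ∃ d ∈ D, Commute g d) {x : G} (hx : x * x = 1) :
    ∃ y : W, π y = x ∧ y * y = 1 := by
  obtain ⟨hsq, hcomm⟩ := lift_members hD hprim ht π hπ hker
  obtain ⟨l, hl, hlc, rfl⟩ := exists_commuting_factors hD hprim ht hcent hfix hx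
  clear hx
  suffices h : ∃ y : W, π y = l.prod ∧ y * y = 1 ∧
      ∀ a : W, π a ∈ D → (∀ b ∈ l, Commute (π a) b) → Commute a y from ⟨h.choose, h.choose_spec.1, h.choose_spec.2.1⟩
  induction l with
  | nil => exact ⟨1, by simp, mul_one 1, fun a _ _ => Commute.one_right a⟩
  | cons b l ih =>
    obtain ⟨y, hy, hy2, hyc⟩ := ih (fun a ha => hl a (List.mem_cons_of_mem _ ha))
      (fun a ha c hc => hlc a (List.mem_cons_of_mem _ ha) c (List.mem_cons_of_mem _ hc))
    obtain ⟨b', rfl⟩ := hπ b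
    have hb := hl (π b') List.mem_cons_self
    have hby := hyc b' hb fun c hc => hlc _ List.mem_cons_self c (List.mem_cons_of_mem _ hc)
    refine ⟨b' * y, by rw [map_mul, hy, List.prod_cons], ?_, fun a ha hal => ?_⟩
    · rw [Commute.mul_mul_mul_comm hby.symm, hsq b' hb, hy2, one_mul]
    · exact (hcomm a b' ha hb (hal _ List.mem_cons_self)).mul_right
        (hyc a ha fun c hc => hal c (List.mem_cons_of_mem _ hc))

end CfsgLib.ThreeTrans
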