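import Cfsg.Agent.ThreeTrans.TypeTwentyTwo
import Cfsg.Agent.USixCover.PointCount

/-!
In type M(22) with a transposition-like involution centraliser the class of transpositions is unique.
-/

set_option autoImplicit false

namespace CfsgLib.ThreeTrans

open Subgroup (closure center)

variable {G : Type*} [Group G] [Finite G] {D : Set G}

omit [Finite G] in
/-- In a simple non-abelian group an involution moves a multiple of four members of an invariant set. -/
theorem four_dvd_moved [Finite G] [IsSimpleGroup G] (hnc : ∃ x y : G, ¬ Commute x y)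
    (hD : ∀ g : G, ∀ d ∈ D, g * d * g⁻¹ ∈ D) {g : G} (hg : g * g = 1) :
    4 ∣ {x | x ∈ D ∧ ¬ Commute g x}.ncard := by
  classical
  haveI := Fintype.ofFinite G
  let ρ : G →* Equiv.Perm ↥D :=
    { toFun := fun a =>
        { toFun := fun x => ⟨a * x * a⁻¹, hD a x x.2⟩
          invFun := fun x => ⟨a⁻¹ * x * a, by simpa using hD a⁻¹ x x.2⟩
          left_inv := fun x => Subtype.ext (by simp [mul_assoc])
          right_inv := fun x => Subtype.ext (by simp [mul_assoc]) }
      map_one' := Equiv.ext fun x => Subtype.ext (by simp)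
      map_mul' := fun a b => Equiv.ext fun x => Subtype.ext (by simp [mul_assoc]) }
  let χ : G →* ℤˣ := Equiv.Perm.sign.comp ρ
  have hχ : χ g = 1 := by
    rcases IsSimpleGroup.eq_bot_or_eq_top_of_normal χ.ker inferInstance with h | h
    · obtain ⟨x, y, hxy⟩ := hnc
      exact absurd ((MonoidHom.ker_eq_bot_iff χ).1 h (by rw [map_mul, map_mul, mul_comm])) hxy
    · exact MonoidHom.mem_ker.1 (h ▸ Subgroup.mem_top g)
  set σ := ρ g with hσ
  have hσ2 : σ ^ 2 = 1 := by rw [hσ, ← map_pow, pow_two, hg, map_one]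
  have hcyc : ∀ n ∈ σ.cycleType, n = 2 := fun n hn => by
    have h1 := Equiv.Perm.two_le_of_mem_cycleType hn
    have h2 : n ∣ 2 := (Equiv.Perm.dvd_of_mem_cycleType hn).trans (orderOf_dvd_of_pow_eq_one hσ2)
    have := Nat.le_of_dvd (by norm_num) h2
    omega
  have hrep : σ.cycleType = Multiset.replicate (Multiset.card σ.cycleType) 2 :=
    Multiset.eq_replicate_card.2 hcyc
  obtain ⟨k, hk⟩ : ∃ k, k = Multiset.card σ.cycleType := ⟨_, rfl⟩
  have hsum : σ.support.card = 2 * k := by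
    rw [← Equiv.Perm.sum_cycleType, hrep, Multiset.sum_replicate, smul_eq_mul, ← hk, mul_comm]
  have hsign : ((-1 : ℤˣ)) ^ k = 1 := by
    have h1 : Equiv.Perm.sign σ = 1 := hχ
    rw [Equiv.Perm.sign_of_cycleType, hrep, Multiset.sum_replicate, Multiset.card_replicate, smul_eq_mul,
      ← hk, show k * 2 + k = 2 * k + k by ring, pow_add, pow_mul, neg_one_sq, one_pow, one_mul] at h1
    exact h1
  have hke : Even k := by
    by_contra ho
    rw [(Nat.not_even_iff_odd.1 ho).neg_one_pow] at hsign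
    exact absurd hsign (by decide)
  have hset : (σ.support.map (Function.Embedding.subtype _) : Finset G) =
      Finset.univ.filter fun x => x ∈ D ∧ ¬ Commute g x := by
    ext x
    simp only [Finset.mem_map, Equiv.Perm.mem_support, Function.Embedding.coe_subtype, Finset.mem_filter,
      Finset.mem_univ, true_and]
    constructor
    · rintro ⟨⟨y, hy⟩, hne, rfl⟩
      exact ⟨hy, fun h => hne (Subtype.ext (by show g * y * g⁻¹ = y; rw [h.eq, mul_inv_cancel_right]))⟩
    · rintro ⟨hx, hne⟩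
      exact ⟨⟨x, hx⟩, fun h => hne (mul_inv_eq_iff_eq_mul.1 (congrArg Subtype.val h)), rfl⟩
  have hcard : {x | x ∈ D ∧ ¬ Commute g x}.ncard = 2 * k := by
    rw [← hsum, ← Finset.card_map (Function.Embedding.subtype _), hset, ← Set.ncard_coe_finset]
    congr 1
    ext x; simp
  obtain ⟨m, rfl⟩ := hke
  exact hcard ▸ ⟨m, by ring⟩

omit [Finite G] in
/-- An invariant set of 3-transpositions maps onto a class of 3-transpositions of a simple quotient. -/
theorem image_group {K Q : Type*} [Group K] [Group Q] [IsSimpleGroup Q] (π : K →* Q)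
    (hπ : Function.Surjective π) {S : Set K} (hS : Cfsg.IsThreeTranspositionSet S)
    (hinv : ∀ g : K, ∀ d ∈ S, g * d * g⁻¹ ∈ S) (hne : ∀ x ∈ S, π x ≠ 1) (hS0 : S.Nonempty) :
    Cfsg.IsThreeTranspositionGroup (π '' S) := by
  have hinv' : ∀ g : Q, ∀ d ∈ π '' S, g * d * g⁻¹ ∈ π '' S := by
    rintro g _ ⟨x, hx, rfl⟩
    obtain ⟨g, rfl⟩ := hπ g
    exact ⟨g * x * g⁻¹, hinv g x hx, by simp⟩
  refine ⟨⟨?_, ?_⟩, hinv', ?_⟩
  · rintro _ ⟨x, hx, rfl⟩
    refine orderOf_eq_prime ?_ (hne x hx)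
    rw [← map_pow, pow_two, mul_self hS hx, map_one]
  · rintro _ ⟨x, hx, rfl⟩ _ ⟨y, hy, rfl⟩
    exact (hS.2 x hx y hy).imp (fun h => by rw [← map_mul, ← map_pow, h, map_one])
      (fun h => by rw [← map_mul, ← map_pow, h, map_one])
  · have hn : (closure (π '' S)).Normal := by
      refine Subgroup.Normal.mk fun n hn g => ?_
      induction hn using Subgroup.closure_induction with
      | mem x hx => exact Subgroup.subset_closure (hinv' g x hx)
      | one => simp
      | mul a b _ _ iha ihb =>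
        rw [show g * (a * b) * g⁻¹ = g * a * g⁻¹ * (g * b * g⁻¹) by group]
        exact Subgroup.mul_mem _ iha ihb
      | inv a _ iha =>
        rw [show g * a⁻¹ * g⁻¹ = (g * a * g⁻¹)⁻¹ by group]
        exact Subgroup.inv_mem _ iha
    refine (hn.eq_bot_or_eq_top).resolve_left fun h => ?_
    obtain ⟨x, hx⟩ := hS0
    exact hne x hx (Subgroup.mem_bot.1 (h ▸ Subgroup.subset_closure ⟨x, hx, rfl⟩))

omit [Finite G] in
theorem center_PSU_eq_bot {F : Type} [Field F] [Fintype F] (hF : Fintype.card F = 4) :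
    center (Cfsg.PSU 6 F 2) = ⊥ := by
  haveI : IsSimpleGroup (Cfsg.PSU 6 F 2) :=
    Cfsg.Agent.S0283.result (by norm_num [hF]) 6 (by norm_num) (by norm_num)
  refine (IsSimpleGroup.eq_bot_or_eq_top_of_normal _ inferInstance).resolve_right fun h => ?_
  letI : CommGroup (Cfsg.PSU 6 F 2) := { (inferInstance : Group (Cfsg.PSU 6 F 2)) with
    mul_comm := fun a b => (Subgroup.mem_center_iff.1 (h ▸ Subgroup.mem_top b) a) }
  have hp := IsSimpleGroup.prime_card (α := Cfsg.PSU 6 F 2)
  rw [card_PSU_six hF] at hp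
  exact absurd hp (Nat.not_prime_mul (by norm_num) (by norm_num))

/-- In type M(22), given an involution with centraliser a double cover of `PSU₆(2)`, the class is unique. -/
theorem twentyTwo_unique_class (hD : Cfsg.IsThreeTranspositionGroup D) (hprim : Cfsg.IsPrimitiveUnderConj D)
    (ht : Cfsg.IsOfTypeM22 G D) {t : G} (htord : orderOf t = 2)
    [hn : ((Subgroup.zpowers t).subgroupOf (Subgroup.centralizer ({t} : Set G))).Normal]
    {K : Type} [Field K] [Fintype K] (hK : Fintype.card K = 4)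
    (e : ↥(Subgroup.centralizer ({t} : Set G)) ⧸ (Subgroup.zpowers t).subgroupOf (Subgroup.centralizer ({t} : Set G))
      ≃* Cfsg.PSU 6 K 2)
    (D' : Set G) (hD' : Cfsg.IsThreeTranspositionClass D') : D' = D := by
  classical
  haveI := Fact.mk Nat.prime_three
  obtain ⟨hsimple, hlocal⟩ := twentyTwo_structure hD hprim ht
  haveI := hsimple
  have hC := class_of_primitive hD hprim
  obtain ⟨hZ, d₀, hd₀, c₀, hc₀, hdc₀, ⟨F, _, _, hF, ⟨φ⟩⟩, -⟩ := ht
  obtain ⟨p₀, hp₀, q₀, hq₀, hpq₀, hcpq₀⟩ : ∃ a ∈ D, ∃ b ∈ D, a ≠ b ∧ Commute a b := by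
    by_contra hno
    have he : closure (Perp D d₀) = ⊥ := by
      rw [Subgroup.closure_eq_bot_iff]
      exact fun y hy => (hno ⟨d₀, hd₀, y, hy.1, hy.2.1.symm, hy.2.2⟩).elim
    exact ne_one hD.1 hd₀ (Subgroup.mem_bot.1 (he ▸ (hlocal d₀ hd₀).1))
  obtain ⟨hc2, hc3, L, hLn, hL, hidx, hFit⟩ := primitive_structure hC hprim ⟨p₀, hp₀, q₀, hq₀, hpq₀, hcpq₀⟩
  haveI := hLn
  obtain ⟨hM, hG⟩ := mono_of_index_two L hL hidx (centralizer_le_center hC hc2 hc3 L hFit)
  have hN := noDom_of_mono hC hM (hG 3)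
  have hm : ∀ a ∈ D, HasUModel D a F := fun a ha => by
    obtain ⟨g, hg⟩ := class_exists_conj hC ha hd₀
    exact uModel_conj hC hg ⟨φ⟩
  obtain ⟨CF⟩ := CfsgLib.UGeom.nonempty_conj (F := F) (q := 2) (by rw [hF]; norm_num)
  obtain ⟨CK⟩ := CfsgLib.UGeom.nonempty_conj (F := K) (q := 2) (by rw [hK]; norm_num)
  haveI : IsSimpleGroup (Cfsg.PSU 6 K 2) :=
    Cfsg.Agent.S0283.result (by norm_num [hK]) 6 (by norm_num) (by norm_num)
  haveI : IsSimpleGroup (Cfsg.PSU 6 F 2) :=
    Cfsg.Agent.S0283.result (by norm_num [hF]) 6 (by norm_num) (by norm_num)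
  have hnc : ∃ x y : G, ¬ Commute x y := ⟨d₀, c₀, hdc₀⟩
  have hne : ∀ a ∈ D, (Perp D a).Nonempty := fun a ha => perp_nonempty hC hM (hG 3) ha
  -- the counts
  have hperp : ∀ d ∈ D, (Perp D d).ncard = 693 := by
    intro d hd
    obtain ⟨ψ⟩ := hm d hd
    obtain ⟨b, hb⟩ := hne d hd
    let H := closure (Perp D d)
    have hb' : (⟨b, Subgroup.subset_closure hb⟩ : H) ∈ {x : H | (x : G) ∈ Perp D d} := hb
    have h1 : (img (Perp D d)).ncard = 693 :=
      CfsgLib.USixCover.ncard_class CF ψ (img_group hD hN hd) (Set.Nonempty.image _ ⟨_, hb'⟩)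
    have hinj : Set.InjOn (QuotientGroup.mk : H → H ⧸ center H) {x : H | (x : G) ∈ Perp D d} :=
      fun x hx y hy h => img_inj hD.1 hN hd hx hy h
    rw [show img (Perp D d) = (QuotientGroup.mk : H → H ⧸ center H) '' {x : H | (x : G) ∈ Perp D d} from rfl,
      hinj.ncard_image] at h1
    rw [← h1, ← Set.ncard_image_of_injective _ (Subtype.val_injective (p := fun x => x ∈ H))]
    congr 1
    ext x
    exact ⟨fun hx => ⟨⟨x, Subgroup.subset_closure hx⟩, hx, rfl⟩, by rintro ⟨y, hy, rfl⟩; exact hy⟩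
  have hsplit : ∀ g : G, D.ncard = {x | x ∈ D ∧ Commute g x}.ncard + {x | x ∈ D ∧ ¬ Commute g x}.ncard := by
    intro g
    rw [← Set.ncard_union_eq (Set.disjoint_left.2 fun x h1 h2 => h2.2 h1.2) (Set.toFinite _) (Set.toFinite _)]
    congr 1
    ext x
    exact ⟨fun hx => (em (Commute g x)).imp (fun h => ⟨hx, h⟩) (fun h => ⟨hx, h⟩), fun h => h.elim And.left And.left⟩
  have hfix : ∀ g : G, g * g = 1 → {x | x ∈ D ∧ Commute g x}.ncard % 4 = 2 := by
    intro g hg
    have h1 := hsplit g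
    have h2 := four_dvd_moved hnc hD.2.1 hg
    have h3 := hsplit d₀
    have h4 := four_dvd_moved hnc hD.2.1 (mul_self hD.1 hd₀)
    have h5 : {x | x ∈ D ∧ Commute d₀ x} = insert d₀ (Perp D d₀) := by
      ext x
      exact ⟨fun h => (eq_or_ne x d₀).imp id fun hne' => ⟨h.1, hne', h.2⟩,
        fun h => h.elim (fun e' => by rw [e']; exact ⟨hd₀, Commute.refl _⟩) fun h' => ⟨h'.1, h'.2.2⟩⟩
    have h6 : {x | x ∈ D ∧ Commute d₀ x}.ncard = 694 := by
      rw [h5, Set.ncard_insert_of_notMem (fun h => h.2.1 rfl) (Set.toFinite _), hperp d₀ hd₀]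
    omega
  -- the involution `t` is a transposition
  have htt : t * t = 1 := by
    have := pow_orderOf_eq_one t
    rwa [htord, pow_two] at this
  set W := Subgroup.centralizer ({t} : Set G) with hW
  let π : ↥W →* Cfsg.PSU 6 K 2 := e.toMonoidHom.comp (QuotientGroup.mk' ((Subgroup.zpowers t).subgroupOf W))
  have hπ : Function.Surjective π := e.surjective.comp (QuotientGroup.mk'_surjective _)
  have hker : ∀ x : ↥W, π x = 1 → (x : G) = 1 ∨ (x : G) = t := by
    intro x hx
    have h : e (QuotientGroup.mk' ((Subgroup.zpowers t).subgroupOf W) x) = 1 := hx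
    rw [EmbeddingLike.map_eq_one_iff] at h
    obtain ⟨i, hi⟩ := Subgroup.mem_zpowers_iff.1 (Subgroup.mem_subgroupOf.1 ((QuotientGroup.eq_one_iff x).1 h))
    rw [← hi]
    rcases Int.even_or_odd' i with ⟨k, rfl | rfl⟩
    · exact Or.inl (by rw [zpow_mul, zpow_two, htt, one_zpow])
    · exact Or.inr (by rw [zpow_add, zpow_mul, zpow_two, htt, one_zpow, one_mul, zpow_one])
  have htD : t ∈ D := by
    by_contra htD
    let S₁ : Set ↥W := {x | (x : G) ∈ D}
    have hS₁ : Cfsg.IsThreeTranspositionSet S₁ := ⟨fun x hx => by rw [← Subgroup.orderOf_coe]; exact hD.1.1 _ hx,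
      fun x hx y hy => (hD.1.2 _ hx _ hy).imp (fun h => Subtype.ext (by simpa using h))
        (fun h => Subtype.ext (by simpa using h))⟩
    have hinv : ∀ g : ↥W, ∀ x ∈ S₁, g * x * g⁻¹ ∈ S₁ := fun g x hx => by
      show ((g * x * g⁻¹ : ↥W) : G) ∈ D
      simpa using hD.2.1 g _ hx
    have hne₁ : ∀ x ∈ S₁, π x ≠ 1 := fun x hx h => by
      rcases hker x h with e' | e'
      · exact ne_one hD.1 hx e'
      · exact htD (e' ▸ hx)
    have hS₀ : S₁.Nonempty := by
      have h1 := hfix t htt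
      obtain ⟨x, hx⟩ : {x | x ∈ D ∧ Commute t x}.Nonempty := by
        rw [← Set.ncard_pos (Set.toFinite _)]; omega
      exact ⟨⟨x, Subgroup.mem_centralizer_singleton_iff.2 hx.2.symm.eq⟩, hx.1⟩
    have hgrp := image_group π hπ hS₁ hinv hne₁ hS₀
    have hinj : Set.InjOn π S₁ := by
      intro x hx y hy hxy
      by_contra hne'
      have hxy1 : π (x * y) = 1 := by
        rw [map_mul, ← hxy, ← map_mul, show x * x = 1 from Subtype.ext (mul_self hD.1 hx), map_one]
      have hprod : (x : G) * y = t := by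
        refine (hker _ hxy1).resolve_left fun h => hne' (Subtype.ext ?_)
        rw [Subgroup.coe_mul, mul_eq_one_iff_eq_inv, inv_eq hD.1 hy] at h
        exact h
      have hcxy : Commute (x : G) y := by
        have h2 : ((x : G) * y) * ((x : G) * y) = 1 := by rw [hprod, htt]
        exact (sq_eq_one_iff_commute (mul_self hD.1 hx) (mul_self hD.1 hy)).1 (by rw [pow_two, h2])
      have hfixed : π x ∈ center (Cfsg.PSU 6 K 2) := by
        rw [Subgroup.mem_center_iff]
        intro q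
        obtain ⟨k, rfl⟩ := hπ q
        refine mul_inv_eq_iff_eq_mul.1 ?_
        rw [← map_inv, ← map_mul, ← map_mul]
        have hk : (k : G) * x * (k : G)⁻¹ * ((k : G) * y * (k : G)⁻¹) = (x : G) * y := by
          rw [hprod, show (k : G) * x * (k : G)⁻¹ * ((k : G) * y * (k : G)⁻¹) = k * ((x : G) * y) * (k : G)⁻¹ by group,
            hprod, Subgroup.mem_centralizer_singleton_iff.1 k.2, mul_inv_cancel_right]
        rcases pair_unique hD.1 hN (hD.2.1 k _ hx) (hD.2.1 k _ hy) hx hy ((Commute.conj_iff _).2 hcxy) hcxy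
          (fun h => hne' (Subtype.ext (mul_left_cancel (mul_right_cancel h)))) (fun h => hne' (Subtype.ext h)) hk
          with h | h
        · exact congrArg π (Subtype.ext (by simpa using h.1))
        · rw [hxy]
          exact congrArg π (Subtype.ext (by simpa using h.1))
      rw [center_PSU_eq_bot hK, Subgroup.mem_bot] at hfixed
      exact hne₁ x hx hfixed
    have h693 : S₁.ncard = 693 := by
      rw [← Set.InjOn.ncard_image hinj]
      exact CfsgLib.USixCover.ncard_class CK (MulEquiv.refl _) hgrp (hS₀.image _)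
    have hfixcard : {x | x ∈ D ∧ Commute t x}.ncard = 693 := by
      rw [← h693, ← Set.ncard_image_of_injective S₁ (Subtype.val_injective (p := fun x => x ∈ W))]
      congr 1
      ext x
      constructor
      · exact fun hx => ⟨⟨x, Subgroup.mem_centralizer_singleton_iff.2 hx.2.symm.eq⟩, hx.1, rfl⟩
      · rintro ⟨y, hy, rfl⟩
        exact ⟨hy, (show Commute (y : G) t from Subgroup.mem_centralizer_singleton_iff.1 y.2).symm⟩
    have := hfix t htt
    omega
  -- the centraliser of a member is its local subgroup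
  have hWH : W ≤ closure (Perp D t) := by
    have htH := (hlocal t htD).1
    have hHW : closure (Perp D t) ≤ W := fun x hx =>
      Subgroup.mem_centralizer_singleton_iff.2 (commute_of_mem_closure_perp hx).eq
    obtain ⟨b, hb⟩ := hne t htD
    let S₂ : Set ↥W := {x | (x : G) ∈ Perp D t}
    have hS₂ : Cfsg.IsThreeTranspositionSet S₂ := ⟨fun x hx => by rw [← Subgroup.orderOf_coe]; exact hD.1.1 _ hx.1,
      fun x hx y hy => (hD.1.2 _ hx.1 _ hy.1).imp (fun h => Subtype.ext (by simpa using h))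
        (fun h => Subtype.ext (by simpa using h))⟩
    have hgrp := image_group π hπ hS₂ (fun g x hx => by
        show ((g * x * g⁻¹ : ↥W) : G) ∈ Perp D t
        simpa using perp_conj_self hD.2.1
          (show Commute (g : G) t from Subgroup.mem_centralizer_singleton_iff.1 g.2) hx)
      (fun x hx h => (hker x h).elim (ne_one hD.1 hx.1) hx.2.1)
      ⟨⟨b, hHW (Subgroup.subset_closure hb)⟩, hb⟩
    intro w hw
    have hmem : π ⟨w, hw⟩ ∈ ((closure (Perp D t)).subgroupOf W).map π := by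
      have hle : closure (π '' S₂) ≤ ((closure (Perp D t)).subgroupOf W).map π := by
        rw [Subgroup.closure_le]
        rintro _ ⟨x, hx, rfl⟩
        exact ⟨x, Subgroup.subset_closure hx, rfl⟩
      exact hle (hgrp.2.2 ▸ Subgroup.mem_top _)
    obtain ⟨x, hx, hxw⟩ := hmem
    have hxH : (x : G) ∈ closure (Perp D t) := hx
    have h1 : π (x⁻¹ * ⟨w, hw⟩) = 1 := by rw [map_mul, map_inv, hxw, inv_mul_cancel]
    have h2 : (x : G)⁻¹ * w ∈ closure (Perp D t) := by
      rcases hker _ h1 with h | h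
      · rw [show (x : G)⁻¹ * w = 1 from h]; exact Subgroup.one_mem _
      · rw [show (x : G)⁻¹ * w = t from h]; exact htH
    simpa using Subgroup.mul_mem _ hxH h2
  have hcent : ∀ d ∈ D, ∀ g : G, Commute g d → g ∈ closure (Perp D d) := by
    intro d hd g hgd
    obtain ⟨k, rfl⟩ := class_exists_conj hC htD hd
    have h1 : k⁻¹ * g * k ∈ W := Subgroup.mem_centralizer_singleton_iff.2 (by
      calc k⁻¹ * g * k * t = k⁻¹ * (g * (k * t * k⁻¹)) * k := by group
        _ = k⁻¹ * (k * t * k⁻¹ * g) * k := by rw [hgd.eq]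
        _ = t * (k⁻¹ * g * k) := by group)
    have h2 : k * (k⁻¹ * g * k) * k⁻¹ ∈ (closure (Perp D t)).map (MulAut.conj k).toMonoidHom :=
      ⟨_, hWH h1, rfl⟩
    rw [MonoidHom.map_closure] at h2
    have h3 : (MulAut.conj k).toMonoidHom '' Perp D t = Perp D (k * t * k⁻¹) := by
      rw [perp_conj hC]; rfl
    rw [h3] at h2
    simpa [mul_assoc] using h2
  -- a member of `D'` is a member of `D`
  obtain ⟨hD'1, ⟨e₀, he₀, hD'eq⟩, hD'3⟩ := hD'
  have hD'inv : ∀ g : G, ∀ x ∈ D', g * x * g⁻¹ ∈ D' := fun g x hx => by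
    rw [hD'eq] at hx ⊢
    exact IsConj.trans hx (isConj_iff.2 ⟨g, rfl⟩)
  by_cases hmeet : ∃ x ∈ D', x ∈ D
  · obtain ⟨x, hx', hx⟩ := hmeet
    ext y
    constructor
    · intro hy
      rw [hD'eq] at hx' hy
      obtain ⟨g, rfl⟩ := isConj_iff.1 ((IsConj.symm hx').trans hy)
      exact hD.2.1 g x hx
    · intro hy
      obtain ⟨g, rfl⟩ := class_exists_conj hC hx hy
      exact hD'inv g x hx'
  exfalso
  push Not at hmeet
  -- images in the perpendicular quotients
  have key : ∀ d ∈ D, ∀ x ∈ D', Commute x d → ∃ u ∈ Perp D d, x = u ∨ x = u * d := by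
    intro d hd x hx hxd
    obtain ⟨ψ⟩ := hm d hd
    let H := closure (Perp D d)
    haveI : IsSimpleGroup (H ⧸ center H) := ψ.isSimpleGroup
    let S₃ : Set H := {y | (y : G) ∈ D'}
    have hS₃ : Cfsg.IsThreeTranspositionSet S₃ := ⟨fun y hy => by rw [← Subgroup.orderOf_coe]; exact hD'1.1 _ hy,
      fun y hy z hz => (hD'1.2 _ hy _ hz).imp (fun h => Subtype.ext (by simpa using h))
        (fun h => Subtype.ext (by simpa using h))⟩
    have hz : ∀ y : H, y ∈ center H → (y : G) = 1 ∨ (y : G) = d := fun y hy => by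
      rw [(hlocal d hd).2.2, Subgroup.mem_subgroupOf] at hy
      obtain ⟨i, hi⟩ := Subgroup.mem_zpowers_iff.1 hy
      rw [← hi]
      have hdd : d * d = 1 := mul_self hD.1 hd
      rcases Int.even_or_odd' i with ⟨k, rfl | rfl⟩
      · exact Or.inl (by rw [zpow_mul, zpow_two, hdd, one_zpow])
      · exact Or.inr (by rw [zpow_add, zpow_mul, zpow_two, hdd, one_zpow, one_mul, zpow_one])
    let xx : H := ⟨x, hcent d hd x hxd⟩
    have hgrp := image_group (QuotientGroup.mk' (center H)) (QuotientGroup.mk'_surjective _) hS₃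
      (fun g y hy => by show ((g * y * g⁻¹ : H) : G) ∈ D'; simpa using hD'inv g _ hy)
      (fun y hy h => (hz y ((QuotientGroup.eq_one_iff y).1 h)).elim (ne_one hD'1 hy)
        fun e' => hmeet _ hy (e' ▸ hd))
      ⟨xx, hx⟩
    obtain ⟨b, hb⟩ := hne d hd
    have hsub := CfsgLib.USixCover.class_eq CF ψ (img_group hD hN hd) hgrp
      ⟨_, ⟨b, Subgroup.subset_closure hb⟩, hb, rfl⟩
    obtain ⟨y, hy, hyx⟩ := hsub (Set.mem_image_of_mem _ (show xx ∈ S₃ from hx))
    refine ⟨y, hy, ?_⟩
    rcases hz _ (QuotientGroup.eq.1 hyx) with h | h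
    · exact Or.inl (inv_mul_eq_one.1 h).symm
    · exact Or.inr (inv_mul_eq_iff_eq_mul.1 h)
  have he₀' : e₀ * e₀ = 1 := mul_self hD'1 he₀
  obtain ⟨d, hd, hde⟩ : {x | x ∈ D ∧ Commute e₀ x}.Nonempty := by
    rw [← Set.ncard_pos (Set.toFinite _)]
    have := hfix e₀ he₀'
    omega
  obtain ⟨b, hb, hbe⟩ := key d hd e₀ he₀ hde
  replace hbe := hbe.resolve_left fun h => hmeet e₀ he₀ (h ▸ hb.1)
  obtain ⟨f, hfd, hfb⟩ : (Perp D d ∩ Perp D b).Nonempty := by
    obtain ⟨b', hb'⟩ := hne d hd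
    obtain ⟨-, p, q, r, x, y, z, x', y', z', hp, hq, -, -, -, -, -, -, -, hn', -, hc, -⟩ :=
      exists_ovals_perp hD hN hd hb' hF (hm d hd)
    obtain ⟨g, hg, hgb⟩ := perp_transitive hC hM (hG 3) hd hp hb
    have hpq : q ≠ p := fun h => by subst h; simp at hn'
    have hcpq : Commute p q := hc p (by simp) q (by simp)
    have hqP : g * q * g⁻¹ ∈ Perp D d := perp_conj_self hD.2.1 (commute_of_mem_closure_perp hg) hq
    exact ⟨g * q * g⁻¹, hqP, hqP.1, fun h => hpq (mul_left_cancel (mul_right_cancel (h.trans hgb.symm))),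
      hgb ▸ (Commute.conj_iff g).2 hcpq⟩
  have hef : Commute e₀ f := hbe ▸ hfb.2.2.mul_left hfd.2.2
  obtain ⟨u, hu, hue⟩ := key f hfd.1 e₀ he₀ hef
  replace hue := hue.resolve_left fun h => hmeet e₀ he₀ (h ▸ hu.1)
  rcases pair_unique hD.1 hN hb.1 hd hu.1 hfd.1 hb.2.2.symm hu.2.2.symm hb.2.1 hu.2.1 (hbe.symm.trans hue) with
    ⟨-, h⟩ | ⟨h, -⟩
  · exact hfd.2.1 h.symm
  · exact hfb.2.1 h.symm

end CfsgLib.ThreeTrans
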