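import Cfsg.Agent.ThreeTrans.TransCentralizer

/-!
In type M(23) with a transposition-like involution centraliser the class is unique: the class has odd size.
-/

set_option autoImplicit false

namespace CfsgLib.ThreeTrans

open Subgroup (closure center)

variable {G : Type*} [Group G] [Finite G] {D : Set G}

omit [Finite G] in
theorem even_ncard_of_involution [Finite G] {A : Set G} (f : G → G) (hmem : ∀ x ∈ A, f x ∈ A)
    (hinv : ∀ x ∈ A, f (f x) = x) (hne : ∀ x ∈ A, f x ≠ x) : Even A.ncard := by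
  classical
  have h : ∑ _x ∈ A.toFinite.toFinset, (1 : ZMod 2) = 0 :=
    Finset.sum_involution (fun a _ => f a) (fun a _ => by decide) (fun a ha _ => hne a (by simpa using ha))
      (fun a ha => by simpa using hmem a (by simpa using ha)) (fun a ha => hinv a (by simpa using ha))
  rw [Finset.sum_const, nsmul_one, ← Set.ncard_eq_toFinset_card A A.toFinite, ZMod.natCast_eq_zero_iff_even] at h
  exact h

theorem even_adj (hD : Cfsg.IsThreeTranspositionGroup D) {d : G} (hd : d ∈ D) : Even (Adj D d).ncard := by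
  refine even_ncard_of_involution (fun x => d * x * d⁻¹) (fun x hx => ⟨hD.2.1 d x hx.1, fun h => hx.2 ?_⟩)
    (fun x _ => ?_) (fun x hx h => hx.2 (mul_inv_eq_iff_eq_mul.1 h))
  · have h' := commute_conj_iff (g := d) (a := d) (b := x)
    rw [mul_inv_cancel_right] at h'
    exact h'.1 h
  · show d * (d * x * d⁻¹) * d⁻¹ = x
    rw [inv_eq hD.1 hd, show d * (d * x * d) * d = (d * d) * x * (d * d) by group, mul_self hD.1 hd,
      one_mul, mul_one]

theorem ncard_split (hD : Cfsg.IsThreeTranspositionGroup D) {d : G} (hd : d ∈ D) :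
    D.ncard = 1 + (Perp D d).ncard + (Adj D d).ncard := by
  classical
  have h1 : D = insert d (Perp D d) ∪ Adj D d := by
    ext x
    constructor
    · intro hx
      by_cases hc : Commute d x
      · rcases eq_or_ne x d with e | e
        · exact Or.inl (Or.inl e)
        · exact Or.inl (Or.inr ⟨hx, e, hc⟩)
      · exact Or.inr ⟨hx, hc⟩
    · rintro ((rfl | h) | h)
      exacts [hd, h.1, h.1]
  have hdisj : Disjoint (insert d (Perp D d)) (Adj D d) := Set.disjoint_left.2 fun x h1 h2 =>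
    h1.elim (fun e => h2.2 (e ▸ Commute.refl d)) fun h => h2.2 h.2.2
  conv_lhs => rw [h1]
  rw [Set.ncard_union_eq hdisj (Set.toFinite _) (Set.toFinite _),
    Set.ncard_insert_of_notMem (fun h => h.2.1 rfl) (Set.toFinite _)]
  ring

omit [Finite G] in
theorem ncard_img (hD : Cfsg.IsThreeTranspositionSet D) (hN : NoDom D) {a : G} (ha : a ∈ D) :
    (img (Perp D a)).ncard = (Perp D a).ncard := by
  let H := closure (Perp D a)
  have hinj : Set.InjOn (QuotientGroup.mk : H → H ⧸ center H) {x : H | (x : G) ∈ Perp D a} :=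
    fun x hx y hy h => img_inj hD hN ha hx hy h
  rw [show img (Perp D a) = (QuotientGroup.mk : H → H ⧸ center H) '' {x : H | (x : G) ∈ Perp D a} from rfl,
    hinj.ncard_image, ← Set.ncard_image_of_injective _ (Subtype.val_injective (p := fun x => x ∈ H))]
  congr 1
  ext x
  exact ⟨by rintro ⟨y, hy, rfl⟩; exact hy, fun hx => ⟨⟨x, Subgroup.subset_closure hx⟩, hx, rfl⟩⟩

/-- A class of type M(22) has an even number of members. -/
theorem even_class_of_M22 {X : Type*} [Group X] [Finite X] {E : Set X}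
    (hE : Cfsg.IsThreeTranspositionClass E) (h : Cfsg.IsOfTypeM22 X E) : Even E.ncard := by
  obtain ⟨hZ, d, hd, c, hc, hdc, ⟨F, _, _, hF, ⟨φ⟩⟩, μ, -, hR⟩ := h
  have hgrp := class_toGroup hE
  have h2 : Cfsg.pCore 2 X = ⊥ := by
    refine core_eq_bot_of_shape hgrp hZ hd hc hdc (core_eq_bot_of_PSU hF φ) fun hdvd => ?_
    have h1 := hdvd.trans (card_refl_dvd hR)
    have e' : Nat.card (closure (Perp E d) ⧸ center (closure (Perp E d))) = Nat.card (Cfsg.PSU 6 F 2) :=
      Nat.card_congr φ.toEquiv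
    exact card_PSU_not_dvd hF (e' ▸ h1)
  have hN : NoDom E := by
    intro a ha b hb _ h
    have heq := adj_eq_of_subset hE hb ha fun z hz => ⟨hz.1, fun hc => hz.2 (h z hz.1 hc.symm).symm⟩
    have hsame : SameCommuting E a b := fun e he => by
      have := Set.ext_iff.1 heq e
      constructor
      · intro h1
        by_contra h2
        exact (this.2 ⟨he, h2⟩).2 h1
      · intro h1
        by_contra h2
        exact (this.1 ⟨he, h2⟩).2 h1
    have h1 := (sameCommuting_iff hE ha hb).1 hsame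
    rw [h2, Subgroup.mem_bot] at h1
    exact inv_mul_eq_one.1 h1
  obtain ⟨C⟩ := CfsgLib.UGeom.nonempty_conj (F := F) (q := 2) (by rw [hF]; norm_num)
  have hne : (img (Perp E d)).Nonempty := by
    by_contra hno
    rw [Set.not_nonempty_iff_eq_empty] at hno
    have h1 := (img_group hgrp hN hd).2.2
    rw [hno, Subgroup.closure_empty] at h1
    have h2 : Nat.card (closure (Perp E d) ⧸ center (closure (Perp E d))) = 1 := by
      rw [← Subgroup.card_top, ← h1, Subgroup.card_bot]
    have e' : Nat.card (closure (Perp E d) ⧸ center (closure (Perp E d))) = Nat.card (Cfsg.PSU 6 F 2) :=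
      Nat.card_congr φ.toEquiv
    rw [e', card_PSU_six hF] at h2
    norm_num at h2
  have h693 : (img (Perp E d)).ncard = 693 := CfsgLib.USixCover.ncard_class C φ (img_group hgrp hN hd) hne
  rw [ncard_img hgrp.1 hN hd] at h693
  obtain ⟨k, hk⟩ := even_adj hgrp hd
  exact ⟨347 + k, by rw [ncard_split hgrp hd, h693, hk]; ring⟩

/-- In type M(23), given an involution whose centraliser is a double cover of a group of type M(22) with a
transposition-like involution, the class is unique. -/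
theorem twentyThree_unique_class (hD : Cfsg.IsThreeTranspositionGroup D) (hprim : Cfsg.IsPrimitiveUnderConj D)
    (h23 : Cfsg.IsOfTypeM23 G D) {t : G} (htord : orderOf t = 2)
    (hq : Cfsg.IsQuasisimple ↥(Subgroup.centralizer ({t} : Set G)))
    [hn : ((Subgroup.zpowers t).subgroupOf (Subgroup.centralizer ({t} : Set G))).Normal]
    {E : Set (↥(Subgroup.centralizer ({t} : Set G)) ⧸ (Subgroup.zpowers t).subgroupOf (Subgroup.centralizer ({t} : Set G)))}
    (hE : Cfsg.IsThreeTranspositionClass E) (hT : Cfsg.IsOfTypeM22 _ E)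
    {t' : ↥(Subgroup.centralizer ({t} : Set G)) ⧸ (Subgroup.zpowers t).subgroupOf (Subgroup.centralizer ({t} : Set G))}
    (ht' : orderOf t' = 2)
    [hn' : ((Subgroup.zpowers t').subgroupOf (Subgroup.centralizer ({t'} : Set _))).Normal]
    {K : Type} [Field K] [Fintype K] (hK : Fintype.card K = 4)
    (e : ↥(Subgroup.centralizer ({t'} : Set (↥(Subgroup.centralizer ({t} : Set G)) ⧸ (Subgroup.zpowers t).subgroupOf (Subgroup.centralizer ({t} : Set G))))) ⧸
      (Subgroup.zpowers t').subgroupOf (Subgroup.centralizer ({t'} : Set _)) ≃* Cfsg.PSU 6 K 2)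
    (D' : Set G) (hD' : Cfsg.IsThreeTranspositionClass D') : D' = D := by
  classical
  haveI := Fact.mk Nat.prime_three
  have hC := class_of_primitive hD hprim
  obtain ⟨hc2, hc3, L, hLn, hL, hidx, hFit⟩ := primitive_structure hC hprim (exists_pair_of_type (Or.inl h23))
  haveI := hLn
  obtain ⟨hM, hG⟩ := mono_of_index_two L hL hidx (centralizer_le_center hC hc2 hc3 L hFit)
  have hN := noDom_of_mono hC hM (hG 3)
  have hne : ∀ a ∈ D, (Perp D a).Nonempty := fun a ha => perp_nonempty hC hM (hG 3) ha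
  -- the class has odd size
  have hodd : Odd D.ncard := by
    obtain ⟨-, d, hd, -, -, -, h22, -⟩ := h23
    have hcl := img_class hC hN hd (hne d hd) fun b hb c hc => perp_transitive hC hM (hG 3) hd hb hc
    obtain ⟨k, hk⟩ := even_class_of_M22 (X := closure (Perp D d) ⧸ center (closure (Perp D d)))
      (E := img (Perp D d)) hcl h22
    rw [ncard_img hD.1 hN hd] at hk
    obtain ⟨j, hj⟩ := even_adj hD hd
    exact ⟨k + j, by rw [ncard_split hD hd, hk, hj]; ring⟩
  have hfix : ∀ g : G, g * g = 1 → ∃ x ∈ D, Commute g x := by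
    intro g hg
    by_contra hno
    push Not at hno
    refine (Nat.not_even_iff_odd.2 hodd) (even_ncard_of_involution (fun x => g * x * g⁻¹)
      (fun x hx => hD.2.1 g x hx) (fun x _ => ?_) fun x hx h => hno x hx (mul_inv_eq_iff_eq_mul.1 h))
    have hi : g⁻¹ = g := inv_eq_of_mul_eq_one_right hg
    show g * (g * x * g⁻¹) * g⁻¹ = x
    rw [hi, show g * (g * x * g) * g = (g * g) * x * (g * g) by group, hg, one_mul, mul_one]
  -- the quotient of the centraliser of `t`
  let W := Subgroup.centralizer ({t} : Set G)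
  let Z : Subgroup ↥W := (Subgroup.zpowers t).subgroupOf W
  have htt : t * t = 1 := by
    have := pow_orderOf_eq_one t
    rwa [htord, pow_two] at this
  let π : ↥W →* ↥W ⧸ Z := QuotientGroup.mk' Z
  have hπ : Function.Surjective π := QuotientGroup.mk'_surjective _
  have hker : ∀ x : ↥W, π x = 1 → (x : G) = 1 ∨ (x : G) = t := by
    intro x hx
    obtain ⟨i, hi⟩ := Subgroup.mem_zpowers_iff.1 (Subgroup.mem_subgroupOf.1 ((QuotientGroup.eq_one_iff x).1 hx))
    rw [← hi]
    rcases Int.even_or_odd' i with ⟨k, rfl | rfl⟩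
    · exact Or.inl (by rw [zpow_mul, zpow_two, htt, one_zpow])
    · exact Or.inr (by rw [zpow_add, zpow_mul, zpow_two, htt, one_zpow, one_mul, zpow_one])
  have hZle : Z ≤ center ↥W := fun z hz => Subgroup.mem_center_iff.2 fun a => Subtype.ext (by
    obtain ⟨i, hi⟩ := Subgroup.mem_zpowers_iff.1 (Subgroup.mem_subgroupOf.1 hz)
    have ha : Commute (a : G) t := Subgroup.mem_centralizer_singleton_iff.1 a.2
    have := (ha.zpow_right i).eq
    rw [hi] at this
    exact this)
  have hZc : center ↥W = Z := by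
    refine le_antisymm (fun z hz => ?_) hZle
    rw [← QuotientGroup.eq_one_iff, ← Subgroup.mem_bot, ← hT.1, Subgroup.mem_center_iff]
    intro q
    induction q using QuotientGroup.induction_on with
    | H g => rw [← QuotientGroup.mk_mul, ← QuotientGroup.mk_mul, Subgroup.mem_center_iff.1 hz g]
  haveI hsimple : IsSimpleGroup (↥W ⧸ Z) :=
    haveI := hq.2
    (QuotientGroup.quotientMulEquivOfEq hZc).symm.isSimpleGroup
  have hperf : commutator (↥W ⧸ Z) = ⊤ := by
    have h1 := congrArg (Subgroup.map π) hq.1.commutator_eq_top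
    rw [commutator_def, Subgroup.map_commutator, Subgroup.map_top_of_surjective _ hπ] at h1
    rw [commutator_def]; exact h1
  have hsimp' : IsSimpleGroup ↥(commutator (↥W ⧸ Z)) := by
    rw [hperf]
    exact Subgroup.topEquiv.isSimpleGroup
  have hnonab : ∃ x y : ↥(commutator (↥W ⧸ Z)), x * y ≠ y * x := by
    obtain ⟨-, a, ha, b, hb, hab, -⟩ := hT
    exact ⟨⟨a, hperf ▸ Subgroup.mem_top a⟩, ⟨b, hperf ▸ Subgroup.mem_top b⟩,
      fun h => hab (congrArg Subtype.val h)⟩
  have hG' := not_isPGroup_of_simple (p := 3) hsimp' hnonab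
  have hM' := mono_of_simple hsimp'
  have hprim' := isPrimitive hE hM' hG'
  have hEgrp := class_toGroup hE
  have huniq : ∀ {S : Set ↥W}, Cfsg.IsThreeTranspositionSet S → (∀ g : ↥W, ∀ x ∈ S, g * x * g⁻¹ ∈ S) →
      (∀ x ∈ S, π x ≠ 1) → S.Nonempty → π '' S = E := by
    intro S hS hinv hne1 hS0
    have hgrp := image_group π hπ hS hinv hne1 hS0
    refine twentyTwo_unique_class hEgrp hprim' hT ht' (hn := hn') hK e _ ?_
    -- a single class, since its part meeting `E` is invariant and generates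
    obtain ⟨x, hx⟩ := hS0
    let S' : Set ↥W := {y | y ∈ S ∧ IsConj (π x) (π y)}
    have hcl : π '' S' = conjugatesOf (π x) := by
      ext q
      constructor
      · rintro ⟨y, hy, rfl⟩; exact hy.2
      · intro hq
        obtain ⟨g, rfl⟩ := isConj_iff.1 (hq : IsConj _ q)
        obtain ⟨g, rfl⟩ := hπ g
        exact ⟨g * x * g⁻¹, ⟨hinv g x hx, isConj_iff.2 ⟨π g, by simp⟩⟩, by simp⟩
    have hgrp' := image_group π hπ (S := S') ⟨fun y hy => hS.1 y hy.1, fun y hy z hz => hS.2 y hy.1 z hz.1⟩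
      (fun g y hy => ⟨hinv g y hy.1, hy.2.trans (isConj_iff.2 ⟨π g, by simp⟩)⟩)
      (fun y hy => hne1 y hy.1) ⟨x, hx, IsConj.refl _⟩
    have hS'E : π '' S' = E := twentyTwo_unique_class hEgrp hprim' hT ht' (hn := hn') hK e _
      ⟨hgrp'.1, ⟨π x, ⟨x, ⟨hx, IsConj.refl _⟩, rfl⟩, hcl⟩, hgrp'.2.2⟩
    refine ⟨hgrp.1, ⟨π x, ⟨x, hx, rfl⟩, ?_⟩, hgrp.2.2⟩
    refine Set.Subset.antisymm ?_ (hcl ▸ Set.image_mono fun y hy => hy.1)
    rintro _ ⟨y, hy, rfl⟩
    let S'' : Set ↥W := {z | z ∈ S ∧ IsConj (π y) (π z)}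
    have hcl'' : π '' S'' = conjugatesOf (π y) := by
      ext q
      constructor
      · rintro ⟨z, hz, rfl⟩; exact hz.2
      · intro hq
        obtain ⟨g, rfl⟩ := isConj_iff.1 (hq : IsConj _ q)
        obtain ⟨g, rfl⟩ := hπ g
        exact ⟨g * y * g⁻¹, ⟨hinv g y hy, isConj_iff.2 ⟨π g, by simp⟩⟩, by simp⟩
    have hgrp'' := image_group π hπ (S := S'') ⟨fun z hz => hS.1 z hz.1, fun z hz w hw => hS.2 z hz.1 w hw.1⟩
      (fun g z hz => ⟨hinv g z hz.1, hz.2.trans (isConj_iff.2 ⟨π g, by simp⟩)⟩)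
      (fun z hz => hne1 z hz.1) ⟨y, hy, IsConj.refl _⟩
    have hS''E : π '' S'' = E := twentyTwo_unique_class hEgrp hprim' hT ht' (hn := hn') hK e _
      ⟨hgrp''.1, ⟨π y, ⟨y, ⟨hy, IsConj.refl _⟩, rfl⟩, hcl''⟩, hgrp''.2.2⟩
    rw [← hcl, hS'E, ← hS''E]
    exact ⟨y, ⟨hy, IsConj.refl _⟩, rfl⟩
  -- `t` is a member
  have htD : t ∈ D := by
    by_contra htD
    let S₁ : Set ↥W := {x | (x : G) ∈ D}
    have hS₁ : Cfsg.IsThreeTranspositionSet S₁ := ⟨fun x hx => by rw [← Subgroup.orderOf_coe]; exact hD.1.1 _ hx,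
      fun x hx y hy => (hD.1.2 _ hx _ hy).imp (fun h => Subtype.ext (by simpa using h))
        (fun h => Subtype.ext (by simpa using h))⟩
    have hinv : ∀ g : ↥W, ∀ x ∈ S₁, g * x * g⁻¹ ∈ S₁ := fun g x hx => by
      show ((g * x * g⁻¹ : ↥W) : G) ∈ D
      simpa using hD.2.1 g _ hx
    have hne₁ : ∀ x ∈ S₁, π x ≠ 1 := fun x hx h => by
      rcases hker x h with e' | e'
      · exact ne_one hD.1 hx e'
      · exact htD (e' ▸ hx)
    obtain ⟨x₀, hx₀, hcx₀⟩ := hfix t htt
    have hS₀ : S₁.Nonempty := ⟨⟨x₀, Subgroup.mem_centralizer_singleton_iff.2 hcx₀.symm.eq⟩, hx₀⟩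
    have himg := huniq hS₁ hinv hne₁ hS₀
    have hinj : Set.InjOn π S₁ := by
      intro x hx y hy hxy
      by_contra hne'
      have hxy1 : π (x * y) = 1 := by
        rw [map_mul, ← hxy, ← map_mul, show x * x = 1 from Subtype.ext (mul_self hD.1 hx), map_one]
      have hprod : (x : G) * y = t := by
        refine (hker _ hxy1).resolve_left fun h => hne' (Subtype.ext ?_)
        rw [Subgroup.coe_mul, mul_eq_one_iff_eq_inv, inv_eq hD.1 hy] at h
        exact h
      have hcxy : Commute (x : G) y := by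
        have h2 : ((x : G) * y) * ((x : G) * y) = 1 := by rw [hprod, htt]
        exact (sq_eq_one_iff_commute (mul_self hD.1 hx) (mul_self hD.1 hy)).1 (by rw [pow_two, h2])
      have hfixed : π x ∈ center (↥W ⧸ Z) := by
        rw [Subgroup.mem_center_iff]
        intro q
        obtain ⟨k, rfl⟩ := hπ q
        refine mul_inv_eq_iff_eq_mul.1 ?_
        rw [← map_inv, ← map_mul, ← map_mul]
        have hk : (k : G) * x * (k : G)⁻¹ * ((k : G) * y * (k : G)⁻¹) = (x : G) * y := by
          rw [hprod, show (k : G) * x * (k : G)⁻¹ * ((k : G) * y * (k : G)⁻¹) = k * ((x : G) * y) * (k : G)⁻¹ by group,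
            hprod, Subgroup.mem_centralizer_singleton_iff.1 k.2, mul_inv_cancel_right]
        rcases pair_unique hD.1 hN (hD.2.1 k _ hx) (hD.2.1 k _ hy) hx hy ((Commute.conj_iff _).2 hcxy) hcxy
          (fun h => hne' (Subtype.ext (mul_left_cancel (mul_right_cancel h)))) (fun h => hne' (Subtype.ext h)) hk
          with h | h
        · exact congrArg π (Subtype.ext (by simpa using h.1))
        · rw [hxy]
          exact congrArg π (Subtype.ext (by simpa using h.1))
      rw [hT.1, Subgroup.mem_bot] at hfixed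
      exact hne₁ x hx hfixed
    have heven : Even {x | x ∈ D ∧ Commute t x}.ncard := by
      have h1 : {x | x ∈ D ∧ Commute t x}.ncard = S₁.ncard := by
        rw [← Set.ncard_image_of_injective S₁ (Subtype.val_injective (p := fun x => x ∈ W))]
        congr 1
        ext x
        constructor
        · exact fun hx => ⟨⟨x, Subgroup.mem_centralizer_singleton_iff.2 hx.2.symm.eq⟩, hx.1, rfl⟩
        · rintro ⟨y, hy, rfl⟩
          exact ⟨hy, (show Commute (y : G) t from Subgroup.mem_centralizer_singleton_iff.1 y.2).symm⟩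
      rw [h1, ← hinj.ncard_image, himg]
      exact even_class_of_M22 hE hT
    have hmoved : Even {x | x ∈ D ∧ ¬ Commute t x}.ncard := by
      have hi : t⁻¹ = t := inv_eq_of_mul_eq_one_right htt
      refine even_ncard_of_involution (fun x => t * x * t⁻¹) (fun x hx => ⟨hD.2.1 t x hx.1, fun h => hx.2 ?_⟩)
        (fun x _ => ?_) (fun x hx h => hx.2 (mul_inv_eq_iff_eq_mul.1 h))
      · have h' := commute_conj_iff (g := t) (a := t) (b := x)
        rw [mul_inv_cancel_right] at h'
        exact h'.1 h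
      · show t * (t * x * t⁻¹) * t⁻¹ = x
        rw [hi, show t * (t * x * t) * t = (t * t) * x * (t * t) by group, htt, one_mul, mul_one]
    have hsum : D.ncard = {x | x ∈ D ∧ Commute t x}.ncard + {x | x ∈ D ∧ ¬ Commute t x}.ncard := by
      rw [← Set.ncard_union_eq (Set.disjoint_left.2 fun x h1 h2 => h2.2 h1.2) (Set.toFinite _) (Set.toFinite _)]
      congr 1
      ext x
      exact ⟨fun hx => (em (Commute t x)).imp (fun h => ⟨hx, h⟩) (fun h => ⟨hx, h⟩),
        fun h => h.elim And.left And.left⟩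
    exact (Nat.not_even_iff_odd.2 hodd) (hsum ▸ heven.add hmoved)
  -- perpendicular members of `t` map onto `E`
  let S₂ : Set ↥W := {x | (x : G) ∈ Perp D t}
  have hS₂ : Cfsg.IsThreeTranspositionSet S₂ := ⟨fun x hx => by rw [← Subgroup.orderOf_coe]; exact hD.1.1 _ hx.1,
    fun x hx y hy => (hD.1.2 _ hx.1 _ hy.1).imp (fun h => Subtype.ext (by simpa using h))
      (fun h => Subtype.ext (by simpa using h))⟩
  obtain ⟨b₀, hb₀⟩ := hne t htD
  have himg₂ : π '' S₂ = E := huniq hS₂ (fun g x hx => by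
      show ((g * x * g⁻¹ : ↥W) : G) ∈ Perp D t
      simpa using perp_conj_self hD.2.1
        (show Commute (g : G) t from Subgroup.mem_centralizer_singleton_iff.1 g.2) hx)
    (fun x hx h => (hker x h).elim (ne_one hD.1 hx.1) hx.2.1)
    ⟨⟨b₀, Subgroup.mem_centralizer_singleton_iff.2 hb₀.2.2.symm.eq⟩, hb₀⟩
  -- a member of `D'` is a member of `D`
  obtain ⟨hD'1, ⟨e₀, he₀, hD'eq⟩, hD'3⟩ := hD'
  have hD'inv : ∀ g : G, ∀ x ∈ D', g * x * g⁻¹ ∈ D' := fun g x hx => by
    rw [hD'eq] at hx ⊢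
    exact IsConj.trans hx (isConj_iff.2 ⟨g, rfl⟩)
  by_cases hmeet : ∃ x ∈ D', x ∈ D
  · obtain ⟨x, hx', hx⟩ := hmeet
    ext y
    constructor
    · intro hy
      rw [hD'eq] at hx' hy
      obtain ⟨g, rfl⟩ := isConj_iff.1 ((IsConj.symm hx').trans hy)
      exact hD.2.1 g x hx
    · intro hy
      obtain ⟨g, rfl⟩ := class_exists_conj hC hx hy
      exact hD'inv g x hx'
  exfalso
  push Not at hmeet
  have key : ∀ d ∈ D, ∀ x ∈ D', Commute x d → ∃ u ∈ Perp D d, x = u ∨ x = u * d := by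
    intro d hd x hx hxd
    obtain ⟨k, rfl⟩ := class_exists_conj hC htD hd
    let S₃ : Set ↥W := {y | (y : G) ∈ D'}
    have hS₃ : Cfsg.IsThreeTranspositionSet S₃ := ⟨fun y hy => by rw [← Subgroup.orderOf_coe]; exact hD'1.1 _ hy,
      fun y hy z hz => (hD'1.2 _ hy _ hz).imp (fun h => Subtype.ext (by simpa using h))
        (fun h => Subtype.ext (by simpa using h))⟩
    have hxW : k⁻¹ * x * k ∈ W := Subgroup.mem_centralizer_singleton_iff.2 (by
      calc k⁻¹ * x * k * t = k⁻¹ * (x * (k * t * k⁻¹)) * k := by group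
        _ = k⁻¹ * (k * t * k⁻¹ * x) * k := by rw [hxd.eq]
        _ = t * (k⁻¹ * x * k) := by group)
    have hxD' : k⁻¹ * x * k ∈ D' := by simpa using hD'inv k⁻¹ x hx
    have himg₃ := huniq hS₃ (fun g y hy => by
        show ((g * y * g⁻¹ : ↥W) : G) ∈ D'; simpa using hD'inv g _ hy)
      (fun y hy h => (hker y h).elim (ne_one hD'1 hy) fun e' => hmeet _ hy (e' ▸ htD))
      ⟨⟨_, hxW⟩, hxD'⟩
    obtain ⟨u, hu, hux⟩ : π ⟨_, hxW⟩ ∈ π '' S₂ := himg₂.symm ▸ himg₃ ▸ ⟨_, hxD', rfl⟩
    refine ⟨k * u * k⁻¹, by rw [perp_conj hC]; exact ⟨u, hu, rfl⟩, ?_⟩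
    have h1 : π (u⁻¹ * ⟨_, hxW⟩) = 1 := by rw [map_mul, map_inv, hux, inv_mul_cancel]
    rcases hker _ h1 with h | h
    · left
      have h2 : (u : G) = k⁻¹ * x * k := inv_mul_eq_one.1 h
      rw [h2]; group
    · right
      have h2 : k⁻¹ * x * k = u * t := inv_mul_eq_iff_eq_mul.1 h
      calc x = k * (k⁻¹ * x * k) * k⁻¹ := by group
        _ = k * u * k⁻¹ * (k * t * k⁻¹) := by rw [h2]; group
  obtain ⟨d, hd, hde⟩ := hfix e₀ (mul_self hD'1 he₀)
  obtain ⟨b, hb, hbe⟩ := key d hd e₀ he₀ hde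
  replace hbe := hbe.resolve_left fun h => hmeet e₀ he₀ (h ▸ hb.1)
  obtain ⟨f, hfd, hfb⟩ : (Perp D d ∩ Perp D b).Nonempty := by
    obtain ⟨k, rfl⟩ := class_exists_conj hC htD hd
    rw [perp_conj hC] at hb
    obtain ⟨b₁, hb₁, rfl⟩ := hb
    have hb₁E : π ⟨b₁, Subgroup.mem_centralizer_singleton_iff.2 hb₁.2.2.symm.eq⟩ ∈ E := himg₂ ▸ ⟨_, hb₁, rfl⟩
    obtain ⟨q, hq⟩ := perp_nonempty hE hM' hG' hb₁E
    obtain ⟨f₁, hf₁, rfl⟩ : q ∈ π '' S₂ := himg₂.symm ▸ hq.1
    have hcb : Commute (b₁ : G) f₁ := by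
      by_contra hnc
      have h3 := cube_of_not_commute hD.1 hb₁.1 hf₁.1 hnc
      have h2 : (π ⟨b₁, Subgroup.mem_centralizer_singleton_iff.2 hb₁.2.2.symm.eq⟩ * π f₁) ^ 2 = 1 :=
        (sq_eq_one_iff_commute (mul_self hE.1 hb₁E) (mul_self hE.1 hq.1)).2 hq.2.2
      have h3' : (π ⟨b₁, Subgroup.mem_centralizer_singleton_iff.2 hb₁.2.2.symm.eq⟩ * π f₁) ^ 3 = 1 := by
        rw [← map_mul, ← map_pow, show ((⟨b₁, Subgroup.mem_centralizer_singleton_iff.2 hb₁.2.2.symm.eq⟩ : ↥W) * f₁) ^ 3 = 1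
          from Subtype.ext (by simpa using h3), map_one]
      have h1 := eq_one_of_pow_coprime h2 h3' (by norm_num)
      rw [mul_eq_one_iff_eq_inv, inv_eq hE.1 hq.1] at h1
      exact hq.2.1 h1.symm
    refine ⟨k * f₁ * k⁻¹, by rw [perp_conj hC]; exact ⟨f₁, hf₁, rfl⟩, hD.2.1 k _ hf₁.1, fun h => ?_,
      (Commute.conj_iff k).2 hcb⟩
    exact hq.2.1 (congrArg π (Subtype.ext (mul_left_cancel (mul_right_cancel h))))
  have hef : Commute e₀ f := hbe ▸ hfb.2.2.mul_left hfd.2.2
  obtain ⟨u, hu, hue⟩ := key f hfd.1 e₀ he₀ hef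
  replace hue := hue.resolve_left fun h => hmeet e₀ he₀ (h ▸ hu.1)
  rcases pair_unique hD.1 hN hb.1 hd hu.1 hfd.1 hb.2.2.symm hu.2.2.symm hb.2.1 hu.2.1 (hbe.symm.trans hue) with
    ⟨-, h⟩ | ⟨h, -⟩
  · exact hfd.2.1 h.symm
  · exact hfb.2.1 h.symm

end CfsgLib.ThreeTrans
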