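import Cfsg.Agent.ThreeTrans.FactorTypes
import Cfsg.Agent.USixCover.Points

/-!
In type M(22) every three commuting members extend to exactly one set of six with product one.
-/

set_option autoImplicit false

namespace CfsgLib.ThreeTrans

open Subgroup (closure center)

variable {G : Type*} [Group G] [Finite G] {D : Set G}

/-- A finite-field model of the perpendicular quotient. -/
abbrev HasUModel (D : Set G) (a : G) (F : Type) [Field F] : Prop :=
  Nonempty ((closure (Perp D a) ⧸ center (closure (Perp D a))) ≃* Cfsg.PSU 6 F 2)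

omit [Finite G] in
theorem center_map_equiv {A B : Type*} [Group A] [Group B] (e : A ≃* B) :
    (center A).map (e : A →* B) = center B := by
  ext x
  simp only [Subgroup.mem_map, Subgroup.mem_center_iff]
  constructor
  · rintro ⟨y, hy, rfl⟩ g
    obtain ⟨g, rfl⟩ := e.surjective g
    simpa using congrArg e (hy g)
  · intro h
    exact ⟨e.symm x, fun g => e.injective (by simpa using h (e g)), by simp⟩

omit [Finite G] in
theorem uModel_conj (hD : Cfsg.IsThreeTranspositionClass D) {a d g : G} (hg : g * a * g⁻¹ = d)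
    {F : Type} [Field F] (h : HasUModel D d F) : HasUModel D a F := by
  obtain ⟨φ⟩ := h
  have hmap : (closure (Perp D a)).map ((MulAut.conj g : G ≃* G) : G →* G) = closure (Perp D d) := by
    rw [MonoidHom.map_closure]
    congr 1
    rw [← hg, perp_conj hD]
    ext x; simp [MulAut.conj_apply]
  let e : closure (Perp D a) ≃* closure (Perp D d) :=
    ((MulAut.conj g : G ≃* G).subgroupMap (closure (Perp D a))).trans (MulEquiv.subgroupCongr hmap)
  exact ⟨(QuotientGroup.congr _ _ e (center_map_equiv e)).trans φ⟩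

omit [Finite G] in
/-- The line through two members of the perpendicular set of `a`. -/
theorem exists_perp_line (hD : Cfsg.IsThreeTranspositionGroup D) (hN : NoDom D) {a b c : G} (ha : a ∈ D)
    {F : Type} [Field F] [Fintype F] (hF : Fintype.card F = 4) (hm : HasUModel D a F)
    (hb : b ∈ Perp D a) (hc : c ∈ Perp D a) (hne : b ≠ c) (hbc : Commute b c) :
    ∃ P Q R, P ∈ Perp D a ∧ Q ∈ Perp D a ∧ R ∈ Perp D a ∧ [b, c, P, Q, R].Nodup ∧
      (∀ x ∈ [b, c, P, Q, R], ∀ y ∈ [b, c, P, Q, R], Commute x y) ∧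
      (∀ y ∈ Perp D a, Commute y (b * (c * (P * (Q * R))))) ∧
      (∀ y ∈ Perp D a, Commute y b → Commute y c → Commute y P ∧ Commute y Q ∧ Commute y R) ∧
      (∀ u ∈ Perp D a, u ≠ b → u ≠ c → Commute u b → Commute u c →
        (∀ y ∈ Perp D a, Commute y b → Commute y c → Commute y u) → u = P ∨ u = Q ∨ u = R) ∧
      ∀ x ∈ Perp D a, ∀ y ∈ Perp D a, ∀ z ∈ Perp D a, [b, c, x, y, z].Nodup →
        (∀ u ∈ [b, c, x, y, z], ∀ w ∈ [b, c, x, y, z], Commute u w) →
        (∀ s ∈ Perp D a, Commute s (b * (c * (x * (y * z))))) →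
        (x = P ∨ x = Q ∨ x = R) ∧ (y = P ∨ y = Q ∨ y = R) ∧ (z = P ∨ z = Q ∨ z = R) := by
  obtain ⟨C⟩ := CfsgLib.UGeom.nonempty_conj (F := F) (q := 2) (by rw [hF]; norm_num)
  obtain ⟨φ⟩ := hm
  let H := closure (Perp D a)
  let π : H →* H ⧸ center H := QuotientGroup.mk' _
  let up : ∀ x, x ∈ Perp D a → H := fun x hx => ⟨x, Subgroup.subset_closure hx⟩
  let im : ∀ x, x ∈ Perp D a → H ⧸ center H := fun x hx => π (up x hx)
  have him : ∀ x hx, im x hx ∈ img (Perp D a) := fun x hx => ⟨up x hx, hx, rfl⟩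
  have hsurj : ∀ p ∈ img (Perp D a), ∃ x hx, im x hx = p := by
    rintro _ ⟨x, hx, rfl⟩
    exact ⟨x, hx, rfl⟩
  have hcm : ∀ x hx y hy, Commute (im x hx) (im y hy) ↔ Commute x y := fun x hx y hy =>
    ⟨fun h => img_commute hD.1 (x := up x hx) (y := up y hy) hx hy h,
      fun h => (show Commute (up x hx) (up y hy) from Subtype.ext h.eq).map π⟩
  have hinj : ∀ x hx y hy, im x hx = im y hy → x = y := fun x hx y hy h =>
    congrArg Subtype.val (img_inj hD.1 hN ha (x := up x hx) (y := up y hy) hx hy h)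
  have hall : ∀ {u : G}, (∀ y ∈ Perp D a, Commute y u) → ∀ (hu : u ∈ H), π ⟨u, hu⟩ = 1 := fun h hu =>
    (QuotientGroup.eq_one_iff _).2 (mem_center_closure_iff.2 h)
  obtain ⟨r, s, t, hr, hs, ht, hn, hcomm, hprod, hperp, hline, huniq⟩ :=
    CfsgLib.USixCover.exists_line C φ (img_group hD hN ha) (him b hb) (him c hc)
      (fun h => hne (hinj _ hb _ hc h)) ((hcm _ hb _ hc).2 hbc)
  obtain ⟨P, hP, rfl⟩ := hsurj r hr
  obtain ⟨Q, hQ, rfl⟩ := hsurj s hs
  obtain ⟨R, hR, rfl⟩ := hsurj t ht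
  simp only [List.nodup_cons, List.mem_cons, List.not_mem_nil, or_false, not_or, List.nodup_nil,
    and_true] at hn
  simp only [List.mem_cons, List.not_mem_nil, or_false, forall_eq_or_imp, forall_eq, hcm] at hcomm
  refine ⟨P, Q, R, hP, hQ, hR, ?_, ?_, ?_, fun y hy h1 h2 => ?_, fun u hu hub huc h1 h2 h3 => ?_, ?_⟩
  · obtain ⟨⟨n1, n2, n3, n4⟩, ⟨n5, n6, n7⟩, ⟨n8, n9⟩, n10, -⟩ := hn
    simp only [List.nodup_cons, List.mem_cons, List.not_mem_nil, or_false, not_or, List.nodup_nil,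
      and_true]
    refine ⟨⟨hne, ?_, ?_, ?_⟩, ⟨?_, ?_, ?_⟩, ⟨?_, ?_⟩, ?_, not_false⟩
    all_goals intro h; subst h
    all_goals first
      | exact n2 rfl | exact n3 rfl | exact n4 rfl | exact n5 rfl | exact n6 rfl
      | exact n7 rfl | exact n8 rfl | exact n9 rfl | exact n10 rfl
  · simpa only [List.mem_cons, List.not_mem_nil, or_false, forall_eq_or_imp, forall_eq] using hcomm
  · intro y hy
    have h := (QuotientGroup.eq_one_iff _).1
      (show π (up b hb * (up c hc * (up P hP * (up Q hQ * up R hR)))) = 1 by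
        simp only [map_mul]; exact hprod)
    exact mem_center_closure_iff.1 h y hy
  · have h := hperp _ (him y hy) ((hcm _ hy _ hb).2 h1) ((hcm _ hy _ hc).2 h2)
    simpa only [hcm] using h
  · refine (hline _ (him u hu) (fun h => hub (hinj _ hu _ hb h)) (fun h => huc (hinj _ hu _ hc h))
      ((hcm _ hu _ hb).2 h1) ((hcm _ hu _ hc).2 h2) fun p hp g1 g2 => ?_).imp (hinj _ hu _ hP)
      (Or.imp (hinj _ hu _ hQ) (hinj _ hu _ hR))
    obtain ⟨y, hy, rfl⟩ := hsurj p hp
    rw [hcm _ hy _ hb] at g1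
    rw [hcm _ hy _ hc] at g2
    rw [hcm _ hy _ hu]
    exact h3 y hy g1 g2
  · intro x hx y hy z hz hn' hc' hs'
    have hp : im b hb * (im c hc * (im x hx * (im y hy * im z hz))) = 1 := by
      show π (up b hb) * (π (up c hc) * (π (up x hx) * (π (up y hy) * π (up z hz)))) = 1
      simp only [← map_mul]
      exact hall hs' _
    simp only [List.nodup_cons, List.mem_cons, List.not_mem_nil, or_false, not_or, List.nodup_nil,
      and_true] at hn'
    obtain ⟨⟨m1, m2, m3, m4⟩, ⟨m5, m6, m7⟩, ⟨m8, m9⟩, m10, -⟩ := hn'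
    have hnd : [im b hb, im c hc, im x hx, im y hy, im z hz].Nodup := by
      simp only [List.nodup_cons, List.mem_cons, List.not_mem_nil, or_false, not_or, List.nodup_nil,
        and_true]
      exact ⟨⟨mt (hinj _ hb _ hc) m1, mt (hinj _ hb _ hx) m2, mt (hinj _ hb _ hy) m3, mt (hinj _ hb _ hz) m4⟩,
        ⟨mt (hinj _ hc _ hx) m5, mt (hinj _ hc _ hy) m6, mt (hinj _ hc _ hz) m7⟩,
        ⟨mt (hinj _ hx _ hy) m8, mt (hinj _ hx _ hz) m9⟩, mt (hinj _ hy _ hz) m10, not_false⟩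
    obtain ⟨k1, k2, k3⟩ := huniq _ (him x hx) _ (him y hy) _ (him z hz) hnd
      (by simpa only [List.mem_cons, List.not_mem_nil, or_false, forall_eq_or_imp, forall_eq, hcm] using hc') hp
    exact ⟨k1.imp (hinj _ hx _ hP) (Or.imp (hinj _ hx _ hQ) (hinj _ hx _ hR)),
      k2.imp (hinj _ hy _ hP) (Or.imp (hinj _ hy _ hQ) (hinj _ hy _ hR)),
      k3.imp (hinj _ hz _ hP) (Or.imp (hinj _ hz _ hQ) (hinj _ hz _ hR))⟩

/-- An element commuting with the perpendicular sets of two commuting members, with both members, and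
with a member of both perpendicular sets is central. -/
theorem mem_center_of_perps (hC : Cfsg.IsThreeTranspositionClass D) (hprim : Cfsg.IsPrimitiveUnderConj D)
    (hM : Mono G) (hG : ∀ p, p = 3 → ¬ IsPGroup p (commutator G)) {a b c w : G} (ha : a ∈ D) (hb : b ∈ D)
    (hab : b ∈ Perp D a) (hca : c ∈ Perp D a) (hcb : c ∈ Perp D b) (hwa : Commute w a) (hwb : Commute w b)
    (h1 : ∀ y ∈ Perp D a, Commute y w) (h2 : ∀ y ∈ Perp D b, Commute y w) : w ∈ center G := by
  haveI := Fact.mk Nat.prime_three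
  set X := Subgroup.centralizer ({w} : Set G) with hX
  have hXm : ∀ x, x ∈ X ↔ Commute x w := fun x =>
    ⟨fun h => Subgroup.mem_centralizer_singleton_iff.1 h, fun h => Subgroup.mem_centralizer_singleton_iff.2 h.eq⟩
  set O : Set G := {x | ∃ g ∈ X, g * a * g⁻¹ = x}
  have hle : ∀ (u : G), (∀ y ∈ Perp D u, Commute y w) → closure (Perp D u) ≤ X := fun u hu => by
    rw [Subgroup.closure_le]; exact fun y hy => (hXm y).2 (hu y hy)
  have haP : a ∈ Perp D b := ⟨ha, hab.2.1.symm, hab.2.2.symm⟩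
  have hPa : ∀ y ∈ Perp D a, y ∈ O := fun y hy => by
    obtain ⟨g, hg, hg'⟩ := perp_transitive hC hM (hG 3 rfl) ha hca hy
    obtain ⟨k, hk, hk'⟩ := perp_transitive hC hM (hG 3 rfl) hb haP hcb
    exact ⟨g * k, X.mul_mem (hle a h1 hg) (hle b h2 hk), by rw [← hg', ← hk']; group⟩
  have hO : ∀ u v, u ∈ O → v ∈ D → Commute u v → v ∈ O := by
    rintro _ v ⟨g, hg, rfl⟩ hv huv
    rcases eq_or_ne v (g * a * g⁻¹) with rfl | hne
    · exact ⟨g, hg, rfl⟩
    have hvP : v ∈ Perp D (g * a * g⁻¹) := ⟨hv, hne, huv⟩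
    rw [perp_conj hC] at hvP
    obtain ⟨y, hy, rfl⟩ := hvP
    obtain ⟨k, hk, rfl⟩ := hPa y hy
    exact ⟨g * k, X.mul_mem hg hk, by group⟩
  let f : G → G → Prop := Relation.EqvGen fun u v => u ∈ D ∧ v ∈ D ∧ Commute u v
  have hinv : ∀ g u v, f u v → f (g * u * g⁻¹) (g * v * g⁻¹) := by
    intro g u v h
    induction h with
    | rel p q h => exact .rel _ _ ⟨class_conj_mem hC g h.1, class_conj_mem hC g h.2.1, commute_conj_iff.2 h.2.2⟩
    | refl p => exact .refl _
    | symm p q _ ih => exact .symm _ _ ih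
    | trans p q r _ _ ih1 ih2 => exact .trans _ _ _ ih1 ih2
  have hf : ∀ u v, f u v → (u ∈ O ↔ v ∈ O) := fun u v h => by
    induction h with
    | rel p q h => exact ⟨fun hp => hO p q hp h.2.1 h.2.2, fun hq => hO q p hq h.1 h.2.2.symm⟩
    | refl p => exact Iff.rfl
    | symm p q _ ih => exact ih.symm
    | trans p q r _ _ ih1 ih2 => exact ih1.trans ih2
  have hall := primitive_relation hC hprim f .refl .symm .trans hinv ha hb hab.2.1.symm
    (.rel _ _ ⟨ha, hb, hab.2.2⟩)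
  have htop : closure D = ⊤ := hC.2.2
  rw [← Subgroup.centralizer_univ, ← Subgroup.coe_top, ← htop, Subgroup.centralizer_closure]
  intro x hx
  obtain ⟨g, hg, rfl⟩ := (hf a x (hall x hx)).1 ⟨1, X.one_mem, by simp⟩
  have h : Commute (g * a * g⁻¹) w :=
    ((((hXm g).1 hg).mul_left hwa.symm)).mul_left ((hXm g).1 hg).inv_left
  exact h.eq

omit [Finite G] in
theorem perm_of_three {P Q R x y z : G} (hn : [x, y, z].Nodup)
    (h : (x = P ∨ x = Q ∨ x = R) ∧ (y = P ∨ y = Q ∨ y = R) ∧ (z = P ∨ z = Q ∨ z = R)) :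
    List.Perm [x, y, z] [P, Q, R] := by
  refine (List.subperm_of_subset hn ?_).perm_of_length_le le_rfl
  simpa [List.subset_def] using h

/-- Every commuting triple extends to a set of six with product one, in exactly one way. -/
theorem exists_six (hD : Cfsg.IsThreeTranspositionGroup D) (hprim : Cfsg.IsPrimitiveUnderConj D)
    (hZ : center G = ⊥) (hC : Cfsg.IsThreeTranspositionClass D) (hM : Mono G)
    (hG : ∀ p, p = 3 → ¬ IsPGroup p (commutator G)) {F : Type} [Field F] [Fintype F]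
    (hF : Fintype.card F = 4) (hm : ∀ a ∈ D, HasUModel D a F) {a b c : G}
    (hb : b ∈ Perp D a) (hc : c ∈ Perp D a) (ha : a ∈ D) (hne : b ≠ c) (hbc : Commute b c) :
    ∃ P Q R, P ∈ Perp D a ∧ Q ∈ Perp D a ∧ R ∈ Perp D a ∧ [b, c, P, Q, R].Nodup ∧
      (∀ x ∈ [b, c, P, Q, R], ∀ y ∈ [b, c, P, Q, R], Commute x y) ∧
      a * (b * (c * (P * (Q * R)))) = 1 ∧
      ∀ x ∈ Perp D a, ∀ y ∈ Perp D a, ∀ z ∈ Perp D a, [b, c, x, y, z].Nodup →
        (∀ u ∈ [b, c, x, y, z], ∀ w ∈ [b, c, x, y, z], Commute u w) →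
        a * (b * (c * (x * (y * z)))) = 1 → List.Perm [x, y, z] [P, Q, R] := by
  haveI := Fact.mk Nat.prime_three
  have hN := noDom_of_mono hC hM (hG 3 rfl)
  obtain ⟨P, Q, R, hP, hQ, hR, hn, hcomm, hcent, hperp, -, huniq⟩ :=
    exists_perp_line hD hN ha hF (hm a ha) hb hc hne hbc
  have haP : a ∈ Perp D b := ⟨ha, hb.2.1.symm, hb.2.2.symm⟩
  have hcP : c ∈ Perp D b := ⟨hc.1, hne.symm, hbc⟩
  obtain ⟨P', Q', R', hP', hQ', hR', hn', hcomm', hcent', -, hline', -⟩ :=
    exists_perp_line hD hN hb.1 hF (hm b hb.1) haP hcP hc.2.1.symm hc.2.2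
  simp only [List.nodup_cons, List.mem_cons, List.not_mem_nil, or_false, not_or, List.nodup_nil,
    and_true] at hn
  obtain ⟨⟨-, nbP, nbQ, nbR⟩, ⟨ncP, ncQ, ncR⟩, ⟨nPQ, nPR⟩, nQR, -⟩ := hn
  simp only [List.mem_cons, List.not_mem_nil, or_false, forall_eq_or_imp, forall_eq] at hcomm
  obtain ⟨⟨-, -, cbP, cbQ, cbR⟩, ⟨-, -, ccP, ccQ, ccR⟩, ⟨-, -, -, cPQ, cPR⟩, ⟨-, -, -, -, cQR⟩, -⟩ := hcomm
  have hkey : ∀ u ∈ Perp D a, b ≠ u → c ≠ u → Commute b u → Commute c u →
      (∀ y ∈ Perp D a, Commute y b → Commute y c → Commute y u) → u = P' ∨ u = Q' ∨ u = R' := by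
    intro u hu nb nc cb cc hall
    refine hline' u ⟨hu.1, nb.symm, cb⟩ hu.2.1 nc.symm hu.2.2.symm cc.symm fun y hy h1 h2 => ?_
    rcases eq_or_ne y a with rfl | hya
    · exact hu.2.2
    · exact hall y ⟨hy.1, hya, h1.symm⟩ hy.2.2.symm h2
  have hperm : List.Perm [P, Q, R] [P', Q', R'] := perm_of_three
    (by simp [nPQ, nPR, nQR])
    ⟨hkey P hP nbP ncP cbP ccP fun y hy h1 h2 => (hperp y hy h1 h2).1,
      hkey Q hQ nbQ ncQ cbQ ccQ fun y hy h1 h2 => (hperp y hy h1 h2).2.1,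
      hkey R hR nbR ncR cbR ccR fun y hy h1 h2 => (hperp y hy h1 h2).2.2⟩
  have hprod : P * (Q * R) = P' * (Q' * R') := by
    simpa using hperm.prod_eq' (by simp [cPQ, cPR, cQR])
  set w := a * (b * (c * (P * (Q * R)))) with hwdef
  have hw' : w = b * (a * (c * (P' * (Q' * R')))) := by
    rw [hwdef, ← hprod, ← mul_assoc, hb.2.2.eq, mul_assoc]
  have hw1 : w = 1 := by
    rw [← Subgroup.mem_bot, ← hZ]
    have e1 : ∀ y ∈ Perp D a, Commute y w := fun y hy => hy.2.2.symm.mul_right (hcent y hy)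
    have e2 : ∀ y ∈ Perp D b, Commute y w := fun y hy => hw' ▸ hy.2.2.symm.mul_right (hcent' y hy)
    refine mem_center_of_perps hC hprim hM hG ha hb.1 hb hc hcP ?_ ?_ e1 e2
    · exact ((Commute.refl a).mul_right (hb.2.2.mul_right (hc.2.2.mul_right
        (hP.2.2.mul_right (hQ.2.2.mul_right hR.2.2))))).symm
    · exact (hb.2.2.symm.mul_right ((Commute.refl b).mul_right (hbc.mul_right
        (cbP.mul_right (cbQ.mul_right cbR))))).symm
  refine ⟨P, Q, R, hP, hQ, hR, ?_, ?_, hw1, fun x hx y hy z hz hnd hcm hp => ?_⟩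
  · simp [hne, nbP, nbQ, nbR, ncP, ncQ, ncR, nPQ, nPR, nQR]
  · simp [hbc, hbc.symm, cbP, cbQ, cbR, ccP, ccQ, ccR, cPQ, cPR, cQR, cbP.symm, cbQ.symm, cbR.symm,
      ccP.symm, ccQ.symm, ccR.symm, cPQ.symm, cPR.symm, cQR.symm]
  · refine perm_of_three ?_ (huniq x hx y hy z hz hnd hcm fun s hs => ?_)
    · exact (List.nodup_cons.1 (List.nodup_cons.1 hnd).2).2
    · rw [eq_inv_of_mul_eq_one_right hp]
      exact hs.2.2.symm.inv_right

end CfsgLib.ThreeTrans
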