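import Cfsg.Agent.ThreeTrans.Factor
import Cfsg.Agent.S0280
import Cfsg.Agent.S0283

/-!
# The shapes M(22), M(23), M(24) supply deep perpendicular sets
-/

set_option autoImplicit false

namespace CfsgLib.ThreeTrans

open Subgroup (closure center)

theorem card_PSU_six {F : Type} [Field F] [Fintype F] (hF : Fintype.card F = 4) :
    Nat.card (Cfsg.PSU 6 F 2) = 2 ^ 15 * 280665 := by
  have h := Cfsg.Agent.S0280.result (F := F) (q := 2) (by norm_num [hF]) 6 (by norm_num)
  norm_num [Finset.prod_range_succ, Nat.even_iff] at h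
  omega

theorem core_eq_bot_of_PSU {X : Type*} [Group X] [Finite X] {F : Type} [Field F] [Fintype F]
    (hF : Fintype.card F = 4) (e : X ≃* Cfsg.PSU 6 F 2) : Cfsg.pCore 2 X = ⊥ := by
  haveI := Fact.mk Nat.prime_two
  haveI : IsSimpleGroup (Cfsg.PSU 6 F 2) :=
    Cfsg.Agent.S0283.result (by norm_num [hF]) 6 (by norm_num) (by norm_num)
  haveI : IsSimpleGroup X := e.isSimpleGroup
  refine eq_bot_or_top_core.resolve_right fun h => ?_
  have h2 : IsPGroup 2 X := fun g => by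
    obtain ⟨k, hk⟩ := pCore_isPGroup (G := X) 2 ⟨g, h ▸ Subgroup.mem_top g⟩
    exact ⟨k, congrArg Subtype.val hk⟩
  obtain ⟨k, hk⟩ := IsPGroup.iff_card.1 h2
  rw [Nat.card_congr e.toEquiv, card_PSU_six hF] at hk
  have h3 : 3 ∣ 2 ^ k := hk ▸ dvd_mul_of_dvd_right (by norm_num) _
  exact absurd (Nat.prime_three.dvd_of_dvd_pow h3) (by norm_num)

theorem card_refl_dvd {X : Type*} [Group X] {μ c : ZMod 3}
    (h : Cfsg.IsProjReflectionGroupModThree X 6 μ c) :
    Nat.card X ∣ Nat.card (GL (Fin 6) (ZMod 3)) := by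
  obtain ⟨Q, -, -, ⟨e⟩⟩ := h
  rw [Nat.card_congr e.toEquiv]
  exact ((Subgroup.card_quotient_dvd_card _).trans (Subgroup.card_subgroup_dvd_card _)).trans
    (Subgroup.card_subgroup_dvd_card _)

theorem card_PSU_not_dvd {F : Type} [Field F] [Fintype F] (hF : Fintype.card F = 4) :
    ¬ Nat.card (Cfsg.PSU 6 F 2) ∣ Nat.card (GL (Fin 6) (ZMod 3)) := by
  haveI := Fact.mk Nat.prime_three
  rw [card_PSU_six hF, Matrix.card_GL_field]
  intro h
  replace h := (Dvd.intro 280665 rfl : 2 ^ 15 ∣ 2 ^ 15 * 280665).trans h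
  norm_num [Fin.prod_univ_succ] at h

/-- In type M(23) some perpendicular member is deep. -/
theorem exists_deep_of_M22 {K : Type*} [Group K] [Finite K] {E : Set K}
    (hE : Cfsg.IsThreeTranspositionGroup E) (h : Cfsg.IsOfTypeM22 K E) : ∃ d ∈ E, Deep E d := by
  obtain ⟨-, d, hd, c, -, -, ⟨F, _, _, hF, ⟨e⟩⟩, -⟩ := h
  exact ⟨d, hd, deep_of_core hE (core_le_center_of_quotient (core_eq_bot_of_PSU hF e))⟩

/-- In type M(24) some perpendicular member is deep. -/
theorem exists_deep_of_M23 {K : Type*} [Group K] [Finite K] {E : Set K}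
    (hE : Cfsg.IsThreeTranspositionGroup E) (hN : NoDom E) (h : Cfsg.IsOfTypeM23 K E) :
    ∃ d ∈ E, Deep E d := by
  obtain ⟨-, d, hd, -, -, -, hM, -⟩ := h
  refine ⟨d, hd, deep_of_core hE (core_le_center_of_quotient ?_)⟩
  obtain ⟨hZ, d₂, hd₂, c₂, hc₂, hdc, ⟨F, _, _, hF, ⟨e⟩⟩, μ, -, hR⟩ := hM
  refine core_eq_bot_of_shape (img_group hE hN hd) hZ hd₂ hc₂ hdc (core_eq_bot_of_PSU hF e) fun hdvd => ?_
  have h1 := hdvd.trans (card_refl_dvd hR)
  have e' : Nat.card (closure (Perp (img (Perp E d)) d₂) ⧸ center (closure (Perp (img (Perp E d)) d₂))) =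
      Nat.card (Cfsg.PSU 6 F 2) := Nat.card_congr e.toEquiv
  exact card_PSU_not_dvd hF (e' ▸ h1)

/-- In types M(23) and M(24) six commuting members never have product one. -/
theorem six_of_type {G : Type*} [Group G] [Finite G] {D : Set G} (hD : Cfsg.IsThreeTranspositionClass D)
    (hM : Mono G) (hG : ¬ IsPGroup 3 (commutator G)) (hdeep : ∀ a ∈ D, Deep D a)
    (h : Cfsg.IsOfTypeM23 G D ∨ Cfsg.IsOfTypeM24 G D) (L : List G) (hlen : L.length = 6) (hn : L.Nodup)
    (hmem : ∀ x ∈ L, x ∈ D) (hcomm : ∀ x ∈ L, ∀ y ∈ L, Commute x y) : L.prod ≠ 1 := by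
  have hN := noDom_of_mono hD hM hG
  suffices key : ∃ a ∈ D, NoDom (img (Perp D a)) ∧ ∀ q ∈ img (Perp D a), Deep (img (Perp D a)) q by
    obtain ⟨a, ha, hN', hdeep'⟩ := key
    match L, hlen with
    | x :: l, hlen =>
      obtain ⟨g, hg⟩ := class_exists_conj hD (hmem x List.mem_cons_self) ha
      intro hp
      have hinj : Function.Injective (MulAut.conj g).toMonoidHom := (MulAut.conj g).injective
      have e : (x :: l).map (MulAut.conj g).toMonoidHom = a :: l.map (MulAut.conj g).toMonoidHom := by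
        rw [List.map_cons]
        exact congrArg (· :: _) hg
      refine six_prod_ne_one hD.1 hN ha (img_group (class_toGroup hD) hN ha).1 hN' hdeep'
        (l.map (MulAut.conj g).toMonoidHom) (by simpa using hlen) (e ▸ hn.map hinj) ?_ ?_ ?_
      · intro y hy
        obtain ⟨z, hz, rfl⟩ := List.mem_map.1 hy
        exact class_conj_mem hD g (hmem z (List.mem_cons_of_mem _ hz))
      · rw [← e]
        intro u hu v hv
        obtain ⟨u, hu', rfl⟩ := List.mem_map.1 hu
        obtain ⟨v, hv', rfl⟩ := List.mem_map.1 hv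
        exact (hcomm u hu' v hv').map _
      · rw [← e, ← map_list_prod, hp, map_one]
  have finish : ∀ d ∈ D, (∃ q ∈ img (Perp D d), Deep (img (Perp D d)) q) →
      ∃ a ∈ D, NoDom (img (Perp D a)) ∧ ∀ q ∈ img (Perp D a), Deep (img (Perp D a)) q := by
    rintro d hd ⟨q, hq, hqd⟩
    have hE := img_class hD hN hd (perp_nonempty hD hM hG hd) fun b hb c hc =>
      perp_transitive hD hM hG hd hb hc
    exact ⟨d, hd, img_noDom hD.1 hN hd hE (hdeep d hd), deep_all hE hq hqd⟩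
  rcases h with h | h
  · obtain ⟨-, d, hd, -, -, -, h22, -⟩ := h
    exact finish d hd (exists_deep_of_M22 (img_group (class_toGroup hD) hN hd) h22)
  · obtain ⟨-, d, hd, -, -, -, h23, -⟩ := h
    have hE := img_class hD hN hd (perp_nonempty hD hM hG hd) fun b hb c hc =>
      perp_transitive hD hM hG hd hb hc
    exact finish d hd (exists_deep_of_M23 (img_group (class_toGroup hD) hN hd)
      (img_noDom hD.1 hN hd hE (hdeep d hd)) h23)

theorem center_eq_bot_of_type {G : Type*} [Group G] {D : Set G}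
    (h : Cfsg.IsOfTypeM23 G D ∨ Cfsg.IsOfTypeM24 G D) : center G = ⊥ :=
  h.elim (fun h => h.1) fun h => h.1

theorem exists_pair_of_type {G : Type*} [Group G] {D : Set G}
    (h : Cfsg.IsOfTypeM23 G D ∨ Cfsg.IsOfTypeM24 G D) : ∃ a ∈ D, ∃ b ∈ D, a ≠ b ∧ Commute a b := by
  rcases h with ⟨-, d, hd, -, -, -, ⟨-, q, ⟨x, hx, -⟩, -⟩, -⟩ | ⟨-, d, hd, -, -, -, ⟨-, q, ⟨x, hx, -⟩, -⟩, -⟩
  · exact ⟨d, hd, x, hx.1, Ne.symm hx.2.1, hx.2.2⟩
  · exact ⟨d, hd, x, hx.1, Ne.symm hx.2.1, hx.2.2⟩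

end CfsgLib.ThreeTrans
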