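import Cfsg.Agent.ThreeTrans.FactorTypes

/-!
# The stabiliser of a product of three commuting transpositions permutes them as the symmetric group
-/

set_option autoImplicit false

namespace CfsgLib.ThreeTrans

open Subgroup (closure center)

variable {G : Type*} [Group G] [Finite G] {D : Set G}

theorem exists_common_adj_in_perp (hD : Cfsg.IsThreeTranspositionClass D) (hM : Mono G)
    (hG : ¬ IsPGroup 3 (commutator G)) {a b e : G} (he : e ∈ D) (ha : a ∈ Perp D e) (hb : b ∈ Perp D e)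
    (hab : Commute a b) (hne : a ≠ b) : ∃ y ∈ Perp D e, ¬ Commute a y ∧ ¬ Commute b y := by
  have hN := noDom_of_mono hD hM hG
  have hE := img_class hD hN he ⟨a, ha⟩ fun u hu v hv => perp_transitive hD hM hG he hu hv
  let a' : closure (Perp D e) := ⟨a, Subgroup.subset_closure ha⟩
  let b' : closure (Perp D e) := ⟨b, Subgroup.subset_closure hb⟩
  have hmap : ∀ u v : closure (Perp D e), Commute (u : G) v →
      Commute (u : closure (Perp D e) ⧸ center (closure (Perp D e))) v := fun u v huv =>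
    (show Commute u v from Subtype.ext huv.eq).map (QuotientGroup.mk' _)
  have hbP : (b' : closure (Perp D e) ⧸ center (closure (Perp D e))) ∈
      Perp (img (Perp D e)) (a' : closure (Perp D e) ⧸ center (closure (Perp D e))) :=
    ⟨⟨b', hb, rfl⟩, fun h => hne (congrArg Subtype.val (img_inj hD.1 hN he (x := b') (y := a') hb ha h)).symm,
      hmap a' b' hab⟩
  have hnc : ∃ x ∈ img (Perp D e), ∃ y ∈ img (Perp D e), ¬ Commute x y := by
    by_contra h
    push Not at h
    exact perp_central hN he ha fun y hy => img_commute hD.1 (x := ⟨y, Subgroup.subset_closure hy⟩) (y := a')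
      hy ha (h _ ⟨_, hy, rfl⟩ _ ⟨a', ha, rfl⟩)
  obtain ⟨q, hqa, hqb⟩ := exists_common_adj hE ⟨a', ha, rfl⟩ hbP hnc
  obtain ⟨y, hy, rfl⟩ := hqa.1
  exact ⟨y, hy, fun h => hqa.2 (hmap a' y h), fun h => hqb.2 (hmap b' y h)⟩

/-- Two of three commuting members are exchanged by an element fixing the third. -/
theorem exists_exchange (hD : Cfsg.IsThreeTranspositionClass D) (hM : Mono G)
    (hG : ¬ IsPGroup 3 (commutator G)) {a b e : G} (he : e ∈ D) (ha : a ∈ Perp D e) (hb : b ∈ Perp D e)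
    (hab : Commute a b) (hne : a ≠ b) :
    ∃ g : G, g * a * g⁻¹ = b ∧ g * b * g⁻¹ = a ∧ g * e * g⁻¹ = e := by
  obtain ⟨y, hy, hay, hby⟩ := exists_common_adj_in_perp hD hM hG he ha hb hab hne
  obtain ⟨φ, -, h1, h2, h3⟩ := exists_sym4 hD.1 ha.1 hy.1 hb.1 hne hab hay (fun h => hby h.symm)
  refine ⟨φ (Equiv.swap 1 2 * Equiv.swap 0 1 * Equiv.swap 2 3 * Equiv.swap 1 2), ?_, ?_, ?_⟩
  · rw [← h1, ← h3, ← map_inv, ← map_mul, ← map_mul]
    exact congrArg φ (by decide)
  · rw [← h1, ← h3, ← map_inv, ← map_mul, ← map_mul]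
    exact congrArg φ (by decide)
  · rw [map_mul, map_mul, map_mul, h1, h2, h3]
    have hc : Commute (y * a * b * y) e :=
      ((hy.2.2.symm.mul_left ha.2.2.symm).mul_left hb.2.2.symm).mul_left hy.2.2.symm
    rw [hc.eq, mul_inv_cancel_right]

omit [Finite G] in
/-- The stabiliser of a finite family acting by conjugation, as a homomorphism to permutations. -/
theorem exists_perm_hom {ι : Type*} [Finite ι] (C : Subgroup G) (f : ι → G) (hf : Function.Injective f)
    (h : ∀ c ∈ C, ∀ i, ∃ k, c * f i * c⁻¹ = f k) :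
    ∃ ψ : C →* Equiv.Perm ι, ∀ (c : C) (i : ι), (c : G) * f i * (c : G)⁻¹ = f (ψ c i) := by
  choose s hs using h
  have hbij : ∀ c : C, Function.Bijective (s c c.2) := fun c =>
    Finite.injective_iff_bijective.1 fun i j hij => hf <| by
      have := (hs c c.2 i).trans ((congrArg f hij).trans (hs c c.2 j).symm)
      exact mul_left_cancel (mul_right_cancel this)
  refine ⟨MonoidHom.mk' (fun c => Equiv.ofBijective _ (hbij c)) fun c c' => Equiv.ext fun i => hf ?_,
    fun c i => hs c c.2 i⟩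
  show f (s (c * c' : C) (c * c').2 i) = f (s c c.2 (s c' c'.2 i))
  rw [← hs, ← hs, ← hs, Subgroup.coe_mul]
  group

theorem triple_stabiliser (hD : Cfsg.IsThreeTranspositionClass D) (hM : Mono G)
    (hG : ¬ IsPGroup 3 (commutator G)) {d₁ d₂ d₃ : G} (h₁ : d₁ ∈ D) (h₂ : d₂ ∈ D) (h₃ : d₃ ∈ D)
    (h12 : d₁ ≠ d₂) (h13 : d₁ ≠ d₃) (h23 : d₂ ≠ d₃) (c12 : Commute d₁ d₂) (c13 : Commute d₁ d₃)
    (c23 : Commute d₂ d₃)
    (huniq : ∀ g ∈ Subgroup.centralizer ({d₁ * d₂ * d₃} : Set G), ∀ x : G,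
      x ∈ [d₁, d₂, d₃].map (fun y => g * y * g⁻¹) ↔ x ∈ [d₁, d₂, d₃])
    (K C : Subgroup G) (hK : K = Subgroup.centralizer ({d₁, d₂, d₃} : Set G))
    (hC : C = Subgroup.centralizer ({d₁ * d₂ * d₃} : Set G)) :
    K ≤ C ∧ ∃ _ : (K.subgroupOf C).Normal, Nonempty (↥C ⧸ K.subgroupOf C ≃* Equiv.Perm (Fin 3)) := by
  have hle : K ≤ C := by
    rw [hK, hC]
    intro g hg
    rw [Subgroup.mem_centralizer_iff] at hg
    have e1 : Commute d₁ g := hg d₁ (by simp)
    have e2 : Commute d₂ g := hg d₂ (by simp)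
    have e3 : Commute d₃ g := hg d₃ (by simp)
    exact Subgroup.mem_centralizer_singleton_iff.2 (((e1.mul_left e2).mul_left e3).symm.eq)
  let f : Fin 3 → G := ![d₁, d₂, d₃]
  have hinj : Function.Injective f := by
    intro i j hij
    fin_cases i <;> fin_cases j <;> first | rfl | simp_all [f, eq_comm]
  have hperm : ∀ g ∈ C, ∀ i, ∃ k, g * f i * g⁻¹ = f k := by
    intro g hg i
    have h := (huniq g (hC ▸ hg) (g * f i * g⁻¹)).1 (List.mem_map.2 ⟨f i, by fin_cases i <;> simp [f], rfl⟩)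
    simp only [List.mem_cons, List.not_mem_nil, or_false] at h
    rcases h with h | h | h
    · exact ⟨0, h⟩
    · exact ⟨1, h⟩
    · exact ⟨2, h⟩
  obtain ⟨ψ, hψ⟩ := exists_perm_hom C f hinj hperm
  have hker : ψ.ker = K.subgroupOf C := by
    ext c
    rw [MonoidHom.mem_ker, Subgroup.mem_subgroupOf, hK, Subgroup.mem_centralizer_iff]
    constructor
    · intro h x hx
      have hfix : ∀ i, (c : G) * f i * (c : G)⁻¹ = f i := fun i => by rw [hψ, h]; rfl
      rcases hx with rfl | rfl | hx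
      · exact (mul_inv_eq_iff_eq_mul.1 (hfix 0)).symm
      · exact (mul_inv_eq_iff_eq_mul.1 (hfix 1)).symm
      · rw [Set.mem_singleton_iff.1 hx]
        exact (mul_inv_eq_iff_eq_mul.1 (hfix 2)).symm
    · intro h
      refine Equiv.ext fun i => hinj ?_
      have hfix : (c : G) * f i * (c : G)⁻¹ = f i := by
        rw [mul_inv_eq_iff_eq_mul]
        fin_cases i <;> exact (h _ (by simp [f])).symm
      exact (hψ c i).symm.trans hfix
  have key : ∀ a b e : G, a ∈ D → b ∈ D → e ∈ D → a ≠ b → a ≠ e → b ≠ e → Commute a b → Commute a e →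
      Commute b e → a * b * e = d₁ * d₂ * d₃ →
      ∃ c : C, (c : G) * a * (c : G)⁻¹ = b ∧ (c : G) * b * (c : G)⁻¹ = a ∧ (c : G) * e * (c : G)⁻¹ = e := by
    intro a b e ha hb he nab nae nbe cab cae cbe hprod
    obtain ⟨g, g1, g2, g3⟩ := exists_exchange hD hM hG he ⟨ha, nae, cae.symm⟩ ⟨hb, nbe, cbe.symm⟩ cab nab
    refine ⟨⟨g, hC ▸ Subgroup.mem_centralizer_singleton_iff.2 ?_⟩, g1, g2, g3⟩
    rw [← hprod]
    refine mul_inv_eq_iff_eq_mul.1 ?_
    calc g * (a * b * e) * g⁻¹ = (g * a * g⁻¹) * (g * b * g⁻¹) * (g * e * g⁻¹) := by group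
      _ = a * b * e := by rw [g1, g2, g3, cab.eq]
  have hsurj : Function.Surjective ψ := by
    rw [← MonoidHom.range_eq_top, eq_top_iff, ← Equiv.Perm.closure_isSwap, Subgroup.closure_le]
    have h01 : Equiv.swap 0 1 ∈ ψ.range := by
      obtain ⟨c, g1, g2, g3⟩ := key d₁ d₂ d₃ h₁ h₂ h₃ h12 h13 h23 c12 c13 c23 rfl
      refine ⟨c, Equiv.ext fun i => hinj ((hψ c i).symm.trans ?_)⟩
      fin_cases i
      · exact g1
      · exact g2
      · exact g3
    have h12' : Equiv.swap 1 2 ∈ ψ.range := by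
      obtain ⟨c, g1, g2, g3⟩ := key d₂ d₃ d₁ h₂ h₃ h₁ h23 h12.symm h13.symm c23 c12.symm c13.symm
        (by rw [mul_assoc d₁ d₂, (c12.mul_right c13).eq])
      refine ⟨c, Equiv.ext fun i => hinj ((hψ c i).symm.trans ?_)⟩
      fin_cases i
      · exact g3
      · exact g1
      · exact g2
    rintro σ ⟨i, j, hij, rfl⟩
    have h02 : Equiv.swap 0 2 ∈ ψ.range := by
      rw [show Equiv.swap (0 : Fin 3) 2 = Equiv.swap 0 1 * Equiv.swap 1 2 * Equiv.swap 0 1 by decide]
      exact mul_mem (mul_mem h01 h12') h01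
    fin_cases i <;> fin_cases j <;>
      first
        | exact absurd rfl hij
        | exact h01
        | exact h12'
        | exact h02
        | (rw [Equiv.swap_comm]; first | exact h01 | exact h12' | exact h02)
  haveI hn : (K.subgroupOf C).Normal := hker ▸ MonoidHom.normal_ker ψ
  exact ⟨hle, hn, ⟨(QuotientGroup.quotientMulEquivOfEq hker.symm).trans
    (QuotientGroup.quotientKerEquivOfSurjective ψ hsurj)⟩⟩

end CfsgLib.ThreeTrans
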