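import Cfsg.Agent.ThreeTrans.Monolith
import Cfsg.Agent.Components.Basic

/-!
# The 3-core and the 2-core of a 3-transposition group

The members of `D` commuting with the same other members as `d` form the class `D ∩ d O₃(G)`.
-/

set_option autoImplicit false

namespace CfsgLib.ThreeTrans

variable {G : Type*} [Group G] {D : Set G}

/-- The relation generating the classes of the same commuting partners. -/
def SamePerp (D : Set G) (u v : G) : Prop := u ∈ D ∧ v ∈ D ∧ Perp D u = Perp D v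

theorem not_commute_of_perp_eq {u v : G} (hv : v ∈ D) (hne : v ≠ u)
    (h : Perp D u = Perp D v) : ¬ Commute u v := fun hc =>
  ((Set.ext_iff.1 h v).1 ⟨hv, hne, hc⟩).2.1 rfl

theorem perp_conj_eq (hD : Cfsg.IsThreeTranspositionClass D) (g : G) {u v : G}
    (h : Perp D u = Perp D v) : Perp D (g * u * g⁻¹) = Perp D (g * v * g⁻¹) := by
  rw [perp_conj hD, perp_conj hD, h]

/-- The normal subgroup generated by the products of two members with the same commuting partners. -/
def threeProducts (D : Set G) : Subgroup G :=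
  Subgroup.closure {n | ∃ x y, SamePerp D x y ∧ n = x * y}

theorem threeProducts_normal (hD : Cfsg.IsThreeTranspositionClass D) : (threeProducts D).Normal := by
  constructor
  intro n hn g
  have : (threeProducts D).map (MulAut.conj g).toMonoidHom ≤ threeProducts D := by
    rw [threeProducts, MonoidHom.map_closure, Subgroup.closure_le]
    rintro _ ⟨_, ⟨x, y, ⟨hx, hy, hxy⟩, rfl⟩, rfl⟩
    exact Subgroup.subset_closure ⟨g * x * g⁻¹, g * y * g⁻¹,
      ⟨class_conj_mem hD g hx, class_conj_mem hD g hy, perp_conj_eq hD g hxy⟩, by simp⟩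
  exact this ⟨n, hn, rfl⟩

theorem threeProducts_fix (hD : Cfsg.IsThreeTranspositionClass D) {n c : G}
    (hn : n ∈ threeProducts D) (hc : c ∈ D) : Perp D (n * c * n⁻¹) = Perp D c := by
  let r : G → G → Prop := fun u v => u ∈ D ∧ v ∈ D ∧ ¬ Commute u v ∧ Perp D u = Perp D v
  obtain ⟨K, -, hfix, hmem⟩ := module_kernel hD r
    (fun u v h => ⟨h.1, h.2.1, fun e => h.2.2.1 (e ▸ Commute.refl u)⟩)
    (fun u v h => ⟨h.2.1, h.1, fun e => h.2.2.1 e.symm, h.2.2.2.symm⟩)
    (fun g u v h => ⟨class_conj_mem hD g h.1, class_conj_mem hD g h.2.1,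
      fun e => h.2.2.1 (commute_conj_iff.1 e), perp_conj_eq hD g h.2.2.2⟩)
    (fun u v h d hd h1 h2 => by
      rcases eq_or_ne d u with rfl | hdu
      · exact .refl _
      · exact absurd ((Set.ext_iff.1 h.2.2.2 d).1 ⟨hd, hdu, h1⟩).2.2 h2)
  have key : ∀ u v, Relation.EqvGen r u v → Perp D u = Perp D v := by
    intro u v h
    induction h with
    | rel _ _ h => exact h.2.2.2
    | refl _ => rfl
    | symm _ _ _ ih => exact ih.symm
    | trans _ _ _ _ _ ih1 ih2 => exact ih1.trans ih2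
  have hle : threeProducts D ≤ K := by
    rw [threeProducts, Subgroup.closure_le]
    rintro _ ⟨x, y, ⟨hx, hy, hxy⟩, rfl⟩
    rcases eq_or_ne y x with rfl | hne
    · rw [mul_self hD.1 hx]; exact K.one_mem
    · exact hmem x y ⟨hx, hy, not_commute_of_perp_eq hy hne hxy, hxy⟩
  exact (key _ _ (hfix n (hle hn) c hc)).symm

variable [Finite G]

theorem products_mem_pCoreOf (hD : Cfsg.IsThreeTranspositionClass D) {x y : G} (hxy : SamePerp D x y) :
    x * y ∈ Cfsg.pCoreOf 3 (Subgroup.closure {v | v ∈ D ∧ Perp D v = Perp D x}) := by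
  haveI := Fact.mk Nat.prime_three
  set W : Set G := {v | v ∈ D ∧ Perp D v = Perp D x}
  set H := Subgroup.closure W
  obtain ⟨hx, hy, hperp⟩ := hxy
  have hstep : ∀ v ∈ W, ∀ w ∈ W, v * w * v⁻¹ ∈ W := fun v hv w hw => ⟨class_conj_mem hD v hw.1, by
    rw [perp_conj_eq hD v (hw.2.trans hv.2.symm), mul_inv_cancel_right]; exact hv.2⟩
  have hinv : ∀ g ∈ H, ∀ w ∈ W, g * w * g⁻¹ ∈ W := by
    intro g hg
    induction hg using Subgroup.closure_induction'' with
    | one => intro w hw; simpa using hw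
    | mem v hv => exact hstep v hv
    | inv_mem v hv => intro w hw; rw [inv_eq hD.1 hv.1]; exact hstep v hv w hw
    | mul g h _ _ ihg ihh =>
      intro w hw
      have := ihg _ (ihh w hw)
      simpa [mul_assoc] using this
  have hxW : x ∈ W := ⟨hx, rfl⟩
  have hyW : y ∈ W := ⟨hy, hperp.symm⟩
  let x' : H := ⟨x, Subgroup.subset_closure hxW⟩
  let y' : H := ⟨y, Subgroup.subset_closure hyW⟩
  have hx' : orderOf x' = 2 := by rw [← Subgroup.orderOf_coe]; exact hD.1.1 x hx
  have hcube : ∀ v ∈ W, ∀ w ∈ W, (v * w) ^ 3 = 1 := by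
    intro v hv w hw
    rcases eq_or_ne w v with rfl | hne
    · rw [mul_self hD.1 hv.1, one_pow]
    · exact cube_of_not_commute hD.1 hv.1 hw.1 (not_commute_of_perp_eq hw.1 hne (hv.2.trans hw.2.symm))
  have hprod : ∀ g : H, ∃ k, orderOf (g * x' * g⁻¹ * x') = 3 ^ k := fun g =>
    exists_orderOf_eq_three_pow (Subtype.ext (by
      simpa [x'] using hcube _ (hinv g g.2 x hxW) x hxW))
  have hconj : y' ∈ conjugatesOf x' := by
    rcases eq_or_ne y x with rfl | hne
    · exact IsConj.refl _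
    · refine isConj_iff.2 ⟨x' * y', Subtype.ext ?_⟩
      simp only [x', y', Subgroup.coe_mul, Subgroup.coe_inv]
      exact conj_pair hD.1 hx hy (not_commute_of_perp_eq hy hne hperp)
  exact ⟨x' * y', CfsgLib.ZStar.products_mem_pCore (by norm_num) hx' hprod (IsConj.refl x') hconj, rfl⟩

theorem threeProducts_isPGroup (hD : Cfsg.IsThreeTranspositionClass D) : IsPGroup 3 (threeProducts D) := by
  classical
  haveI := Fact.mk Nat.prime_three
  set N := threeProducts D
  set H : D → Subgroup G := fun x => Subgroup.closure {v | v ∈ D ∧ Perp D v = Perp D x.1}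
  set A : D → Subgroup G := fun x => N ⊓ Cfsg.pCoreOf 3 (H x)
  have hA : ∀ x, IsPGroup 3 (A x) := fun x => (CfsgLib.PReduced.isPGroup_pCoreOf (H x)).to_le inf_le_right
  have hAnorm : ∀ x, N ≤ Subgroup.normalizer (A x : Set G) := by
    intro x n hn
    have h1 : n ∈ Subgroup.normalizer (H x : Set G) := by
      refine Subgroup.mem_normalizer_fintype fun z hz => ?_
      have hle : (H x).map (MulAut.conj n).toMonoidHom ≤ H x := by
        rw [MonoidHom.map_closure, Subgroup.closure_le]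
        rintro _ ⟨v, hv, rfl⟩
        exact Subgroup.subset_closure ⟨class_conj_mem hD n hv.1, (threeProducts_fix hD hn hv.1).trans hv.2⟩
      exact hle ⟨z, hz, rfl⟩
    have h2 := Subgroup.mem_normalizer_iff.1 (CfsgLib.PReduced.normalizer_le_normalizer_pCoreOf (p := 3) _ h1)
    have h3 := Subgroup.mem_normalizer_iff.1 (Subgroup.le_normalizer hn)
    exact Subgroup.mem_normalizer_iff.2 fun z => and_congr (h3 z) (h2 z)
  have : ∀ s : Finset D, IsPGroup 3 ↥(s.sup A) ∧ s.sup A ≤ N := by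
    intro s
    induction s using Finset.induction with
    | empty => rw [Finset.sup_empty]; exact ⟨IsPGroup.of_bot, bot_le⟩
    | @insert x s _ ih =>
      rw [Finset.sup_insert]
      refine ⟨?_, sup_le inf_le_left ih.2⟩
      rw [sup_comm]
      exact IsPGroup.to_sup_of_normal_right' ih.1 (hA x) (ih.2.trans (hAnorm x))
  let _ : Fintype D := Fintype.ofFinite _
  obtain ⟨h1, -⟩ := this Finset.univ
  have hle : N ≤ Finset.univ.sup A := by
    change Subgroup.closure _ ≤ _
    rw [Subgroup.closure_le]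
    rintro _ ⟨x, y, hxy, rfl⟩
    exact Finset.le_sup (f := A) (Finset.mem_univ ⟨x, hxy.1⟩)
      ⟨Subgroup.subset_closure ⟨x, y, hxy, rfl⟩, products_mem_pCoreOf hD hxy⟩
  exact h1.to_le hle

/-- The class of `d` for "same commuting partners" is `D ∩ d O₃(G)`. -/
theorem perp_eq_iff (hD : Cfsg.IsThreeTranspositionClass D) {d v : G} (hd : d ∈ D) (hv : v ∈ D) :
    Perp D d = Perp D v ↔ d * v ∈ Cfsg.pCore 3 G := by
  haveI := Fact.mk Nat.prime_three
  refine ⟨fun h => (CfsgLib.PCore.le_pCore (threeProducts_normal hD) (threeProducts_isPGroup hD))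
    (Subgroup.subset_closure ⟨d, v, ⟨hd, hv, h⟩, rfl⟩), fun h => perp_eq_of_subset hD hd hv ?_⟩
  have key : ∀ x ∈ D, ∀ y ∈ D, x * y ∈ Cfsg.pCore 3 G → Commute x y → x = y := by
    intro x hx y hy hxy hc
    obtain ⟨k, hk⟩ := pCore_isPGroup (G := G) 3 ⟨x * y, hxy⟩
    have h1 := eq_one_of_pow_coprime (congrArg Subtype.val hk)
      ((sq_eq_one_iff_commute (mul_self hD.1 hx) (mul_self hD.1 hy)).2 hc) (Nat.Coprime.pow_left _ (by norm_num))
    rwa [mul_eq_one_iff_eq_inv, inv_eq hD.1 hy] at h1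
  rintro e ⟨he, hed, hde⟩
  refine ⟨he, fun hev => hed (key d hd e he (hev ▸ h) hde).symm, ?_⟩
  by_contra hve
  refine hed (key e he d hd ?_ hde.symm)
  set N := Cfsg.pCore 3 G
  rw [← QuotientGroup.eq_one_iff] at h ⊢
  have e1 : ((e * v : G) : G ⧸ N) = ((e * d : G) : G ⧸ N) := by
    calc ((e * v : G) : G ⧸ N) = ((e * d * (d * v) : G) : G ⧸ N) := by
          rw [mul_assoc, ← mul_assoc d, mul_self hD.1 hd, one_mul]
      _ = _ := by rw [QuotientGroup.mk_mul, h, mul_one]
  refine eq_one_of_pow_coprime (m := 2) (n := 3) ?_ ?_ (by norm_num)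
  · rw [← QuotientGroup.mk_pow, (sq_eq_one_iff_commute (mul_self hD.1 he) (mul_self hD.1 hd)).2 hde.symm]; rfl
  · rw [← e1, ← QuotientGroup.mk_pow, cube_of_not_commute hD.1 he hv (fun h' => hve h'.symm)]; rfl

theorem exists_three_conj (hD : Cfsg.IsThreeTranspositionClass D) {d v : G} (hd : d ∈ D) (hv : v ∈ D)
    (h : Perp D d = Perp D v) : ∃ n ∈ Cfsg.pCore 3 G, n * d * n⁻¹ = v := by
  rcases eq_or_ne v d with rfl | hne
  · exact ⟨1, one_mem _, by simp⟩
  refine ⟨d * v, (perp_eq_iff hD hd hv).1 h, ?_⟩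
  exact conj_pair hD.1 hd hv (not_commute_of_perp_eq hv hne h)

theorem pCore_three_le_center (hD : Cfsg.IsThreeTranspositionClass D)
    (h : ∀ u ∈ D, ∀ v ∈ D, Perp D u = Perp D v → u = v) : Cfsg.pCore 3 G ≤ Subgroup.center G := by
  obtain ⟨a, ha, -⟩ := hD.2.1
  refine closure_le_of_central hD ha fun n hn => ?_
  have h1 : n * a * n⁻¹ * a ∈ Cfsg.pCore 3 G := by
    have e : n * a * n⁻¹ * a = n * (a * n⁻¹ * a⁻¹) := by rw [inv_eq hD.1 ha]; group
    rw [e]
    exact mul_mem hn ((Cfsg.pCore_normal 3 G).conj_mem _ (inv_mem hn) a)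
  have h2 := h _ (class_conj_mem hD n ha) _ ha ((perp_eq_iff hD (class_conj_mem hD n ha) ha).2 h1)
  exact mul_inv_eq_iff_eq_mul.1 h2

theorem pCore_two_le_center (hD : Cfsg.IsThreeTranspositionClass D)
    (h : ∀ u ∈ D, ∀ v ∈ D, SameCommuting D u v → u = v) : Cfsg.pCore 2 G ≤ Subgroup.center G := by
  obtain ⟨a, ha, -⟩ := hD.2.1
  refine closure_le_of_central hD ha fun n hn => ?_
  have hc := class_conj_mem hD n ha
  have h1 : (n * a * n⁻¹)⁻¹ * a ∈ Cfsg.pCore 2 G := by
    rw [inv_eq hD.1 hc]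
    have e : n * a * n⁻¹ * a = n * (a * n⁻¹ * a⁻¹) := by rw [inv_eq hD.1 ha]; group
    rw [e]
    exact mul_mem hn ((Cfsg.pCore_normal 2 G).conj_mem _ (inv_mem hn) a)
  exact mul_inv_eq_iff_eq_mul.1 (h _ hc _ ha ((sameCommuting_iff hD hc ha).2 h1))

/-- Commuting commutators with a transposition of orders two and three cannot both be nontrivial. -/
theorem orders_false (hD : Cfsg.IsThreeTranspositionClass D) {a n m : G} (ha : a ∈ D)
    (hc : Commute (n * a * n⁻¹ * a) (m * a * m⁻¹ * a))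
    (hu2 : (n * a * n⁻¹ * a) ^ 2 = 1) (hu : n * a * n⁻¹ * a ≠ 1)
    (hv3 : (m * a * m⁻¹ * a) ^ 3 = 1) (hv : m * a * m⁻¹ * a ≠ 1) : False := by
  have he : n * a * n⁻¹ * (m * a * m⁻¹) = (n * a * n⁻¹ * a) * (m * a * m⁻¹ * a)⁻¹ := by
    simp only [mul_inv_rev, inv_inv, inv_eq hD.1 ha]
    rw [show n * a * n⁻¹ * a * (a * (m * (a * m⁻¹))) = n * a * n⁻¹ * (a * a) * (m * (a * m⁻¹)) by group,
      mul_self hD.1 ha]
    group
  rcases hD.1.2 _ (class_conj_mem hD n ha) _ (class_conj_mem hD m ha) with h | h <;>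
    rw [he, hc.inv_right.mul_pow, inv_pow] at h
  · rw [hu2, one_mul, inv_eq_one] at h
    exact hv (eq_one_of_pow_coprime h hv3 (by norm_num))
  · rw [hv3, inv_one, mul_one] at h
    exact hu (eq_one_of_pow_coprime hu2 h (by norm_num))

end CfsgLib.ThreeTrans
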