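import Cfsg.Agent.ThreeTrans.Layer
import Cfsg.Agent.ThreeTrans.Rank
import Cfsg.Agent.ThreeTrans.TwoClasses
import Mathlib.LinearAlgebra.Matrix.GeneralLinearGroup.Card

/-!
# Products of at most three commuting transpositions

In a class of 3-transpositions in which no member is dominated by another commuting one (`NoDom`) and in
which members with the same commuting partners inside a perpendicular set differ centrally (`Deep`), five
pairwise commuting members do not have product one.
-/

set_option autoImplicit false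

namespace CfsgLib.ThreeTrans

open Subgroup (closure center)

variable {G : Type*} [Group G] {D : Set G}

theorem commute_mul_two (hD : Cfsg.IsThreeTranspositionSet D) {a b y : G} (ha : a ∈ D) (hb : b ∈ D)
    (hy : y ∈ D) (hab : Commute a b) (hne : a ≠ b) (h : Commute y (a * b)) :
    Commute y a ∧ Commute y b := by
  have haa := mul_self hD ha
  have hbb := mul_self hD hb
  have hyy := mul_self hD hy
  by_cases h1 : Commute y a
  · refine ⟨h1, ?_⟩
    have := h1.mul_right h
    rwa [← mul_assoc, haa, one_mul] at this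
  by_cases h2 : Commute y b
  · refine ⟨?_, h2⟩
    have := h.mul_right h2
    rwa [mul_assoc, hbb, mul_one] at this
  exfalso
  apply hne
  have e1 : (y * a * y) * (y * b * y) = a * b := by
    rw [show (y * a * y) * (y * b * y) = y * a * (y * y) * b * y by group, hyy, mul_one,
      mul_assoc y a b, h.eq, mul_assoc, hyy, mul_one]
  rw [braid hD hy ha h1, braid hD hy hb h2,
    show (a * y * a) * (b * y * b) = a * (y * (a * b)) * (y * b) by group, h.eq,
    show a * (a * b * y) * (y * b) = (a * a) * b * (y * y) * b by group, haa, hyy, one_mul, mul_one,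
    hbb] at e1
  rw [eq_comm, mul_eq_one_iff_eq_inv, inv_eq hD hb] at e1
  exact e1

theorem conj_eq_of_commute_three (hD : Cfsg.IsThreeTranspositionSet D) {a b c y : G} (ha : a ∈ D)
    (hb : b ∈ D) (hc : c ∈ D) (hy : y ∈ D) (hab : Commute a b) (hbc : Commute b c)
    (h : Commute y (a * b * c)) (h1 : ¬ Commute y a) (h2 : ¬ Commute y b) (h3 : ¬ Commute y c) :
    y * a * y = b := by
  have hyy := mul_self hD hy
  have hcc := mul_self hD hc
  have haa := mul_self hD ha
  have hbb := mul_self hD hb
  have e0 : y * (a * b) * y * (y * c * y) = a * b * c := by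
    rw [show y * (a * b) * y * (y * c * y) = y * (a * b) * (y * y) * c * y by group, hyy, mul_one,
      mul_assoc y (a * b) c, h.eq, mul_assoc, hyy, mul_one]
  have e1 : y * (a * b) * y = a * b * y * c := by
    rw [braid hD hy hc h3] at e0
    have e2 : y * (a * b) * y * (c * y * c) * (c * y * c) = a * b * c * (c * y * c) := by rw [e0]
    rw [mul_assoc _ (c * y * c) (c * y * c),
      show (c * y * c) * (c * y * c) = c * y * (c * c) * y * c by group, hcc, mul_one,
      show c * y * y * c = c * (y * y) * c by group, hyy, mul_one, hcc, mul_one] at e2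
    rw [e2, show a * b * c * (c * y * c) = a * b * (c * c) * y * c by group, hcc, mul_one]
  have e3 : y * (a * b) * y = a * (y * (a * b) * y) * b := by
    calc y * (a * b) * y = (y * a * y) * (y * b * y) := by
          rw [show (y * a * y) * (y * b * y) = y * a * (y * y) * b * y by group, hyy, mul_one,
            mul_assoc y a b]
      _ = (a * y * a) * (b * y * b) := by rw [braid hD hy ha h1, braid hD hy hb h2]
      _ = _ := by group
  rw [e1, show a * (a * b * y * c) * b = (a * a) * b * y * (c * b) by group, haa, one_mul,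
    ← hbc.eq, ← mul_assoc] at e3
  have e4 : a * b * y = b * y * b := mul_right_cancel e3
  have e5 : a * y = y * b := by
    have e6 : b * (a * b * y) = b * (b * y * b) := by rw [e4]
    rw [show b * (b * y * b) = (b * b) * (y * b) by group, hbb, one_mul, ← mul_assoc, ← mul_assoc,
      ← hab.eq, mul_assoc a b b, hbb, mul_one] at e6
    exact e6
  rw [mul_assoc, e5, ← mul_assoc, hyy, one_mul]

theorem commute_mul_three (hD : Cfsg.IsThreeTranspositionSet D) {a b c y : G} (ha : a ∈ D) (hb : b ∈ D)
    (hc : c ∈ D) (hy : y ∈ D) (hab : Commute a b) (hac : Commute a c) (hbc : Commute b c)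
    (nab : a ≠ b) (nac : a ≠ c) (nbc : b ≠ c) (h : Commute y (a * b * c)) :
    Commute y a ∧ Commute y b ∧ Commute y c := by
  by_cases h1 : Commute y a
  · have h' : Commute y (b * c) := by
      have := h1.mul_right h
      rwa [← mul_assoc, ← mul_assoc, mul_self hD ha, one_mul] at this
    exact ⟨h1, commute_mul_two hD hb hc hy hbc nbc h'⟩
  by_cases h2 : Commute y b
  · have h' : Commute y (a * c) := by
      have := h2.mul_right h
      rwa [← mul_assoc, ← mul_assoc, ← hab.eq, mul_assoc a b b, mul_self hD hb, mul_one] at this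
    exact ⟨(commute_mul_two hD ha hc hy hac nac h').1, h2, (commute_mul_two hD ha hc hy hac nac h').2⟩
  by_cases h3 : Commute y c
  · have h' : Commute y (a * b) := by
      have := h.mul_right h3
      rwa [mul_assoc, mul_self hD hc, mul_one] at this
    exact ⟨(commute_mul_two hD ha hb hy hab nab h').1, (commute_mul_two hD ha hb hy hab nab h').2, h3⟩
  exfalso
  apply nbc
  have h' : Commute y (a * c * b) := by rwa [mul_assoc, ← hbc.eq, ← mul_assoc]
  rw [← conj_eq_of_commute_three hD ha hb hc hy hab hbc h h1 h2 h3,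
    ← conj_eq_of_commute_three hD ha hc hb hy hac hbc.symm h' h1 h3 h2]

/-- No member is dominated by another member commuting with it. -/
def NoDom (D : Set G) : Prop :=
  ∀ a ∈ D, ∀ b ∈ D, Commute a b → (∀ y ∈ D, Commute y a → Commute y b) → a = b

theorem perp_pair (hD : Cfsg.IsThreeTranspositionSet D) (hN : NoDom D) {a u v : G} (ha : a ∈ D)
    (hu : u ∈ Perp D a) (hv : v ∈ Perp D a) (huv : Commute u v)
    (h : ∀ y ∈ Perp D a, Commute y (u * v)) : u = v := by
  by_contra hne
  refine hu.2.1 (hN a ha u hu.1 hu.2.2 fun y hy hya => ?_).symm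
  rcases eq_or_ne y a with rfl | hya'
  · exact hu.2.2
  · exact (commute_mul_two hD hu.1 hv.1 hy huv hne (h y ⟨hy, hya', hya.symm⟩)).1

theorem perp_central (hN : NoDom D) {a u : G} (ha : a ∈ D) (hu : u ∈ Perp D a)
    (h : ∀ y ∈ Perp D a, Commute y u) : False := by
  refine hu.2.1 (hN a ha u hu.1 hu.2.2 fun y hy hya => ?_).symm
  rcases eq_or_ne y a with rfl | hya'
  · exact hu.2.2
  · exact h y ⟨hy, hya', hya.symm⟩

/-- Members with the same partners inside the perpendicular set of `a` differ centrally there. -/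
def Deep (D : Set G) (a : G) : Prop :=
  ∀ c ∈ Perp D a, ∀ d ∈ Perp D a, (∀ y ∈ Perp D a, Commute y c ↔ Commute y d) →
    ∀ y ∈ Perp D a, Commute y (c * d)

theorem deep_conj (hD : Cfsg.IsThreeTranspositionClass D) (g : G) {a : G} (h : Deep D a) :
    Deep D (g * a * g⁻¹) := by
  intro c hc d hd hcd y hy
  rw [perp_conj hD] at hc hd hy
  obtain ⟨c, hc', rfl⟩ := hc
  obtain ⟨d, hd', rfl⟩ := hd
  obtain ⟨y, hy', rfl⟩ := hy
  have hiff : ∀ z ∈ Perp D a, Commute z c ↔ Commute z d := fun z hz => by
    have := hcd (g * z * g⁻¹) (by rw [perp_conj hD]; exact ⟨z, hz, rfl⟩)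
    rwa [commute_conj_iff, commute_conj_iff] at this
  have h1 := (commute_conj_iff (g := g)).2 (h c hc' d hd' hiff y hy')
  rwa [show g * (c * d) * g⁻¹ = g * c * g⁻¹ * (g * d * g⁻¹) by group] at h1

theorem deep_all (hD : Cfsg.IsThreeTranspositionClass D) {a : G} (ha : a ∈ D) (h : Deep D a) :
    ∀ b ∈ D, Deep D b := by
  intro b hb
  obtain ⟨g, rfl⟩ := class_exists_conj hD ha hb
  exact deep_conj hD g h

theorem mem_center_closure_iff {S : Set G} {x : closure S} :
    x ∈ center (closure S) ↔ ∀ s ∈ S, Commute s (x : G) := by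
  refine ⟨fun h s hs => congrArg Subtype.val
    (Subgroup.mem_center_iff.1 h ⟨s, Subgroup.subset_closure hs⟩), fun h => Subgroup.mem_center_iff.2 fun g => Subtype.ext ?_⟩
  have hle : closure S ≤ Subgroup.centralizer {(x : G)} := by
    rw [Subgroup.closure_le]
    exact fun s hs => Subgroup.mem_centralizer_singleton_iff.2 (h s hs).eq
  exact Subgroup.mem_centralizer_singleton_iff.1 (hle g.2)

/-- The image of `S` in the group it generates modulo the centre. -/
def img (S : Set G) : Set (closure S ⧸ center (closure S)) :=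
  (QuotientGroup.mk : closure S → _) '' {x : closure S | (x : G) ∈ S}

theorem img_inj (hD : Cfsg.IsThreeTranspositionSet D) (hN : NoDom D) {a : G} (ha : a ∈ D)
    {x y : closure (Perp D a)} (hx : (x : G) ∈ Perp D a) (hy : (y : G) ∈ Perp D a)
    (h : (x : closure (Perp D a) ⧸ center (closure (Perp D a))) = y) : x = y := by
  rw [QuotientGroup.eq, mem_center_closure_iff] at h
  simp only [Subgroup.coe_mul, Subgroup.coe_inv, inv_eq hD hx.1] at h
  have hc : Commute (x : G) y := by
    have h1 := (h x hx).eq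
    rw [← mul_assoc, mul_self hD hx.1, one_mul] at h1
    show (x : G) * y = y * x
    calc (x : G) * y = x * (x * y * x) := by rw [← h1]
      _ = y * x := by rw [← mul_assoc, ← mul_assoc, mul_self hD hx.1, one_mul]
  exact Subtype.ext (perp_pair hD hN ha hx hy hc h)

theorem img_ne_one (hN : NoDom D) {a : G} (ha : a ∈ D) {x : closure (Perp D a)}
    (hx : (x : G) ∈ Perp D a) : (x : closure (Perp D a) ⧸ center (closure (Perp D a))) ≠ 1 := fun h =>
  perp_central hN ha hx (mem_center_closure_iff.1 ((QuotientGroup.eq_one_iff x).1 h))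

theorem img_commute (hD : Cfsg.IsThreeTranspositionSet D) {a : G} {x y : closure (Perp D a)}
    (hx : (x : G) ∈ Perp D a) (hy : (y : G) ∈ Perp D a)
    (h : Commute (x : closure (Perp D a) ⧸ center (closure (Perp D a))) y) : Commute (x : G) y := by
  by_contra hn
  set Z := center (closure (Perp D a))
  have h3 : (x * y) ^ 3 = 1 := Subtype.ext (by simpa using cube_of_not_commute hD hx.1 hy.1 hn)
  have hxx : (x : closure (Perp D a) ⧸ Z) * x = 1 := by
    rw [← QuotientGroup.mk_mul, show x * x = 1 from Subtype.ext (mul_self hD hx.1)]; rfl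
  have hyy : (y : closure (Perp D a) ⧸ Z) * y = 1 := by
    rw [← QuotientGroup.mk_mul, show y * y = 1 from Subtype.ext (mul_self hD hy.1)]; rfl
  have h2 : (x * y) ^ 2 ∈ Z := by
    rw [← QuotientGroup.eq_one_iff, QuotientGroup.mk_pow, QuotientGroup.mk_mul]
    exact (sq_eq_one_iff_commute hxx hyy).2 h
  have hxy : x * y ∈ Z := by
    have : x * y = (x * y) ^ 3 * ((x * y) ^ 2)⁻¹ := by group
    rw [this, h3, one_mul]
    exact Z.inv_mem h2
  have h1 := (mem_center_closure_iff.1 hxy x hx).eq
  rw [Subgroup.coe_mul, ← mul_assoc, mul_self hD hx.1, one_mul] at h1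
  exact hn (show (x : G) * y = y * x from calc
    (x : G) * y = x * (x * y * x) := by rw [← h1]
    _ = y * x := by rw [← mul_assoc, ← mul_assoc, mul_self hD hx.1, one_mul])

theorem perp_conj_self (hD : ∀ g : G, ∀ d ∈ D, g * d * g⁻¹ ∈ D) {a g z : G} (hg : Commute g a)
    (hz : z ∈ Perp D a) : g * z * g⁻¹ ∈ Perp D a := by
  refine ⟨hD g z hz.1, fun e => hz.2.1 ?_, ?_⟩
  · calc z = g⁻¹ * (g * z * g⁻¹) * g := by group
      _ = g⁻¹ * (a * g) := by rw [e]; group
      _ = a := by rw [← hg.eq]; group
  · have : g * a * g⁻¹ = a := by rw [hg.eq, mul_inv_cancel_right]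
    rw [← this]
    exact commute_conj_iff.2 hz.2.2

theorem commute_of_mem_closure_perp {a g : G} (hg : g ∈ closure (Perp D a)) : Commute g a := by
  have hle : closure (Perp D a) ≤ Subgroup.centralizer {a} := by
    rw [Subgroup.closure_le]
    exact fun z hz => Subgroup.mem_centralizer_singleton_iff.2 hz.2.2.symm.eq
  exact Subgroup.mem_centralizer_singleton_iff.1 (hle hg)

/-- The perpendicular set of `a` inside the group it generates. -/
theorem perp_group (hD : Cfsg.IsThreeTranspositionGroup D) (a : G) :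
    Cfsg.IsThreeTranspositionGroup {x : closure (Perp D a) | (x : G) ∈ Perp D a} := by
  refine ⟨⟨fun d hd => ?_, fun d hd e he => ?_⟩, fun g d hd => ?_, Subgroup.closure_closure_coe_preimage⟩
  · rw [← Subgroup.orderOf_coe]; exact hD.1.1 _ hd.1
  · exact (hD.1.2 _ hd.1 _ he.1).imp (fun h => Subtype.ext (by simpa using h))
      (fun h => Subtype.ext (by simpa using h))
  · show ((g * d * g⁻¹ : closure (Perp D a)) : G) ∈ Perp D a
    simpa using perp_conj_self hD.2.1 (commute_of_mem_closure_perp g.2) hd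

theorem img_group (hD : Cfsg.IsThreeTranspositionGroup D) (hN : NoDom D) {a : G} (ha : a ∈ D) :
    Cfsg.IsThreeTranspositionGroup (img (Perp D a)) := by
  have hE := perp_group hD a
  refine ⟨⟨?_, ?_⟩, ?_, ?_⟩
  · rintro _ ⟨x, hx, rfl⟩
    refine orderOf_eq_prime ?_ (img_ne_one hN ha hx)
    rw [← QuotientGroup.mk_pow, pow_two, mul_self hE.1 hx]
    rfl
  · rintro _ ⟨x, hx, rfl⟩ _ ⟨y, hy, rfl⟩
    exact (hE.1.2 x hx y hy).imp (fun h => by rw [← QuotientGroup.mk_mul, ← QuotientGroup.mk_pow, h]; rfl)
      (fun h => by rw [← QuotientGroup.mk_mul, ← QuotientGroup.mk_pow, h]; rfl)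
  · intro g
    induction g using QuotientGroup.induction_on with
    | H g =>
      rintro _ ⟨x, hx, rfl⟩
      exact ⟨g * x * g⁻¹, hE.2.1 g x hx, by simp⟩
  · have h := congrArg (Subgroup.map (QuotientGroup.mk' (center (closure (Perp D a))))) hE.2.2
    rw [MonoidHom.map_closure, Subgroup.map_top_of_surjective _ (QuotientGroup.mk'_surjective _)] at h
    exact h

variable [Finite G]

theorem deep_of_core (hD : Cfsg.IsThreeTranspositionGroup D) {a : G}
    (h2 : Cfsg.pCore 2 (closure (Perp D a)) ≤ center (closure (Perp D a))) : Deep D a := by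
  intro c hc d hd hcd y hy
  let c' : closure (Perp D a) := ⟨c, Subgroup.subset_closure hc⟩
  let d' : closure (Perp D a) := ⟨d, Subgroup.subset_closure hd⟩
  have hsame : SameCommuting {x : closure (Perp D a) | (x : G) ∈ Perp D a} c' d' := fun e he =>
    ⟨fun h => Subtype.ext ((hcd e he).2 (congrArg Subtype.val h.symm.eq : Commute (e : G) d)).symm.eq,
      fun h => Subtype.ext ((hcd e he).1 (congrArg Subtype.val h.symm.eq : Commute (e : G) c)).symm.eq⟩
  have hmem : c' * d' ∈ center (closure (Perp D a)) :=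
    h2 (pairProducts_le_pCore (perp_group hD a) (Subgroup.subset_closure ⟨c', hc, d', hd, hsame, rfl⟩))
  exact mem_center_closure_iff.1 hmem y hy

theorem core_le_center_of_quotient {H : Type*} [Group H] [Finite H]
    (h : Cfsg.pCore 2 (H ⧸ center H) = ⊥) : Cfsg.pCore 2 H ≤ center H := by
  haveI := Fact.mk Nat.prime_two
  intro x hx
  rw [← QuotientGroup.eq_one_iff]
  have hle : (Cfsg.pCore 2 H).map (QuotientGroup.mk' (center H)) ≤ Cfsg.pCore 2 (H ⧸ center H) :=
    le_sSup ⟨(pCore_normal_two).map _ (QuotientGroup.mk'_surjective _), (pCore_isPGroup 2).map _⟩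
  rw [h] at hle
  exact Subgroup.mem_bot.1 (hle ⟨x, hx, rfl⟩)

theorem noDom_of_mono (hD : Cfsg.IsThreeTranspositionClass D) (hM : Mono G)
    (hG : ¬ IsPGroup 3 (commutator G)) : NoDom D := fun a ha b hb _ h =>
  (eq_of_adj_eq hD hM (exists_noncommuting hD hG) hb ha
    (adj_eq_of_subset hD hb ha fun z hz => ⟨hz.1, fun hc => hz.2 (h z hz.1 hc.symm).symm⟩)).symm

omit [Finite G] in
theorem img_class (hD : Cfsg.IsThreeTranspositionClass D) (hN : NoDom D) {a : G} (ha : a ∈ D)
    (hne : (Perp D a).Nonempty)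
    (htr : ∀ b ∈ Perp D a, ∀ c ∈ Perp D a, ∃ g ∈ closure (Perp D a), g * b * g⁻¹ = c) :
    Cfsg.IsThreeTranspositionClass (img (Perp D a)) := by
  have hQ := img_group (class_toGroup hD) hN ha
  obtain ⟨b, hb⟩ := hne
  let b' : closure (Perp D a) := ⟨b, Subgroup.subset_closure hb⟩
  refine ⟨hQ.1, ⟨(b' : closure (Perp D a) ⧸ center (closure (Perp D a))), ⟨b', hb, rfl⟩, Set.ext fun q => ⟨?_, ?_⟩⟩, hQ.2.2⟩
  · rintro ⟨x, hx, rfl⟩
    obtain ⟨g, hg, hgb⟩ := htr b hb x hx
    have e : (⟨g, hg⟩ : closure (Perp D a)) * b' * (⟨g, hg⟩ : closure (Perp D a))⁻¹ = x :=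
      Subtype.ext (by simpa using hgb)
    exact isConj_iff.2 ⟨((⟨g, hg⟩ : closure (Perp D a)) : closure (Perp D a) ⧸ center (closure (Perp D a))),
      by rw [← e]; simp⟩
  · intro hq
    obtain ⟨g, rfl⟩ := isConj_iff.1 (hq : IsConj _ q)
    exact hQ.2.1 g _ ⟨b', hb, rfl⟩

theorem img_noDom (hD : Cfsg.IsThreeTranspositionSet D) (hN : NoDom D) {a : G} (ha : a ∈ D)
    (hE : Cfsg.IsThreeTranspositionClass (img (Perp D a))) (hdeep : Deep D a) :
    NoDom (img (Perp D a)) := by
  intro p hp q hq hpq h
  have heq : Adj (img (Perp D a)) q = Adj (img (Perp D a)) p :=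
    adj_eq_of_subset hE hq hp fun z hz => ⟨hz.1, fun hc => hz.2 (h z hz.1 hc.symm).symm⟩
  obtain ⟨c, hc, rfl⟩ := hp
  obtain ⟨d, hd, rfl⟩ := hq
  have key : ∀ y ∈ Perp D a, Commute y (c : G) ↔ Commute y (d : G) := by
    intro y hy
    let y' : closure (Perp D a) := ⟨y, Subgroup.subset_closure hy⟩
    have hy' : (y' : closure (Perp D a) ⧸ center (closure (Perp D a))) ∈ img (Perp D a) := ⟨y', hy, rfl⟩
    have hmap : ∀ u v : closure (Perp D a), Commute (u : G) v →
        Commute (u : closure (Perp D a) ⧸ center (closure (Perp D a))) v := fun u v huv =>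
      (show Commute u v from Subtype.ext huv.eq).map (QuotientGroup.mk' _)
    constructor
    · intro h1
      exact img_commute hD (x := y') hy hd (h _ hy' (hmap y' c h1))
    · intro h1
      by_contra h2
      have h3 : (y' : closure (Perp D a) ⧸ center (closure (Perp D a))) ∈ Adj (img (Perp D a)) c :=
        ⟨hy', fun e => h2 (img_commute hD (x := y') hy hc e.symm)⟩
      rw [← heq] at h3
      exact h3.2 (hmap y' d h1).symm
  rw [Subtype.ext (perp_pair hD hN ha hc hd (img_commute hD hc hd hpq) (hdeep _ hc _ hd key))]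

omit [Finite G] in
/-- Five pairwise commuting members have product different from one. -/
theorem five_prod_ne_one (hD : Cfsg.IsThreeTranspositionSet D) (hN : NoDom D)
    (hdeep : ∀ a ∈ D, Deep D a) (l : List G) (hlen : l.length = 5) (hn : l.Nodup)
    (hmem : ∀ x ∈ l, x ∈ D) (hcomm : ∀ x ∈ l, ∀ y ∈ l, Commute x y) : l.prod ≠ 1 := by
  intro hp
  obtain ⟨b, c, d, e, f, rfl⟩ : ∃ b c d e f, l = [b, c, d, e, f] := by
    match l, hlen with
    | [b, c, d, e, f], _ => exact ⟨b, c, d, e, f, rfl⟩
  simp only [List.mem_cons, List.not_mem_nil, or_false, forall_eq_or_imp, forall_eq] at hmem hcomm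
  obtain ⟨hb, hc, hd, he, hf⟩ := hmem
  obtain ⟨⟨-, cbc, cbd, -, -⟩, ⟨-, -, ccd, cce, ccf⟩, ⟨-, -, -, cde, cdf⟩, ⟨-, -, -, -, cef⟩, -⟩ := hcomm
  simp only [List.nodup_cons, List.mem_cons, List.not_mem_nil, or_false, not_or, List.nodup_nil,
    and_true] at hn
  obtain ⟨⟨nbc, nbd, nbe, nbf⟩, ⟨ncd, nce, ncf⟩, ⟨nde, ndf⟩, nef, -⟩ := hn
  simp only [List.prod_cons, List.prod_nil, mul_one] at hp
  have hbc : b * c * (d * e * f) = 1 := by rw [← hp]; group
  have hbd : b * d * (c * e * f) = 1 := by
    rw [← hp]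
    calc b * d * (c * e * f) = b * (d * c) * (e * f) := by group
      _ = b * (c * d) * (e * f) := by rw [ccd.eq]
      _ = _ := by group
  have k1 : ∀ y ∈ Perp D b, Commute y c → Commute y d := fun y hy h => by
    have h1 : Commute y (d * e * f) := by
      rw [eq_inv_of_mul_eq_one_right hbc]
      exact (hy.2.2.symm.mul_right h).inv_right
    exact (commute_mul_three hD hd he hf hy.1 cde cdf cef nde ndf nef h1).1
  have k2 : ∀ y ∈ Perp D b, Commute y d → Commute y c := fun y hy h => by
    have h1 : Commute y (c * e * f) := by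
      rw [eq_inv_of_mul_eq_one_right hbd]
      exact (hy.2.2.symm.mul_right h).inv_right
    exact (commute_mul_three hD hc he hf hy.1 cce ccf cef nce ncf nef h1).1
  have hcP : c ∈ Perp D b := ⟨hc, Ne.symm nbc, cbc⟩
  have hdP : d ∈ Perp D b := ⟨hd, Ne.symm nbd, cbd⟩
  exact ncd (perp_pair hD hN hb hcP hdP ccd
    (hdeep b hb c hcP d hdP fun y hy => ⟨k1 y hy, k2 y hy⟩))

omit [Finite G] in
/-- If the perpendicular quotient of `a` admits no five commuting members with product one, no six
commuting members of `D`, beginning with `a`, have product one. -/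
theorem six_prod_ne_one (hD : Cfsg.IsThreeTranspositionSet D) (hN : NoDom D) {a : G} (ha : a ∈ D)
    (hE : Cfsg.IsThreeTranspositionSet (img (Perp D a))) (hN' : NoDom (img (Perp D a)))
    (hdeep : ∀ q ∈ img (Perp D a), Deep (img (Perp D a)) q) (l : List G) (hlen : l.length = 5)
    (hn : (a :: l).Nodup) (hmem : ∀ x ∈ l, x ∈ D)
    (hcomm : ∀ x ∈ a :: l, ∀ y ∈ a :: l, Commute x y) : (a :: l).prod ≠ 1 := by
  intro hp
  rw [List.nodup_cons] at hn
  have hP : ∀ x ∈ l, x ∈ Perp D a := fun x hx =>
    ⟨hmem x hx, fun e => hn.1 (e ▸ hx), hcomm a List.mem_cons_self x (List.mem_cons_of_mem _ hx)⟩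
  let l' : List (closure (Perp D a)) :=
    l.attach.map fun x => ⟨x.1, Subgroup.subset_closure (hP x.1 x.2)⟩
  have hl' : l'.map (fun x : closure (Perp D a) => (x : G)) = l := by
    simp only [l', List.map_map]
    exact List.attach_map_subtype_val l
  have hl'P : ∀ x ∈ l', (x : G) ∈ l := fun x hx => by
    have := List.mem_map_of_mem (f := fun x : closure (Perp D a) => (x : G)) hx
    rwa [hl'] at this
  have hprod : ((l'.prod : closure (Perp D a)) : G) = l.prod := by
    conv_rhs => rw [← hl']
    exact map_list_prod (closure (Perp D a)).subtype l'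
  have hc : l'.prod ∈ center (closure (Perp D a)) := by
    rw [mem_center_closure_iff]
    intro s hs
    rw [List.prod_cons] at hp
    rw [hprod, eq_inv_of_mul_eq_one_right hp]
    exact hs.2.2.symm.inv_right
  refine five_prod_ne_one hE hN' hdeep (l'.map QuotientGroup.mk) ?_ ?_ ?_ ?_ ?_
  · simp [l', hlen]
  · refine List.Nodup.map_on (fun x hx y hy h => ?_) ?_
    · exact img_inj hD hN ha (hP _ (hl'P x hx)) (hP _ (hl'P y hy)) h
    · exact List.Nodup.of_map (fun x : closure (Perp D a) => (x : G)) (hl' ▸ hn.2)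
  · simp only [List.forall_mem_map]
    exact fun x hx => ⟨x, hP _ (hl'P x hx), rfl⟩
  · simp only [List.forall_mem_map]
    exact fun x hx y hy => (show Commute x y from Subtype.ext (hcomm _ (List.mem_cons_of_mem _ (hl'P x hx)) _
      (List.mem_cons_of_mem _ (hl'P y hy))).eq).map (QuotientGroup.mk' _)
  · rw [show (QuotientGroup.mk : closure (Perp D a) → _) = ⇑(QuotientGroup.mk' (center (closure (Perp D a)))) from rfl,
      ← map_list_prod]
    exact (QuotientGroup.eq_one_iff _).2 hc

/-- The two-core of a group of the shape of the perpendicular quotient in type M(24) is trivial. -/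
theorem core_eq_bot_of_shape (hD : Cfsg.IsThreeTranspositionGroup D) (hZ : center G = ⊥) {d c : G}
    (hd : d ∈ D) (hc : c ∈ D) (hdc : ¬ Commute d c)
    (hP : Cfsg.pCore 2 (closure (Perp D d) ⧸ center (closure (Perp D d))) = ⊥)
    (hcard : ¬ Nat.card (closure (Perp D d) ⧸ center (closure (Perp D d))) ∣
      Nat.card (closure (Perp D d ∩ Perp D c) ⧸ center (closure (Perp D d ∩ Perp D c)))) :
    Cfsg.pCore 2 G = ⊥ := by
  haveI := Fact.mk Nat.prime_two
  set N := Cfsg.pCore 2 G with hN
  have twin : ∀ y ∈ D, ∀ y' ∈ D, y * y' ∈ N → ∀ z ∈ D, Commute z y → Commute z y' := by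
    intro y hy y' hy' hyy' z hz hzy
    rcases hD.1.2 z hz y' hy' with h2 | h3
    · exact (sq_eq_one_iff_commute (mul_self hD.1 hz) (mul_self hD.1 hy')).1 h2
    · refine commute_of_mem_two_core hD.1 hz hy' ?_
      rw [← QuotientGroup.eq_one_iff] at hyy' ⊢
      have e : ((z * y' : G) : G ⧸ N) = ((z * y : G) : G ⧸ N) := by
        rw [show z * y' = z * y * (y⁻¹ * y') by group, inv_eq hD.1 hy, QuotientGroup.mk_mul N (z * y),
          hyy', mul_one]
      have e3 : ((z * y : G) : G ⧸ N) ^ 3 = 1 := by rw [← e, ← QuotientGroup.mk_pow, h3]; rfl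
      have e2 : ((z * y : G) : G ⧸ N) ^ 2 = 1 := by
        rw [← QuotientGroup.mk_pow,
          (sq_eq_one_iff_commute (mul_self hD.1 hz) (mul_self hD.1 hy)).2 hzy]; rfl
      rw [e]
      exact eq_one_of_pow_coprime e2 e3 (by norm_num)
  let M : Set G := {e | e ∈ D ∧ ∃ n ∈ N, n * e * n⁻¹ ≠ e}
  have hMconj : ∀ g, ∀ e ∈ M, g * e * g⁻¹ ∈ M := by
    rintro g e ⟨he, n, hn, hne⟩
    refine ⟨hD.2.1 g e he, g * n * g⁻¹, pCore_normal_two.conj_mem n hn g, fun h => hne ?_⟩
    have h' : g * (n * e * n⁻¹) * g⁻¹ = g * e * g⁻¹ := by rw [← h]; group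
    exact mul_left_cancel (mul_right_cancel h')
  have hMadj : ∀ y ∈ M, ∀ z ∈ D, ¬ Commute y z → z ∈ M := fun y hy z hz hyz => by
    rw [← conj_pair hD.1 hy.1 hz hyz]
    exact hMconj _ y hy
  have hcentral : ∀ y ∈ M, y ∈ Perp D d → ∀ z ∈ Perp D d, Commute z y := by
    rintro y ⟨hy, n, hn, hne⟩ hyP z hz
    have hmem : y * (n * y * n⁻¹) ∈ N := by
      have e : y * (n * y * n⁻¹) = (y * n * y⁻¹) * n⁻¹ := by rw [inv_eq hD.1 hy]; group
      rw [e]
      exact mul_mem (pCore_normal_two.conj_mem n hn y) (inv_mem hn)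
    have hy' := hD.2.1 n y hy
    have hyy := commute_of_mem_two_core hD.1 hy hy' hmem
    generalize n * y * n⁻¹ = y' at hne hmem hy' hyy
    have hdy' : Commute d y' := twin y hy y' hy' hmem d hd hyP.2.2
    rcases eq_or_ne y' d with rfl | hne'
    · refine twin y' hy' y hy ?_ z hz.1 hz.2.2.symm
      rw [← hyy.eq]
      exact hmem
    · have hy'P : y' ∈ Perp D d := ⟨hy', hne', hdy'⟩
      have hx : y * y' ∈ closure (Perp D d) :=
        mul_mem (Subgroup.subset_closure hyP) (Subgroup.subset_closure hy'P)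
      have h1 : (⟨y * y', hx⟩ : closure (Perp D d)) ∈ center (closure (Perp D d)) :=
        core_le_center_of_quotient hP (show (⟨y * y', hx⟩ : closure (Perp D d)) ∈ Cfsg.pCore 2 _ from
          (le_sSup ⟨inferInstance, (pCore_isPGroup 2).comap_of_injective _ Subtype.val_injective⟩ :
            N.subgroupOf (closure (Perp D d)) ≤ Cfsg.pCore 2 _) hmem)
      exact (commute_mul_two hD.1 hy hy' hz.1 hyy (Ne.symm hne) (mem_center_closure_iff.1 h1 z hz)).1
  by_cases hdM : d ∈ M
  · exfalso
    apply hcard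
    have hcM : c ∈ M := hMadj d hdM c hc hdc
    set S := Perp D d ∩ Perp D c
    let incl : closure S →* closure (Perp D d) :=
      Subgroup.inclusion (Subgroup.closure_mono Set.inter_subset_left)
    let φ : closure S →* closure (Perp D d) ⧸ center (closure (Perp D d)) :=
      (QuotientGroup.mk' _).comp incl
    have hsplit : ∀ y ∈ Perp D d, y ∈ S ∨ ∀ z ∈ Perp D d, Commute z y := by
      intro y hy
      by_cases hyM : y ∈ M
      · exact Or.inr (hcentral y hyM hy)
      · refine Or.inl ⟨hy, hy.1, fun e => hyM (e ▸ hcM), ?_⟩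
        by_contra h
        exact hyM (hMadj c hcM y hy.1 h)
    have hsurj : Function.Surjective φ := by
      rw [← MonoidHom.range_eq_top, eq_top_iff,
        ← Subgroup.map_top_of_surjective (QuotientGroup.mk' _) (QuotientGroup.mk'_surjective _),
        ← (perp_group hD d).2.2, MonoidHom.map_closure, Subgroup.closure_le]
      rintro _ ⟨x, hx, rfl⟩
      rcases hsplit x hx with h | h
      · exact ⟨⟨x, Subgroup.subset_closure h⟩, rfl⟩
      · exact ⟨1, by rw [map_one]; exact ((QuotientGroup.eq_one_iff x).2 (mem_center_closure_iff.2 h)).symm⟩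
    have hker : φ.ker = center (closure S) := by
      ext x
      rw [MonoidHom.mem_ker]
      show (incl x : closure (Perp D d) ⧸ center (closure (Perp D d))) = 1 ↔ _
      rw [QuotientGroup.eq_one_iff, mem_center_closure_iff, mem_center_closure_iff]
      refine ⟨fun h s hs => h s hs.1, fun h s hs => ?_⟩
      rcases hsplit s hs with hs' | hs'
      · exact h s hs'
      · show Commute s (x : G)
        have hle : closure S ≤ Subgroup.centralizer {s} := by
          rw [Subgroup.closure_le]
          exact fun t ht => Subgroup.mem_centralizer_singleton_iff.2 (hs' t ht.1).eq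
        exact (Subgroup.mem_centralizer_singleton_iff.1 (hle x.2) : Commute (x : G) s).symm
    have e := QuotientGroup.quotientKerEquivOfSurjective φ hsurj
    rw [← Nat.card_congr e.toEquiv, Nat.card_congr (QuotientGroup.quotientMulEquivOfEq hker).toEquiv]
  · rw [eq_bot_iff, ← hZ]
    intro n hn
    rw [← Subgroup.centralizer_univ, ← Subgroup.coe_top, ← hD.2.2, Subgroup.centralizer_closure]
    intro y hy
    by_contra hne
    have hyM : y ∈ M := ⟨hy, n, hn, fun e => hne (mul_inv_eq_iff_eq_mul.1 e).symm⟩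
    have hMP : ∀ u ∈ M, u ∈ Perp D d := fun u hu => by
      refine ⟨hu.1, fun e => hdM (e ▸ hu), ?_⟩
      by_contra h
      exact hdM (hMadj u hu d hd fun e => h e.symm)
    have hyc : y ∈ center G := by
      rw [← Subgroup.centralizer_univ, ← Subgroup.coe_top, ← hD.2.2, Subgroup.centralizer_closure]
      intro z hz
      by_contra hzy
      have hzM := hMadj y hyM z hz fun e => hzy e.symm.eq
      exact hzy (hcentral y hyM (hMP y hyM) z (hMP z hzM)).eq
    rw [hZ, Subgroup.mem_bot] at hyc
    exact ne_one hD.1 hy hyc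

theorem eq_bot_or_top_core {X : Type*} [Group X] [Finite X] [IsSimpleGroup X] :
    Cfsg.pCore 2 X = ⊥ ∨ Cfsg.pCore 2 X = ⊤ :=
  IsSimpleGroup.eq_bot_or_eq_top_of_normal _ pCore_normal_two

omit [Finite G] in
/-- Two factorizations into two commuting members agree. -/
theorem pair_unique (hD : Cfsg.IsThreeTranspositionSet D) (hN : NoDom D) {a b c d : G} (ha : a ∈ D)
    (hb : b ∈ D) (hc : c ∈ D) (hd : d ∈ D) (hab : Commute a b) (hcd : Commute c d) (nab : a ≠ b)
    (ncd : c ≠ d) (h : a * b = c * d) : (a = c ∧ b = d) ∨ (a = d ∧ b = c) := by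
  have haa := mul_self hD ha
  have hbb := mul_self hD hb
  rcases eq_or_ne a c with rfl | nac
  · exact Or.inl ⟨rfl, mul_left_cancel h⟩
  rcases eq_or_ne a d with rfl | nad
  · exact Or.inr ⟨rfl, mul_left_cancel (h.trans hcd.eq)⟩
  exfalso
  rcases eq_or_ne b c with rfl | nbc
  · exact nad (mul_right_cancel (h.trans hcd.eq))
  rcases eq_or_ne b d with rfl | nbd
  · exact nac (mul_right_cancel h)
  have hc' := commute_mul_two hD ha hb hc hab nab (h ▸ (Commute.refl c).mul_right hcd)
  have hd' := commute_mul_two hD ha hb hd hab nab (h ▸ hcd.symm.mul_right (Commute.refl d))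
  have e : a = b * c * d := by
    calc a = a * b * b := by rw [mul_assoc, hbb, mul_one]
      _ = c * d * b := by rw [h]
      _ = _ := by rw [mul_assoc, hd'.2.eq, ← mul_assoc, hc'.2.eq]
  exact nab (hN a ha b hb hab fun y hy hya => (commute_mul_three hD hb hc hd hy hc'.2.symm hd'.2.symm hcd
    nbc nbd ncd (e ▸ hya)).1)

omit [Finite G] in
theorem pair_unique_list (hD : Cfsg.IsThreeTranspositionSet D) (hN : NoDom D) {l l' : List G}
    (hl : l.Nodup ∧ l.length = 2 ∧ (∀ a ∈ l, a ∈ D) ∧ ∀ a ∈ l, ∀ b ∈ l, Commute a b)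
    (hl' : l'.Nodup ∧ l'.length = 2 ∧ (∀ a ∈ l', a ∈ D) ∧ ∀ a ∈ l', ∀ b ∈ l', Commute a b)
    (h : l.prod = l'.prod) : ∀ x, x ∈ l ↔ x ∈ l' := by
  match l, hl.2.1, l', hl'.2.1 with
  | [a, b], _, [c, d], _ =>
    simp only [List.prod_cons, List.prod_nil, mul_one] at h
    have nab : a ≠ b := fun e => (List.nodup_cons.1 hl.1).1 (e ▸ List.mem_singleton_self _)
    have ncd : c ≠ d := fun e => (List.nodup_cons.1 hl'.1).1 (e ▸ List.mem_singleton_self _)
    intro x
    rcases pair_unique hD hN (hl.2.2.1 a (by simp)) (hl.2.2.1 b (by simp)) (hl'.2.2.1 c (by simp))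
      (hl'.2.2.1 d (by simp)) (hl.2.2.2 a (by simp) b (by simp)) (hl'.2.2.2 c (by simp) d (by simp))
      nab ncd h with ⟨rfl, rfl⟩ | ⟨rfl, rfl⟩
    · exact Iff.rfl
    · simp [or_comm]

omit [Finite G] in
/-- Factorizations into at most three commuting members agree, given that six commuting members never
have product one. -/
theorem factor_unique (hD : Cfsg.IsThreeTranspositionSet D) (hN : NoDom D)
    (h6 : ∀ L : List G, L.length = 6 → L.Nodup → (∀ x ∈ L, x ∈ D) →
      (∀ x ∈ L, ∀ y ∈ L, Commute x y) → L.prod ≠ 1)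
    {m : ℕ} (hm : m ≤ 3) {j : G} {l l' : List G}
    (hl : l.Nodup ∧ l.length = m ∧ (∀ a ∈ l, a ∈ D) ∧ (∀ a ∈ l, ∀ b ∈ l, Commute a b) ∧ l.prod = j)
    (hl' : l'.Nodup ∧ l'.length = m ∧ (∀ a ∈ l', a ∈ D) ∧ (∀ a ∈ l', ∀ b ∈ l', Commute a b) ∧ l'.prod = j) :
    ∀ x : G, x ∈ l ↔ x ∈ l' := by
  classical
  obtain ⟨hn, hlen, hmem, hcomm, hp⟩ := hl
  obtain ⟨hn', hlen', hmem', hcomm', hp'⟩ := hl'
  interval_cases m
  · rw [List.length_eq_zero_iff.1 hlen, List.length_eq_zero_iff.1 hlen']; exact fun _ => Iff.rfl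
  · obtain ⟨a, rfl⟩ := List.length_eq_one_iff.1 hlen
    obtain ⟨b, rfl⟩ := List.length_eq_one_iff.1 hlen'
    simp only [List.prod_cons, List.prod_nil, mul_one] at hp hp'
    rw [hp, hp']; exact fun _ => Iff.rfl
  · exact pair_unique_list hD hN ⟨hn, hlen, hmem, hcomm⟩ ⟨hn', hlen', hmem', hcomm'⟩ (hp.trans hp'.symm)
  · by_cases hshare : ∃ x ∈ l, x ∈ l'
    · obtain ⟨x, hx, hx'⟩ := hshare
      have hperm := List.perm_cons_erase hx
      have hperm' := List.perm_cons_erase hx'
      have e := hperm.prod_eq' (List.pairwise_of_forall_mem_list hcomm)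
      have e' := hperm'.prod_eq' (List.pairwise_of_forall_mem_list hcomm')
      rw [List.prod_cons] at e e'
      have key := pair_unique_list hD hN (l := l.erase x) (l' := l'.erase x)
        ⟨hn.erase x, by rw [List.length_erase_of_mem hx, hlen], fun a ha => hmem a (List.mem_of_mem_erase ha),
          fun a ha b hb => hcomm a (List.mem_of_mem_erase ha) b (List.mem_of_mem_erase hb)⟩
        ⟨hn'.erase x, by rw [List.length_erase_of_mem hx', hlen'], fun a ha => hmem' a (List.mem_of_mem_erase ha),
          fun a ha b hb => hcomm' a (List.mem_of_mem_erase ha) b (List.mem_of_mem_erase hb)⟩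
        (mul_left_cancel (e.symm.trans ((hp.trans hp'.symm).trans e')))
      intro y
      rw [hperm.mem_iff, hperm'.mem_iff, List.mem_cons, List.mem_cons, key]
    · push Not at hshare
      exfalso
      match l, hlen with
      | [a, b, c], _ =>
        simp only [List.nodup_cons, List.mem_cons, List.not_mem_nil, or_false, not_or] at hn
        have hcross : ∀ y ∈ l', ∀ x ∈ [a, b, c], Commute y x := by
          intro y hy
          have h1 : Commute y (a * b * c) := by
            have h2 : Commute y l'.prod := Commute.list_prod_right _ _ fun z hz => hcomm' y hy z hz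
            rw [hp', ← hp] at h2
            simpa [mul_assoc] using h2
          have h3 := commute_mul_three hD (hmem a (by simp)) (hmem b (by simp)) (hmem c (by simp))
            (hmem' y hy) (hcomm a (by simp) b (by simp)) (hcomm a (by simp) c (by simp))
            (hcomm b (by simp) c (by simp)) hn.1.1 hn.1.2 hn.2.1 h1
          simpa using h3
        refine h6 ([a, b, c] ++ l') (by simp [hlen']) ?_ ?_ ?_ ?_
        · exact List.nodup_append.2 ⟨by simp [hn], hn', fun x hx y hy e => hshare x hx (e ▸ hy)⟩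
        · exact fun x hx => (List.mem_append.1 hx).elim (hmem x) (hmem' x)
        · intro x hx y hy
          rcases List.mem_append.1 hx with hx | hx <;> rcases List.mem_append.1 hy with hy | hy
          · exact hcomm x hx y hy
          · exact (hcross y hy x hx).symm
          · exact hcross x hx y hy
          · exact hcomm' x hx y hy
        · rw [List.prod_append, hp, hp']
          refine mul_self_of_mem_closure (k := {x | x ∈ l'}) hcomm' (fun x hx => mul_self hD (hmem' x hx)) ?_
          rw [← hp']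
          exact list_prod_mem fun x hx => Subgroup.subset_closure hx

end CfsgLib.ThreeTrans
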